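/-
The cubic form in 27 variables: polarisation, and the columns of an isometry.
-/
import Cfsg.Prelude.Def_E6

set_option autoImplicit false

namespace CA.Cub27

open Cfsg.Lie Matrix

variable {F : Type*} [Field F]

/-- first vertices of the five triangles at a point -/
def pp (a : I27) : Fin 5 → I27 := ![(a.1, a.2.1 + 1, a.2.2 + 1), (a.1, a.2.1 + 1, a.2.2 + 2), (a.1 + 1, a.2.2, 0),
  (a.1 + 1, a.2.2, 1), (a.1 + 1, a.2.2, 2)]
/-- second vertices of the five triangles at a point -/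
def qq (a : I27) : Fin 5 → I27 := ![(a.1, a.2.1 + 2, a.2.2 + 2), (a.1, a.2.1 + 2, a.2.2 + 1), (a.1 + 2, 0, a.2.1),
  (a.1 + 2, 1, a.2.1), (a.1 + 2, 2, a.2.1)]
/-- signs of the five triangles -/
def ee (n : Fin 5) : F := if n = 0 then 1 else -1
/-- the partial derivatives -/
def sh (v : I27 → F) (a : I27) : F := ∑ n, ee n * (v (pp a n) * v (qq a n))
/-- the derivative -/
def F1 (y x : I27 → F) : F := ∑ a, y a * sh x a
/-- the polar form of a partial derivative -/
def bb (a : I27) (x y : I27 → F) : F := ∑ n, ee n * (x (pp a n) * y (qq a n) + x (qq a n) * y (pp a n))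
/-- basis vectors -/
abbrev ev (a : I27) : I27 → F := Pi.single a 1
/-- numbering of the points -/
def enc (a : I27) : ℕ := 9 * a.1 + 3 * a.2.1 + a.2.2
/-- adjacency -/
def N (a b : I27) : Prop := Nat.testBit 0x1b927005b241c0da480761a4b8145490e30c9203b6093c0b412471b02481f801b920e05b24038da49c061a4871454901f0c92e03609238b41240fb024c93801b920e05b24038d925c061a4871454901f0c49e03609238b41240fb0 (27 * enc a + enc b) = true

instance decN (a b : I27) : Decidable (N a b) := inferInstanceAs (Decidable (_ = _))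

theorem N_iff : ∀ a b, N a b ↔ ∃ n, pp a n = b ∨ qq a n = b := by decide +kernel
theorem N_irrefl : ∀ a, ¬N a a := by decide +kernel
theorem pq_ne : ∀ a n m, pp a n ≠ qq a m ∧ qq a m ≠ pp a n ∧ (pp a n = pp a m ↔ n = m) ∧ (qq a n = qq a m ↔ n = m) := by
  decide +kernel
set_option synthInstance.maxSize 2000 in
theorem exists_tri : ∀ a b, N a b → ∃ k n, ((pp k n = a ∧ qq k n = b) ∨ (pp k n = b ∧ qq k n = a)) ∧
    ∀ m, m ≠ n → pp k m ≠ a ∧ ¬N a (pp k m) := by decide +kernel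

theorem ee_ne (n : Fin 5) : (ee n : F) ≠ 0 := by unfold ee; split_ifs <;> simp

theorem cubicT_add (x y : I27 → F) : cubicT (x + y) = cubicT x + F1 y x + F1 x y + cubicT y := by
  simp [cubicT, mat3, det_fin_three, trace, Matrix.mul_apply, F1, sh, Fintype.sum_prod_type, Fin.sum_univ_three,
    Fin.sum_univ_five, pp, qq, ee]
  ring

theorem F1_smul (c : F) (x y : I27 → F) : F1 (c • y) x = c * F1 y x ∧ F1 y (c • x) = c ^ 2 * F1 y x := by
  simp only [F1, sh, Finset.mul_sum, Pi.smul_apply, smul_eq_mul]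
  exact ⟨Finset.sum_congr rfl fun _ _ => Finset.sum_congr rfl fun _ _ => by ring,
    Finset.sum_congr rfl fun _ _ => Finset.sum_congr rfl fun _ _ => by ring⟩

theorem F1_ev (a : I27) (x : I27 → F) : F1 (ev a) x = sh x a := by simp [F1, Pi.single_apply]

theorem bb_eq (a : I27) (x y : I27 → F) : bb a x y = sh (x + y) a - sh x a - sh y a := by
  simp only [bb, sh, ← Finset.sum_sub_distrib, Pi.add_apply]
  exact Finset.sum_congr rfl fun _ _ => by ring

theorem bb_q (a : I27) (n : Fin 5) (x : I27 → F) : bb a x (ev (qq a n)) = ee n * x (pp a n) := by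
  simp [bb, Pi.single_apply, pq_ne]
theorem bb_p (a : I27) (n : Fin 5) (x : I27 → F) : bb a x (ev (pp a n)) = ee n * x (qq a n) := by
  simp [bb, Pi.single_apply, pq_ne]
theorem bb_zero {a b : I27} (h : ¬N a b) (y : I27 → F) : bb a (ev b) y = 0 := by
  rw [N_iff] at h; push Not at h
  simp [bb, Pi.single_apply, h]
theorem sh_ev (a b : I27) : sh (ev b : I27 → F) a = 0 := Finset.sum_eq_zero fun n _ => by
  by_cases h : pp a n = b
  · simp [← h, pq_ne]
  · simp [h]

theorem mv_inv (g : GL I27 F) (v : I27 → F) : g.val *ᵥ (g⁻¹.val *ᵥ v) = v := by simp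
theorem inv_mv (g : GL I27 F) (v : I27 → F) : g⁻¹.val *ᵥ (g.val *ᵥ v) = v := by simp

section
variable (hc : ∃ c : F, c ≠ 0 ∧ c ≠ 1) {g : GL I27 F} (hg : g ∈ E6univ F)
include hc hg

theorem F1_inv (y x : I27 → F) : F1 (g.val *ᵥ y) (g.val *ᵥ x) = F1 y x := by
  obtain ⟨c, c0, c1⟩ := hc
  have hg : ∀ v, cubicT (g.val *ᵥ v) = cubicT v := hg
  have h1 := hg (x + y)
  have h2 := hg (x + c • y)
  rw [mulVec_add, cubicT_add, cubicT_add, hg, hg] at h1 h2
  rw [mulVec_smul, (F1_smul _ _ _).1, (F1_smul _ _ _).1, (F1_smul _ _ _).2, (F1_smul _ _ _).2] at h2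
  refine mul_left_cancel₀ (mul_ne_zero c0 (sub_ne_zero.2 c1)) ?_
  linear_combination c ^ 2 * h1 - h2

theorem bb_inv {a : I27} (ha : g.val *ᵥ ev a = ev a) (x y : I27 → F) : bb a (g.val *ᵥ x) (g.val *ᵥ y) = bb a x y := by
  simp only [bb_eq, ← F1_ev, ← mulVec_add]
  conv_lhs => rw [← ha]
  simp only [F1_inv hc hg]

theorem supp {a b c : I27} (ha : g.val *ᵥ ev a = ev a) (hb : ¬N a b) (h : N a c) : (g.val *ᵥ ev b) c = 0 := by
  have e (z : I27 → F) : bb a (g.val *ᵥ ev b) z = 0 := by rw [← mv_inv g z, bb_inv hc hg ha, bb_zero hb]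
  obtain ⟨n, rfl | rfl⟩ := (N_iff _ _).1 h
  · exact (mul_eq_zero.1 ((bb_q ..).symm.trans (e _))).resolve_left (ee_ne n)
  · exact (mul_eq_zero.1 ((bb_p ..).symm.trans (e _))).resolve_left (ee_ne n)

theorem forced {a b : I27} {n : Fin 5} (ha : g.val *ᵥ ev a = ev a)
    (h : (pp a n = b ∧ g.val *ᵥ ev (qq a n) = ev (qq a n)) ∨ (qq a n = b ∧ g.val *ᵥ ev (pp a n) = ev (pp a n))) :
    (g.val *ᵥ ev b) b = 1 := by
  refine mul_left_cancel₀ (ee_ne n) ?_
  rcases h with ⟨rfl, h⟩ | ⟨rfl, h⟩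
  · rw [← bb_q, ← h, bb_inv hc hg ha, bb_q, ev, Pi.single_eq_same]
  · rw [← bb_p, ← h, bb_inv hc hg ha, bb_p, ev, Pi.single_eq_same]

theorem white {a : I27} (h1 : (g.val *ᵥ ev a) a = 1) (h : ∀ b, b ≠ a → ¬N a b → (g.val *ᵥ ev a) b = 0) :
    g.val *ᵥ ev a = ev a := by
  funext b
  by_cases e : b = a
  · rw [e, h1, ev, Pi.single_eq_same]
  rw [show (ev a : I27 → F) b = 0 from Pi.single_eq_of_ne e _]
  by_cases hn : N a b
  swap; · exact h b e hn
  obtain ⟨k, n, h2, h3⟩ := exists_tri a b hn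
  have : sh (g.val *ᵥ ev a) k = 0 := by
    rw [← F1_ev, ← mv_inv g (ev k), F1_inv hc hg]; simp [F1, sh_ev]
  rw [sh, Finset.sum_eq_single n (fun m _ hm => by rw [h _ (h3 m hm).1 (h3 m hm).2]; simp) (by simp)] at this
  rcases h2 with ⟨h2, h4⟩ | ⟨h2, h4⟩ <;> simpa [h2, h4, h1, ee_ne] using this

end

end CA.Cub27
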