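/-
The isometry group of the cubic form in 27 variables is generated by the root elements.
-/
import Cfsg.Agent.Lib.Lie.E6F2

set_option autoImplicit false
set_option synthInstance.maxSize 2000

namespace CA.Cub27

open Cfsg.Lie Matrix CA.Chev

variable {F : Type*} [Field F]

theorem exists_root : ∀ a b, a ≠ b → ¬N a b → ∃ r < 72, sg r b * sg r b = 1 ∧ up r b = a ∧
    ∀ c, sg r c ≠ 0 → (c = b ∨ N a c) ∧ (up r c = a ∨ (N (up r c) b ∧ ¬N (up r c) a)) := by decide +kernel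

/-- allowed support -/
def Sup (L : List I27) (a b : I27) : Prop := ∀ c ∈ L, ¬N c a → ¬N c b
instance decSup (L : List I27) (a b : I27) : Decidable (Sup L a b) := inferInstanceAs (Decidable (∀ c ∈ L, _))
/-- admissible moves -/
def Adm (L : List I27) (a b : I27) : Prop := a ∉ L ∧ a ≠ b ∧ ¬N a b ∧ Sup L a b
instance decAdm (L : List I27) (a b : I27) : Decidable (Adm L a b) := inferInstanceAs (Decidable (_ ∧ _))
/-- one step of the reduction -/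
def Step (L : List I27) (a : I27) : Prop := a ∉ L ∧ ((∃ c ∈ L, ∃ n, (pp c n = a ∧ qq c n ∈ L) ∨ (qq c n = a ∧ pp c n ∈ L)) ∨
  ∀ b, b ∉ L → Sup L a b → Sup L b a → Adm L b a ∨ ∃ c, Adm L b c ∧ Adm L c a)
instance decStep (L : List I27) (a : I27) : Decidable (Step L a) := inferInstanceAs (Decidable (_ ∧ _))
/-- all steps -/
def chk : List I27 → Bool
  | [] => true
  | a :: L => decide (Step L a) && chk L
/-- counterexamples -/
def Bad (H : Subgroup (GL I27 F)) (L : List I27) (g : GL I27 F) : Prop :=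
  g ∈ E6univ F ∧ (∀ c ∈ L, g.val *ᵥ ev c = ev c) ∧ g ∉ H

section
variable (hc : ∃ c : F, c ≠ 0 ∧ c ≠ 1) {H : Subgroup (GL I27 F)} (hx : ∀ r < 72, ∀ t : F, xx r t ∈ H ∧ xx r t ∈ E6univ F)
  {L : List I27}
include hx

theorem move {a b : I27} (h : Adm L a b) {g : GL I27 F} (hg : Bad H L g) {w : I27 → F} (h0 : (g.val *ᵥ w) a ≠ 0) (c : F) :
    ∃ k, Bad H L k ∧ (k.val *ᵥ w) b = c ∧ ∀ d, d ≠ b → ¬N a d → (k.val *ᵥ w) d = (g.val *ᵥ w) d := by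
  obtain ⟨h1, h2, h3, h4⟩ := h
  obtain ⟨r, hr, e1, e2, e3⟩ := exists_root a b h2 h3
  have e1 : (sg r b : F) * sg r b = 1 := by exact_mod_cast congrArg (Int.cast (R := F)) e1
  refine ⟨xx r (sg r b * (c - (g.val *ᵥ w) b) / (g.val *ᵥ w) a) * g, ⟨mul_mem (hx r hr _).2 hg.1, fun d hd => ?_,
    fun e => hg.2.2 ((mul_mem_cancel_left (hx r hr _).1).1 e)⟩, ?_, fun d h5 h6 => ?_⟩ <;>
    rw [Units.val_mul, ← mulVec_mulVec]
  · funext x
    rw [hg.2.1 d hd, xx_mv hr]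
    by_cases e : sg r x = 0
    · simp [e]
    have : up r x ≠ d := by
      rintro rfl
      rcases (e3 x e).2 with e4 | e4
      exacts [h1 (e4 ▸ hd), h4 _ hd e4.2 e4.1]
    simp [this]
  · rw [xx_mv hr, e2]; field_simp; linear_combination (c - (g.val *ᵥ w) b) * e1
  · rw [xx_mv hr, show sg r d = 0 from not_not.1 fun e => (e3 d e).1.elim h5 h6]; simp

include hc

theorem elim {a : I27} (ha : a ∉ L) {g : GL I27 F} (hg : Bad H L g) (h1 : (g.val *ᵥ ev a) a = 1) (M : Finset I27) :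
    ∃ k, Bad H L k ∧ (k.val *ᵥ ev a) a = 1 ∧ ∀ b ∈ M, b ≠ a → ¬N a b → (k.val *ᵥ ev a) b = 0 := by
  induction M using Finset.induction_on with
  | empty => exact ⟨g, hg, h1, by simp⟩
  | insert b M _ ih =>
    obtain ⟨k, hk, k1, k2⟩ := ih
    by_cases h : Adm L a b
    · obtain ⟨k', e1, e2, e3⟩ := move hx h hk (k1 ▸ one_ne_zero) 0
      refine ⟨k', e1, (e3 a h.2.1 (N_irrefl a)).trans k1, fun d hd d1 d2 => ?_⟩
      by_cases e : d = b
      · rw [e, e2]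
      · rw [e3 d e d2, k2 d ((Finset.mem_insert.1 hd).resolve_left e) d1 d2]
    refine ⟨k, hk, k1, fun d hd d1 d2 => (Finset.mem_insert.1 hd).elim (fun e => ?_) fun e => k2 d e d1 d2⟩
    by_contra e0
    exact h ⟨ha, e ▸ d1.symm, e ▸ d2, fun c c1 c2 c3 => e0 (supp hc hk.1 (hk.2.1 c c1) c2 (e ▸ c3))⟩

theorem step {a : I27} (h : Step L a) {g : GL I27 F} (hg : Bad H L g) : ∃ k, Bad H (a :: L) k := by
  obtain ⟨k, hk, k1⟩ : ∃ k, Bad H L k ∧ (k.val *ᵥ ev a) a = 1 := by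
    rcases h.2 with ⟨c, c1, n, c2⟩ | h2
    · exact ⟨g, hg, forced hc hg.1 (hg.2.1 c c1) (c2.imp (.imp_right (hg.2.1 _)) (.imp_right (hg.2.1 _)))⟩
    have e : ∑ b, g⁻¹.val a b * (g.val *ᵥ ev a) b ≠ 0 := by
      rw [show ∑ b, _ = (g⁻¹.val *ᵥ (g.val *ᵥ ev a)) a from rfl, inv_mv]; simp
    obtain ⟨b, -, e⟩ := Finset.exists_ne_zero_of_sum_ne_zero e
    obtain ⟨e1, e2⟩ := mul_ne_zero_iff.1 e
    replace e1 : (g⁻¹.val *ᵥ ev b) a ≠ 0 := by simpa using e1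
    have hi : ∀ c ∈ L, g⁻¹.val *ᵥ ev c = ev c := fun c hc => by
      conv_lhs => rw [← hg.2.1 c hc, inv_mv]
    rcases h2 b (fun hb => e1 (by rw [hi b hb]; exact Pi.single_eq_of_ne (by rintro rfl; exact h.1 hb) _))
      (fun c c1 c2 c3 => e2 (supp hc hg.1 (hg.2.1 c c1) c2 c3))
      (fun c c1 c2 c3 => e1 (supp hc (inv_mem hg.1) (hi c c1) c2 c3)) with h3 | ⟨c, h3, h4⟩
    · exact (move hx h3 hg e2 1).imp fun _ h => ⟨h.1, h.2.1⟩
    · obtain ⟨k, k1, k2, -⟩ := move hx h3 hg e2 1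
      exact (move hx h4 k1 (k2 ▸ one_ne_zero) 1).imp fun _ h => ⟨h.1, h.2.1⟩
  obtain ⟨g, g1, g2, g3⟩ := elim hc hx h.1 hk k1 Finset.univ
  exact ⟨g, g1.1, List.forall_mem_cons.2 ⟨white hc g1.1 g2 fun b => g3 b (Finset.mem_univ b), g1.2.1⟩, g1.2.2⟩

theorem steps {g : GL I27 F} (hg : Bad H [] g) : ∀ L, chk L = true → ∃ k, Bad H L k
  | [], _ => ⟨g, hg⟩
  | a :: L, h => by
    simp only [chk, Bool.and_eq_true, decide_eq_true_eq] at h
    obtain ⟨k, hk⟩ := steps hg L h.2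
    exact step hc hx h.1 hk

theorem le_of_xx : E6univ F ≤ H := fun g hg => not_not.1 fun e => by
  obtain ⟨L, h1, h2⟩ : ∃ L, chk L = true ∧ ∀ a, a ∈ L := ⟨[(2, 2, 2), (2, 2, 1), (2, 2, 0), (2, 1, 2), (2, 1, 1), (2, 1, 0), (1, 2, 2), (1, 1, 1), (1, 0, 2), (1, 2, 1), (1, 1, 2), (1, 0, 1), (2, 0, 2), (2, 0, 1), (1, 2, 0), (1, 1, 0), (2, 0, 0), (1, 0, 0), (0, 2, 2), (0, 1, 1), (0, 2, 0), (0, 1, 2), (0, 2, 1), (0, 1, 0), (0, 0, 2), (0, 0, 1), (0, 0, 0)], by decide +kernel⟩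
  obtain ⟨k, -, k1, k2⟩ := steps hc hx ⟨hg, by simp, e⟩ L h1
  refine k2 ((show k = 1 from Units.ext (Matrix.ext fun a b => ?_)) ▸ one_mem H)
  simpa [Matrix.one_apply, Pi.single_apply] using congrFun (k1 b (h2 b)) a

end

theorem equiv (hc : ∃ c : F, c ≠ 0 ∧ c ≠ 1) : Nonempty (chevE6.group F ≃* E6 F) := by
  obtain ⟨φ, h⟩ := exists_φ (F := F)
  have hx : ∀ r < 72, ∀ t : F, xx r t ∈ φ.range ∧ xx r t ∈ E6univ F := fun r hr t =>
    ⟨⟨_, h ⟨r, hr⟩ t⟩, h ⟨r, hr⟩ t ▸ φ_mem h _⟩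
  refine equiv_quot (perfect_E6 _ stC_G) (φ.codRestrict _ (φ_mem h)) (fun g => ?_) fun e => ?_
  · obtain ⟨k, hk⟩ := le_of_xx hc hx g.2
    exact ⟨k, Subtype.ext hk⟩
  · have := congrArg (fun g : E6univ F => g.1.val (0, 0, 1) (0, 0, 2)) (Subgroup.mem_center_iff.1
      (e.ge (Subgroup.mem_top ⟨_, (hx 46 (by omega) 1).2⟩)) ⟨_, (hx 0 (by omega) 1).2⟩)
    have h1 : co 0 46 (enc (0, 0, 1)) = 1 ∧ co 46 0 (enc (0, 0, 1)) = 0 ∧ dc (uN 46 (uN 0 (enc (0, 0, 1)))) = (0, 0, 2) := by decide +kernel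
    simp [xx_val, add_mul, mul_add, EE, h1, zz] at this
    simp [add_assoc, add_comm] at this

end CA.Cub27
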