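/-
Normalisers of toral subgroups of `F₄(q)` and `³D₄(q)`.
-/
import Cfsg.Agent.Lib.Grp.H23Sec
import Cfsg.Agent.Lib.Lie.SSF4
import Cfsg.Agent.Lib.Lie.H23Fold
import Cfsg.Agent.Lib.Lie.ChevTwB

set_option autoImplicit false

namespace CA.H23Sec

open Subgroup Equiv CA.Chev Cfsg.Lie

section
variable {D : ChevalleyDatum} [Good D] {K Γ X : Type*} [Field K] [Group Γ] [Group X] {A : Sys D K Γ}

theorem conj_eq {u m u' h : Γ} {w : Perm (Rt D)} (hu : u ∈ A.U) (hm : m ∈ A.N) (hw : A.Act m w) (hu' : u' ∈ A.X (invs w))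
    (hh : h ∈ A.H) (h1 : u * m * u' * h * (u * m * u')⁻¹ ∈ A.H) : u * m * u' * h * (u * m * u')⁻¹ = m * h * m⁻¹ := by
  have h2 := (A.canon_unique (mul_mem (A.U_le_B hu) (A.H_le_B (A.conj_H hm hh))) (mul_mem (A.H_le_B h1) (A.U_le_B hu)) hw
    (A.H_conj_X' hh hu') hu' (by group)).1
  exact (A.UH_unique hu (A.H_conj_X h1 hu) (A.conj_H hm hh) h1 (h2.trans (by group))).2.symm

theorem act_pow {m : Γ} {w : Perm (Rt D)} (h : A.Act m w) (k : ℕ) : A.Act (m ^ k) (w ^ k) := by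
  induction k with
  | zero => simpa using Sys0.Act.one
  | succ k ih => rw [pow_succ, pow_succ]; exact ih.mul h

variable (A) in
/-- the Bruhat decomposition over a subgroup of the Weyl group -/
def Br (e : X →* Γ) (W' : Subgroup (Perm (Rt D))) : Prop :=
  ∀ g, ∃ u ∈ A.U, ∃ m ∈ A.N, ∃ w ∈ W', A.Act m w ∧ ∃ u' ∈ A.X (invs w), e g = u * m * u'

theorem br_top (hG : A.G = ⊤) : Br A (MonoidHom.id Γ) (W D) := fun g => by
  obtain ⟨b, hb, m, hm, w, hw, u', hu', e⟩ := A.bruhat_canon (hG.ge (mem_top g))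
  obtain ⟨u, hu, h, hh, rfl⟩ := A.mem_B.1 hb
  exact ⟨u, hu, h * m, mul_mem (A.H_le_N hh) hm, w, hw.1, by simpa using (A.act_H hh).mul hw, u', hu',
    e.trans (by group)⟩

theorem br_twist (τ : Twist A) : Br A τ.G1.subtype (W1 τ.ρ) := fun g => by
  obtain ⟨u, hu, m, hm, w, hw, h, u', hu', e⟩ := τ.bruhat_fix (τ.G1_le_G g.2) (τ.G1_le_F g.2)
  exact ⟨u, hu.1, m, hm.1, w, hw, h, u', hu'.1, e⟩

variable {e : X →* Γ} {W' : Subgroup (Perm (Rt D))}

theorem Br.key (hB : Br A e W') {g c : X} {S : Set X} (hS : ∀ h ∈ S, e (c⁻¹ * h * c) ∈ A.H)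
    (hg : ∀ h ∈ S, g * h * g⁻¹ ∈ S) : ∃ m ∈ A.N, ∃ w ∈ W', A.Act m w ∧
      ∀ k : ℕ, ∀ h ∈ S, e (c⁻¹ * (g ^ k * h * (g ^ k)⁻¹) * c) = m ^ k * e (c⁻¹ * h * c) * (m ^ k)⁻¹ := by
  obtain ⟨u, hu, m, hm, w, hw, h4, u', hu', h0⟩ := hB (c⁻¹ * g * c)
  refine ⟨m, hm, w, hw, h4, fun k => ?_⟩
  induction k with
  | zero => simp
  | succ k ih =>
    intro x hx
    have h6 : e (c⁻¹ * (g * x * g⁻¹) * c) = u * m * u' * e (c⁻¹ * x * c) * (u * m * u')⁻¹ := by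
      rw [← h0, ← map_inv, ← map_mul, ← map_mul]; congr 1; group
    rw [show g ^ (k + 1) * x * (g ^ (k + 1))⁻¹ = g ^ k * (g * x * g⁻¹) * (g ^ k)⁻¹ by group, ih _ (hg x hx), h6,
      conj_eq hu hm h4 hu' (hS x hx) (h6 ▸ hS _ (hg x hx))]
    group

theorem Br.pr (hB : Br A e W') (he : Function.Injective e) (h3 : A.R3) {p n : ℕ} [Fact p.Prime]
    (hi : ¬p ∣ (A.H.comap e).index) (hn : ∀ w ∈ W', w ^ n = 1) : Pr p n X := fun P hP g hg h hh => by
  obtain ⟨c, hc⟩ := exists_conj hP hi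
  obtain ⟨m, hm, w, hw, h1, h2⟩ := hB.key (S := P) hc hg
  have h4 := h2 n h hh
  rw [h3.H_comm _ (A.mem_H_of_act (pow_mem hm n) (hn w hw ▸ act_pow h1 n)) _ (hc h hh), mul_inv_cancel_right] at h4
  simpa using he h4

theorem not_dvd_index [Finite K] (hG : A.G = ⊤) [Finite Γ] {p : ℕ} (hp : p.Prime) (h1 : p ∣ Nat.card K - 1)
    (h2 : ¬p ∣ Nat.card (W D)) : ¬p ∣ A.H.index := by
  have h3 := A.card_G
  rw [hG, card_top, ← A.H.card_mul_index, A.card_B, mul_comm (Nat.card A.U), mul_assoc] at h3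
  have h4 : Nat.card K ≡ 1 [MOD p] := ((Nat.modEq_iff_dvd' Nat.card_pos).2 h1).symm
  rw [Nat.eq_of_mul_eq_mul_left Nat.card_pos h3, Sys0.card_U, hp.dvd_mul]
  rintro (h | h)
  · exact hp.not_dvd_one ((h4.dvd_iff dvd_rfl).1 (hp.dvd_of_dvd_pow h))
  · haveI := Fintype.ofFinite (W D)
    rw [finsum_eq_sum_of_fintype] at h
    refine h2 ((Nat.ModEq.dvd_iff ?_ dvd_rfl).1 h)
    rw [Nat.card_eq_fintype_card (α := W D), Fintype.card_eq_sum_ones]
    exact Nat.ModEq.sum fun w _ => by simpa using h4.pow _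

theorem wM_pow {w : Perm (Rt D)} (hw : w ∈ W D) (k : ℕ) : wM (w ^ k) = wM w ^ k := by
  induction k with
  | zero => simpa using wM_one
  | succ k ih => rw [pow_succ', wM_mul (W_le_RA hw), ih, pow_succ]

theorem exists_field {K' : Type*} [Field K'] (i : K →+* K') : ∃ j : D.group K →* D.group K', Function.Injective j ∧
    (Tw.field D i).Is (adjG D K).toSys0 (adjG D K').toSys0 j := by
  obtain ⟨j, hj⟩ := (Tw.field D i).exists_hom Function.surjective_id (adjG _ K) adjG_G (adjG _ K') adjG_θ_injective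
  exact ⟨j, hj.injective (fun _ => Iff.rfl) adjG_G adjG_θ_injective, hj⟩

end

theorem poly {R : Type*} [Ring R] {M : R} (h : -M ^ 4 + 1 = 0 ∨ -M ^ 4 + -M ^ 3 + M + 1 = 0 ∨ -M ^ 4 + M ^ 3 + -M + 1 = 0 ∨
    M ^ 4 + 1 = 0 ∨ M ^ 4 + -M ^ 2 + 1 = 0) : M ^ 8 = 1 ∨ M ^ 6 = 1 ∨ M ^ 6 = -1 := by
  rcases h with h | h | h | h | h
  · exact .inl (sub_eq_zero.1 (by rw [← mul_zero (-(M ^ 4 + 1)), ← h]; noncomm_ring))
  · exact .inr (.inl (sub_eq_zero.1 (by rw [← mul_zero (-(M ^ 2 - M + 1)), ← h]; noncomm_ring)))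
  · exact .inr (.inl (sub_eq_zero.1 (by rw [← mul_zero (-(M ^ 2 + M + 1)), ← h]; noncomm_ring)))
  · exact .inl (sub_eq_zero.1 (by rw [← mul_zero (M ^ 4 - 1), ← h]; noncomm_ring))
  · exact .inr (.inr (eq_neg_of_add_eq_zero_left (by rw [← mul_zero (M ^ 2 + 1), ← h]; noncomm_ring)))

theorem wM_F4 {w : Perm (Rt chevF4)} (hw : w ∈ W chevF4) : wM w ^ 8 = 1 ∨ wM w ^ 6 = 1 ∨ wM w ^ 6 = -1 := by
  obtain ⟨S, h, hS⟩ := wAll_spec tab_F4 prChk_F4 f4P_all (W_le_RA hw)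
  have e : toMat 4 (mkM 4 fun i j => 1 * tabF4.co (getN S (id i)) j) = wM w :=
    (tab_F4 ▸ toMat_co hS id (ι' := id) (fun _ => rfl) fun _ => 1 :).trans (by simp [wM])
  simp only [f4P, Bool.or_eq_true, Bool.and_eq_true, or_assoc] at h
  generalize wM w = M at e
  subst e
  generalize (mkM 4 fun i j => 1 * tabF4.co (getN S (id i)) j) = L at h
  refine poly (M := toMat 4 L) (h.imp (fun h => ?_) (.imp (fun h => ?_) (.imp (fun h => ?_)
    fun h => h.1.imp (fun h => ?_) fun h => ?_))) <;> simpa [Finset.sum_range_succ, getG_eq] using kill_spec h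

variable {K : Type*} [Field K] [Finite K]

theorem conj_two' {Γ : Type*} [Group Γ] [Finite Γ] {p r n : ℕ} [Fact p.Prime] [Fact r.Prime] (H : Pr p n Γ) (h3 : n.Coprime r)
    {T : Subgroup Γ} (hT : ∀ a ∈ T, ∀ b ∈ T, a * b = b * a) (h5 : ¬p ∣ T.index) (h7 : ¬r ∣ T.index) {P R : Subgroup Γ}
    (hP : IsPGroup p P) (hR : IsPGroup r R) (h1 : ∀ a ∈ R, ∀ h ∈ P, a * h * a⁻¹ ∈ P) :
    ∃ c, ∀ h ∈ (P : Set Γ) ∪ R, c⁻¹ * h * c ∈ T := by
  obtain ⟨c, hc⟩ := exists_conj hP h5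
  have h4 : R ≤ centralizer (P : Set _) := fun a ha x hx => by
    obtain ⟨k, hk⟩ := hR ⟨a, ha⟩
    obtain ⟨m, hm⟩ := exists_pow_eq_self_of_coprime (x := a) (Nat.Coprime.coprime_dvd_right
      (orderOf_dvd_of_pow_eq_one (congrArg Subtype.val hk : a ^ r ^ k = 1)) (h3.pow_right _))
    rw [← hm]
    exact (Commute.pow_left (mul_inv_eq_iff_eq_mul.1 (H P hP a (h1 a ha) x hx)) m).symm
  have h6 : T.comap (MulAut.conj c⁻¹ : Γ →* Γ) ≤ centralizer (P : Set _) := fun a ha x hx =>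
    (MulAut.conj c⁻¹).injective (by simpa [mul_assoc] using hT _ (hc x hx) _ ha)
  have h8 : ¬r ∣ ((T.comap (MulAut.conj c⁻¹ : Γ →* Γ)).subgroupOf (centralizer (P : Set Γ))).index := fun h =>
    h7 (h.trans ((relIndex_dvd_index_of_le h6).trans (index_comap_of_surjective (f := (MulAut.conj c⁻¹ : Γ →* Γ)) T
      (MulAut.conj c⁻¹).surjective).dvd))
  obtain ⟨d, hd⟩ := exists_conj (P := R.subgroupOf (centralizer (P : Set Γ))) hR.comap_subtype h8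
  refine ⟨d.1 * c, ?_⟩
  rintro h (hh | hh)
  · rw [show (d.1 * c)⁻¹ * h * (d.1 * c) = c⁻¹ * (d.1⁻¹ * (h * d.1)) * c by group, d.2 h hh, inv_mul_cancel_left]
    exact hc h hh
  · simpa [mem_subgroupOf, mul_assoc] using hd ⟨h, h4 hh⟩ hh

section F4
variable {Γ : Type*} [Group Γ] [Finite Γ] {A : Sys chevF4 K Γ} (hG : A.G = ⊤) (h0 : A.R3)
include hG h0

theorem pr_F4 {p : ℕ} [hp : Fact p.Prime] (h1 : p ∣ Nat.card K - 1) (h2 : ¬p ∣ 1152) : Pr p 1152 Γ :=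
  (br_top hG).pr Function.injective_id h0
    (by rw [comap_id]; exact not_dvd_index hG hp.out h1 (by rwa [card_W_F4]))
    fun w hw => by rw [← card_W_F4]; exact congrArg Subtype.val (pow_card_eq_one' (x := (⟨w, hw⟩ : W chevF4)))

omit hG in
theorem conj_of_wM {m h : Γ} {w : Perm (Rt chevF4)} (hw : A.Act m w) (hh : h ∈ A.H) (k : ℕ) :
    (wM w ^ k = 1 → m ^ k * h * (m ^ k)⁻¹ = h) ∧ (wM w ^ k = -1 → m ^ k * h * (m ^ k)⁻¹ = h⁻¹) := by
  obtain ⟨t, rfl⟩ := h0.torH_range.ge hh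
  rw [h0.conj_torH (act_pow hw k), wM_pow hw.1]
  refine ⟨fun H => by rw [H, mact_one], fun H => ?_⟩
  rw [H, ← map_inv]
  refine congrArg _ (funext fun j => ?_)
  simpa [mact_apply, Finset.prod_inv_distrib] using congrFun (mact_one t) j

theorem conj_two (h5 : 5 ∣ Nat.card K - 1) (h7 : 7 ∣ Nat.card K - 1) {P R : Subgroup Γ} (hP : IsPGroup 5 P)
    (hR : IsPGroup 7 R) (h1 : ∀ a ∈ R, ∀ h ∈ P, a * h * a⁻¹ ∈ P) : ∃ c, ∀ h ∈ (P : Set Γ) ∪ R, c⁻¹ * h * c ∈ A.H :=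
  haveI := Fact.mk Nat.prime_five
  haveI := Fact.mk Nat.prime_seven
  conj_two' (pr_F4 hG h0 h5 (by decide)) (by norm_num) h0.H_comm
    (not_dvd_index hG Nat.prime_five h5 (by rw [card_W_F4]; decide))
    (not_dvd_index hG Nat.prime_seven h7 (by rw [card_W_F4]; decide)) hP hR h1

theorem two_F4 (h5 : 5 ∣ Nat.card K - 1) (h7 : 7 ∣ Nat.card K - 1) : Two Γ := by
  intro P R hP hR h1 g h2 h3
  obtain ⟨c, h8⟩ := conj_two hG h0 h5 h7 hP hR h1
  obtain ⟨m, -, w, hw, h9, h10⟩ := (br_top hG).key (S := P ∪ R) h8 fun h hh => hh.imp (h2 h) (h3 h)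
  have k : ∀ k : ℕ, ∀ h ∈ (P : Set _) ∪ R, (wM w ^ k = 1 → g ^ k * h * (g ^ k)⁻¹ = h) ∧
      (wM w ^ k = -1 → g ^ k * h * (g ^ k)⁻¹ = h⁻¹) := fun k h hh => by
    have h4 := conj_of_wM h0 h9 (h8 h hh) k
    refine ⟨fun H => ?_, fun H => ?_⟩
    · simpa using (h10 k h hh).trans (h4.1 H)
    · exact (MulAut.conj c⁻¹).injective (by simpa [mul_assoc] using (h10 k h hh).trans (h4.2 H))
  exact (wM_F4 hw).imp (fun H h hh => (k 8 h (.inr hh)).1 H)
    (.imp (fun H h hh => (k 6 h (.inl hh)).1 H) fun H h hh => (k 6 h (.inr hh)).2 H)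

end F4

theorem pr2_of {X Y : Type*} [Group X] [Finite X] [Group Y] {T M : Subgroup X} (π : M →* Y) (h1 : π.ker = T.subgroupOf M)
    (h2 : ∀ g, π g ^ 6 = 1) (h3 : ¬2 ∣ M.index) (h4 : ∀ a ∈ T, ∀ b ∈ T, a * b = b * a)
    (h5 : Nat.card {a // a ∈ T ∧ a ^ 2 = 1} ≤ 4) : Pr2 X := by
  refine Pr2.inj (G' := X) (fun P hP => ?_) (MonoidHom.id X) Function.injective_id
  obtain ⟨c, hc⟩ := exists_conj hP h3
  refine ⟨T.comap (MulAut.conj c⁻¹ : _ →* _), fun a ha b hb =>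
    (MulAut.conj c⁻¹).injective (by rw [map_mul, map_mul]; exact h4 _ ha _ hb), le_trans (Nat.card_le_card_of_injective
      (fun a => (⟨MulAut.conj c⁻¹ a.1, a.2.1, by rw [← map_pow, a.2.2, map_one]⟩ : {a // a ∈ T ∧ a ^ 2 = 1})) fun a b e =>
        Subtype.ext ((MulAut.conj c⁻¹).injective (congrArg Subtype.val e))) h5, fun g hg => ?_⟩
  obtain ⟨k, hk⟩ := hP ⟨g, hg⟩
  have h5 : π ⟨_, hc g hg⟩ ^ 2 ^ k = 1 := by
    rw [← map_pow]
    refine (congrArg π (Subtype.ext ?_)).trans (map_one π)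
    have := conj_pow (a := c⁻¹) (b := g) (i := 2 ^ k)
    rw [inv_inv, show g ^ 2 ^ k = 1 from congrArg Subtype.val hk] at this
    exact this.trans (by simp)
  have h7 : ⟨_, hc g hg⟩ ^ 2 ∈ π.ker := by
    rw [MonoidHom.mem_ker, map_pow, ← orderOf_dvd_iff_pow_eq_one]
    exact (Nat.Coprime.coprime_dvd_left (orderOf_dvd_of_pow_eq_one h5)
      (Nat.Coprime.pow_left _ (by decide))).dvd_of_dvd_mul_right (orderOf_dvd_of_pow_eq_one (n := 2 * 3) (h2 _))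
  rw [h1] at h7
  simpa [mem_subgroupOf, mem_comap, mul_assoc, pow_two] using h7

section D4
variable {α : K →+* K} {q : ℕ} (hq : ∀ t, α t = t ^ q) (hα : ∀ t, α (α (α t)) = t) (h2 : 2 ≤ q) (hK : Nat.card K = q ^ 3)

omit [Finite K] in
include hα in
theorem dih : Nonempty (DihedralGroup 6 ≃* W1 (tD4 α).ρ) := by
  have h0 : wJ (orb (tD4 α).ν (TD4.rep 0)) = wd [nD4 0, nD4 2, nD4 3] := wJ_eq_wd tab_D4
    (fun j => (Set.ext_iff.1 (TD4.ty3' hα).orb_eq j).trans (by simp)) (by decide +kernel)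
  have h1 : wJ (orb (tD4 α).ν (TD4.rep 1)) = wd [nD4 1] := wJ_eq_wd tab_D4
    (fun j => by rw [Twist.orb1 (by rfl)]; simp [TD4.rep]) (by decide +kernel)
  exact ⟨((tD4 α).dsym.exists_dihedral TD4.rep_spec (n := 6) (by
    rw [h0, h1, ← wd_append]; exact orderOf_of_chk tab_D4 _ (nD4 0) (by decide +kernel)) (by norm_num)).choose⟩

omit [Finite K] in
include hα in
theorem pow_six {w : Perm (Rt chevD4)} (hw : w ∈ W1 (tD4 α).ρ) : w ^ 6 = 1 := by
  obtain ⟨f⟩ := dih hα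
  obtain ⟨x, hx⟩ := f.surjective ⟨w, hw⟩
  rw [← show (f x).1 = w from congrArg Subtype.val hx, ← coe_pow, ← map_pow, (by decide : ∀ x : DihedralGroup 6, x ^ 6 = 1) x,
    map_one, coe_one]

include hq hα h2 hK

theorem index_D4 : ((adjG chevD4 K).H.comap (tD4 α).G1.subtype).index =
    q ^ 12 * (q + 1) * (q ^ 3 + 1) * (q ^ 8 + q ^ 4 + 1) := by
  have h := ((adjG chevD4 K).H.subgroupOf (tD4 α).G1).card_mul_index
  rw [← inf_subgroupOf_right, Nat.card_congr (subgroupOfEquivOfLe inf_le_right).toEquiv,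
    TD4.card_H hq hα h2 hK, TD4.card_G hq hα h2 hK, inf_subgroupOf_right] at h
  refine Nat.eq_of_mul_eq_mul_left (Nat.mul_pos (pow_pos (by omega) 2) (by omega)) (h.trans ?_)
  have hq : 1 ≤ q := by omega
  zify [hq, Nat.one_le_pow _ q hq]
  ring

theorem pr_D4 (h : q % 5 = 1) : Pr 5 6 (tD4 α).G1 :=
  haveI := Fact.mk Nat.prime_five
  (br_twist _).pr Subtype.val_injective (Sys.r3_of_inj _ adjG_θ_injective) (by
    rw [index_D4 hq hα h2 hK, Nat.dvd_iff_mod_eq_zero]; simp [Nat.mul_mod, Nat.add_mod, Nat.pow_mod, h])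
    fun _ => pow_six hα

omit hq h2 hK in
theorem inv_D4 : Nat.card {a // a ∈ (adjG chevD4 K).H.comap (tD4 α).G1.subtype ∧ a ^ 2 = 1} ≤ 4 := by
  have h0 : (adjG chevD4 K).R3 := Sys.r3_of_inj _ adjG_θ_injective
  have h5 : ∀ a : {a // a ∈ (adjG chevD4 K).H.comap (tD4 α).G1.subtype ∧ a ^ 2 = 1},
      ∃ t ∈ (tD4 α).T1, h0.torH t = a.1.1 ∧ t ^ 2 = 1 := fun a => by
    obtain ⟨t, ht, e⟩ := ((tD4 α).H1_eq h0 (torH_injective (by simp))
      (Twist.torH_mem_of_node (TD4.node hα) _)).le ⟨a.2.1, a.1.2⟩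
    refine ⟨t, ht, e, TD4.Z_eq.le ⟨pow_mem ht 2, ?_⟩⟩
    have := h0.θ_torH (t ^ 2)
    rw [map_pow, e, ← map_pow, a.2.2, map_one, map_one] at this
    exact dgG_injective (this.symm.trans (map_one _).symm)
  choose t h5 h6 h7 using h5
  have h8 : ∀ a i, (t a i : K) = 1 ∨ (t a i : K) = -1 := fun a i =>
    sq_eq_one_iff.1 (congrArg Units.val (congrFun (h7 a) i))
  have h9 : ∀ a i, α (t a i) = t a i := fun a i => by rcases h8 a i with h | h <;> rw [h] <;> simp only [map_one, map_neg]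
  refine le_trans (Nat.card_le_card_of_injective (β := Prop × Prop)
    (fun a => ((t a (nD4 0) : K) = 1, (t a (nD4 1) : K) = 1)) fun a b e => ?_) (by simp)
  have k : ∀ i, ((t a i : K) = 1 ↔ (t b i : K) = 1) → t a i = t b i := fun i h => Units.ext (by
    rcases h8 a i with h1 | h1
    · exact h1.trans (h.1 h1).symm
    · rcases h8 b i with h2 | h2
      exacts [(h.2 h2).trans h2.symm, h1.trans h2.symm])
  have k0 := k _ (Iff.of_eq (congrArg Prod.fst e))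
  obtain ⟨a2, -, a3, -⟩ := TD4.mem_T1'.1 (h5 a)
  obtain ⟨b2, -, b3, -⟩ := TD4.mem_T1'.1 (h5 b)
  rw [h9, Units.val_inj] at a2 a3 b2 b3
  refine Subtype.ext (Subtype.ext ((h6 a).symm.trans ((congrArg _ (funext fun i : Fin 4 => ?_)).trans (h6 b))))
  fin_cases i
  exacts [k0, k _ (Iff.of_eq (congrArg Prod.snd e)), a2.trans (k0.trans b2.symm),
    a3.trans (a2.trans (k0.trans (b2.symm.trans b3.symm)))]

theorem pr2_D4 (h : q % 8 = 1) : Pr2 (tD4 α).G1 := by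
  obtain ⟨π, h1, h3, -⟩ := (Twist.ok_of_node (TD4.node hα)).exists_hom_N (range_subtype (tD4 α).G1)
  obtain ⟨f⟩ := dih hα
  have h4 := relIndex_mul_index (comap_mono (f := (tD4 α).G1.subtype) (adjG chevD4 K).H_le_N)
  rw [relIndex, ← h3, index_ker, MonoidHom.range_eq_top.2 h1, card_top, ← Nat.card_congr f.toEquiv, DihedralGroup.nat_card,
    index_D4 hq hα h2 hK] at h4
  have h5 : q ^ 12 * (q + 1) * (q ^ 3 + 1) * (q ^ 8 + q ^ 4 + 1) % 8 = 4 := by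
    simp [Nat.mul_mod, Nat.add_mod, Nat.pow_mod, h]
  exact pr2_of π h3 (fun g => Subtype.ext (pow_six hα (π g).2)) (by omega)
    (fun a ha b hb => Subtype.ext ((Sys.r3_of_inj _ adjG_θ_injective).H_comm _ ha _ hb)) (inv_D4 hα)

end D4

omit [Finite K] in
theorem emb_D4 {K' : Type*} [Field K'] (i : K →+* K') {α : K →+* K} {α' : K' →+* K'} (h : ∀ t, α' (i t) = i (α t)) :
    ∃ j : (tD4 α).G1 →* (tD4 α').G1, Function.Injective j := by
  obtain ⟨j, h1, h2⟩ := exists_field (D := chevD4) i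
  have e : (tD4 α').σ.comp j = j.comp (tD4 α).σ := (adjG _ K).hom_ext adjG_G fun r t => by
    simp only [MonoidHom.comp_apply]
    rw [h2, Twist.σ_x, Twist.σ_x, h2, TD4.f_eq, TD4.f_eq, Tw.field_f, Tw.field_f, h, map_mul, map_intCast]; rfl
  have k : ∀ g ∈ (tD4 α).F, j g ∈ (tD4 α').F := fun g hg => (DFunLike.congr_fun e g).trans (congrArg j hg)
  have h3 : (tD4 α).G1 ≤ (tD4 α').G1.comap j :=
    sup_le (fun g hg => (tD4 α').mem_G1_of_U (h2.mem_U (fun _ => Iff.rfl) hg.1) (k g hg.2))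
      fun g hg => (tD4 α').mem_G1_of_V (h2.mem_V (fun _ => Iff.rfl) hg.1) (k g hg.2)
  exact ⟨(j.comp (Subgroup.subtype _)).codRestrict _ fun g => h3 g.2, fun a b e => Subtype.ext (h1 (congrArg Subtype.val e))⟩

theorem le_D4 {G : Type*} [Group G] [Finite G] {α : K →+* K} {q : ℕ} (hq : ∀ t, α t = t ^ q) (hα : ∀ t, α (α (α t)) = t)
    (p a : ℕ) [hp : Fact p.Prime] (ha : 1 ≤ a) (e : q = (p ^ a) ^ 4) (hK : Nat.card K = q ^ 3) (j : G →* (tD4 α).G1)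
    (hj : Function.Injective j) {r : ℕ} {N : Subgroup G} [N.Normal] (h : Nonempty (G ⧸ N ≃* alternatingGroup (Fin r))) :
    r ≤ 6 + if p = 5 then 1 else 0 := by
  have h2 : 2 ≤ q := e ▸ Nat.one_lt_pow (by omega) (Nat.one_lt_pow (by omega) hp.out.one_lt)
  split_ifs with h5
  · refine ((pr2_D4 hq hα h2 hK ?_).inj j hj).le h
    rw [e, h5, ← pow_mul, mul_comm, pow_mul, Nat.pow_mod]; simp
  · refine ((pr_D4 hq hα h2 hK ?_).inj j hj).le5 h
    have := (Nat.coprime_primes hp.out Nat.prime_five).2 h5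
    rw [e]; exact Nat.ModEq.pow_totient (this.pow_left a)

end CA.H23Sec
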