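/-
Alternating sections of `E₆(q)` have degree at most twelve outside characteristic eleven.
-/
import Cfsg.Agent.Lib.Lie.H23E6h
import Cfsg.Agent.Lib.Lie.H23Sec2

set_option autoImplicit false

namespace CA.E6Sec

open Matrix Subgroup Equiv CA.Chev CA.H23Sec Cfsg.Lie Cfsg.Lie.ChevalleyDatum E6five E6loc

/-- a Coxeter element of `A₄` -/
def Lu : List (Fin 6) := [1, 3, 4, 5]
noncomputable def U (r : ℕ) : ℕ := apW tabE6 (Lu.map Fin.val) r
def zv : List ℤ := [1, 0, 2, 0, 1, 2]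
def Leaf (S : List ℕ) : Prop :=
  kill 6 6 (mps 6 (mkM 6 fun i j => 1 * tabE6.co (getN S (id i)) j) 6) (getG 0 [1, 1, 0, 0, 0, -1, -1]) = true ∨
    (sumLt 6 (fun i => gl zv i * tabE6.co (getN S i) 0) - 1) % 3 ≠ 0
noncomputable instance (S) : Decidable (Leaf S) := by unfold Leaf; infer_instance

set_option synthInstance.maxSize 4000 in
theorem cert : ∀ a0 : Fin 72, U a0 = a0 → ∀ a1 : Fin 72, prTb tabE6 a1 (U a1) = -1 → prTb tabE6 a0 a1 = 0 →
    ∀ a2 : Fin 72, prTb tabE6 a2 a0 = -1 → prTb tabE6 a2 a1 = 0 → prTb tabE6 a2 (U a1) = -1 → prTb tabE6 a2 (U (U a1)) = 0 →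
      prTb tabE6 a2 (U (U (U a1))) = 0 → Leaf [a0, a1, a2, U a1, U (U a1), U (U (U a1))] := by decide +kernel
theorem cU : U (tabE6.simple 0) = tabE6.simple 0 ∧ U (tabE6.simple 1) = tabE6.simple 3 ∧ U (tabE6.simple 3) = tabE6.simple 4 ∧
    U (tabE6.simple 4) = tabE6.simple 5 := by decide +kernel
theorem cP : ∀ i j : Fin 6, prTb tabE6 (tabE6.simple i) (tabE6.simple j) = ![![2, 0, -1, 0, 0, 0], ![0, 2, 0, -1, 0, 0],
    ![-1, 0, 2, -1, 0, 0], ![0, -1, -1, 2, -1, 0], ![0, 0, 0, -1, 2, -1], ![0, 0, 0, 0, -1, 2]] i j := by decide +kernel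
theorem cZ : ∀ i : Fin 6, actChk tabE6 ([i].map Fin.val) id 1 (gl zv) (gl zv) 3 = true := by decide +kernel
theorem cO : ordChk tabE6 (Lu.map Fin.val) 5 1 = true := by decide +kernel

theorem wz {K : Type*} [Field K] {ζ : Kˣ} (hζ : ζ ^ (3 : ℤ) = 1) {w : Perm (Rt chevE6)} (hw : w ∈ W chevE6) :
    mact (wM w) (cz ζ (gl zv)) = cz ζ (gl zv) := by
  obtain ⟨L, rfl⟩ := exists_wd hw
  induction L with
  | nil => rw [show wd ([] : List (Nd chevE6)) = 1 from rfl, wM_one, mact_one]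
  | cons i L ih =>
    have h := act_spec tab_E6 [i] (ι := id) (fun _ => rfl) (cZ i) hζ
    rw [pow_one, show wd [i] = sR i by simp] at h
    rw [wd_cons, wM_mul (W_le_RA (sR_mem i)), mact_mul, ih (wd_mem L)]
    exact h

theorem comm_u {M : Type*} [CommGroup M] {c : Nd chevE6 → M} {w : Perm (Rt chevE6)} (hw : w ∈ W chevE6)
    (hu : Commute w (wd (nw Lu))) (h : mact (wM w) c ^ 2 = c) : c ^ (-93 : ℤ) = 1 := by
  have hs : ∀ i : Fin 6, (sim (nE6 i)).val = tabE6.simple i := fun i => tab_E6 ▸ rfl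
  have hU : ∀ r : Rt chevE6, U r.val = (wd (nw Lu) r).val := fun r => by
    rw [← apW_eq, tab_E6]; rfl
  have h1 : ∀ i j : Fin 6, U (tabE6.simple i) = tabE6.simple j → U (w (sim (nE6 i))).val = (w (sim (nE6 j))).val := fun i j e => by
    rw [hU, ← Perm.mul_apply, ← hu.eq, Perm.mul_apply, show wd (nw Lu) (sim (nE6 i)) = sim (nE6 j) from
      Fin.ext (by rw [← hU, hs, hs, e])]
  have h2 : ∀ i j : Fin 6, prTb tabE6 (w (sim (nE6 i))).val (w (sim (nE6 j))).val = _ := fun i j =>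
    ((pr_eq_tab tab_E6 _ _).symm.trans ((pr_map (W_le_RA hw) _ _).trans (pr_eq_tab tab_E6 _ _))).trans
      ((congrArg₂ (prTb tabE6) (hs i) (hs j)).trans (cP i j))
  have e0 := h1 0 0 cU.1
  have e1 := h1 1 3 cU.2.1
  have e3 := h1 3 4 cU.2.2.1
  have e4 := h1 4 5 cU.2.2.2
  have h3 := cert (w (sim (nE6 0))) e0 (w (sim (nE6 1))) (e1 ▸ h2 1 3) (h2 0 1) (w (sim (nE6 2))) (h2 2 0) (h2 2 1)
    (e1 ▸ h2 2 3) (by rw [e1, e3]; exact h2 2 4) (by rw [e1, e3, e4]; exact h2 2 5)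
  rw [e1, e3, e4] at h3
  generalize hS : [(w (sim (nE6 0))).val, (w (sim (nE6 1))).val, (w (sim (nE6 2))).val, (w (sim (nE6 3))).val,
    (w (sim (nE6 4))).val, (w (sim (nE6 5))).val] = S at h3
  have h4 : ∀ i : Nd chevE6, getN S i = (w (sim i)).1 := fun i : Fin 6 => by rw [← hS]; fin_cases i <;> rfl
  rcases h3 with h3 | h3
  · have e : toMat 6 (mkM 6 fun i j => 1 * tabE6.co (getN S (id i)) j) = wM w :=
      (tab_E6 ▸ toMat_co h4 id (ι' := id) (fun _ => rfl) fun _ => 1 :).trans (by simp [wM])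
    have h5 := kill_spec h3
    rw [e] at h5
    exact (congrArg (c ^ ·) (by decide +kernel)).trans (zpow_ev_eq_one h h5)
  · obtain ⟨ζ, hζ⟩ := ex_ord (K := AlgebraicClosure (ZMod 2)) (n := 3) rfl
    have h5 := congrFun (wz (ζ := ζ) (by exact_mod_cast hζ ▸ pow_orderOf_eq_one ζ) hw) (nE6 0)
    have e : ((fun i : Nd chevE6 => gl zv i) ᵥ* wM w) (nE6 0) = sumLt 6 fun i => gl zv i * tabE6.co (getN S i) 0 := by
      rw [sumLt_eq, vecMul, dotProduct]
      exact Finset.sum_congr rfl fun (i : Nd chevE6) _ => congrArg (gl zv i * ·) (by rw [h4 i, ← tab_E6]; rfl)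
    unfold E6loc.cz at h5
    rw [mact_zpow'] at h5
    beta_reduce at h5
    rw [e, zpow_eq_zpow_iff_modEq, hζ, Int.modEq_comm, Int.modEq_iff_dvd, Int.dvd_iff_emod_eq_zero] at h5
    exact (h3 h5).elim

theorem noTwo {M : Type*} [CommGroup M] {c : Nd chevE6 → M} {k : ℕ} (h1 : c ^ 11 ^ k = 1) {w : Perm (Rt chevE6)}
    (hw : w ∈ W chevE6) (h : mact (wM w) c ^ 2 = c) : c = 1 := by
  have k1 : ∀ {c : Nd chevE6 → M} (n : ℕ), c ^ 11 ^ k = 1 → c ^ n = 1 → n.Coprime 11 → c = 1 := fun {c} n h1 h2 h3 => by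
    rw [← pow_one c, ← h3.pow_right k, pow_gcd_eq_one]; exact ⟨h2, h1⟩
  obtain ⟨n, hn, hn'⟩ : ∃ n, Nat.card (W chevE6) = n * 5 ∧ (2 ^ n - 1).Coprime 11 :=
    ⟨10368, card_W_E6.trans (by norm_num), by decide +kernel⟩
  by_cases h2 : w ^ n = 1
  · have h3 := mact_pow_fix h n
    rw [← wM_pow hw, h2, wM_one, mact_one, ← Nat.sub_add_cancel (Nat.one_le_two_pow (n := n)), pow_succ, mul_eq_right] at h3
    exact k1 _ h1 h3 hn'
  have := Fact.mk Nat.prime_five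
  let x : W chevE6 := ⟨w, hw⟩
  let u : W chevE6 := ⟨_, wd_mem (nw Lu)⟩
  have hu : Nat.card (zpowers u) = 5 := by
    rw [Nat.card_zpowers, ← orderOf_coe]; exact orderOf_of_chk tab_E6 _ (nE6 1) cO
  obtain ⟨g, hg⟩ := sylow_conj (P := zpowers (x ^ n)) (R := zpowers u) (k := 1) (isP_zpowers (p := 5) (by
    rw [← pow_mul, ← hn, pow_card_eq_one'])) hu (by rw [card_W_E6]; norm_num)
  obtain ⟨i, hi⟩ := (eq_of_prime Nat.prime_five (zpowers_le.2 (hg _ (mem_zpowers _))) hu (zpowers_ne_bot.2 fun e =>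
    h2 (congrArg Subtype.val (conj_eq_one_iff.1 e)))).ge (mem_zpowers u)
  have h3 : Commute (g * x * g⁻¹) u := by
    rw [← hi, ← conj_pow]; exact ((Commute.refl _).pow_right _).zpow_right _
  have h4 := comm_u (c := mact (wM g.1) c) (g * x * g⁻¹).2 (h3.map (W chevE6).subtype) (by
    rw [← mact_mul, ← wM_mul (W_le_RA (g * x * g⁻¹).2), ← coe_mul, inv_mul_cancel_right, coe_mul, wM_mul (W_le_RA g.2), mact_mul,
      ← map_pow, h])
  have h5 := k1 (c := mact (wM g.1) c) 93 (by rw [← map_pow, h1, map_one]) (by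
    exact_mod_cast inv_eq_one.1 ((_root_.zpow_neg _ 93).symm.trans h4)) (by norm_num)
  have h6 := congrArg (mact (wM g⁻¹.1)) h5
  rwa [← mact_mul, ← wM_mul (W_le_RA g⁻¹.2), ← coe_mul, inv_mul_cancel, coe_one, wM_one, mact_one, map_one] at h6

/-- `11`-subgroups are abelian and have no element conjugate to its square root -/
def Sq (G : Type*) [Group G] : Prop :=
  ∀ P : Subgroup G, IsPGroup 11 P → (∀ a ∈ P, ∀ b ∈ P, a * b = b * a) ∧
    ∀ g, (∀ h ∈ P, g * h * g⁻¹ ∈ P) → ∀ h ∈ P, (g * h * g⁻¹) ^ 2 = h → h = 1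

variable {G G' Q : Type*} [Group G] [Group G'] [Group Q]

theorem Sq.inj (h : Sq G') (j : G →* G') (hj : Function.Injective j) : Sq G := fun P hP =>
  ⟨fun a ha b hb => hj (by simpa using (h _ (hP.map j)).1 _ ⟨a, ha, rfl⟩ _ ⟨b, hb, rfl⟩), fun g hg x hx e =>
    hj (((h _ (hP.map j)).2 _ (conj_map j hg) _ ⟨x, hx, rfl⟩ (by simpa using congrArg j e)).trans (map_one j).symm)⟩

theorem Sq.false [Finite G] (h : Sq G) (φ : G →* Q) {x y : Q} (hx : x ∈ φ.range)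
    (hy : y ∈ φ.range) (h1 : x ^ 11 = 1) (h2 : y * x * y⁻¹ = x ^ 6) : x = 1 := by
  have := Fact.mk Nat.prime_eleven
  rw [φ.range_eq_map] at hx hy
  obtain ⟨P, -, hP, e, h4⟩ := lift φ ⊤ (isP_zpowers h1) (zpowers_le.2 hx)
  obtain ⟨g, -, rfl, hg⟩ := h4 y hy (conj_zpowers h2)
  obtain ⟨x', hx', rfl⟩ := e.ge (mem_zpowers x)
  obtain ⟨h5, h6⟩ := h P hP
  let f : P → P := fun a => ⟨(g * a * g⁻¹) ^ 2 * a.1⁻¹, mul_mem (pow_mem (hg _ a.2) 2) (inv_mem a.2)⟩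
  have hf : Function.Injective f := fun a b e => by
    replace e : (g * a * g⁻¹) ^ 2 * a.1⁻¹ = (g * b * g⁻¹) ^ 2 * b.1⁻¹ := congrArg Subtype.val e
    refine Subtype.ext (mul_inv_eq_one.1 (h6 g hg _ (mul_mem a.2 (inv_mem b.2)) ?_))
    rw [← conj_mul, Commute.mul_pow (h5 _ (hg _ a.2) _ (hg _ (inv_mem b.2))), ← conj_inv, inv_pow, mul_inv_eq_iff_eq_mul.1 e,
      mul_assoc _ _ a.1, h5 _ (pow_mem (hg _ b.2) 2) _ (mul_mem (inv_mem b.2) a.2), mul_inv_cancel_right, h5 _ a.2 _ (inv_mem b.2)]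
  obtain ⟨a, ha⟩ := Finite.surjective_of_injective hf ⟨x', hx'⟩
  obtain ⟨i, hi⟩ := e.le ⟨a.1, a.2, rfl⟩
  have h7 : φ x' ^ 12 = φ x' := by rw [pow_succ, h1, one_mul]
  have h8 := congrArg (fun z : P => φ z.1) ha
  simp only [f, map_mul, map_pow, map_inv] at h8 hi
  rw [← hi, ← conj_zpow, h2, ← zpow_natCast, zpow_comm, zpow_natCast, ← pow_mul, h7, mul_inv_cancel] at h8
  exact h8.symm

theorem Sq.le [Finite G] {r : ℕ} {N : Subgroup G} [N.Normal] (h : Nonempty (G ⧸ N ≃* alternatingGroup (Fin r))) (H : Sq G) :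
    r ≤ 12 := by
  by_contra hr
  obtain ⟨M, ψ, h1⟩ := sec h (n := 13) (by omega)
  let x : Perm (Fin 13) := pm [1, 2, 3, 4, 5, 6, 7, 8, 9, 10, 0, 11, 12] [10, 0, 1, 2, 3, 4, 5, 6, 7, 8, 9, 11, 12]
  exact ne_of 0 (by decide +kernel) ((H.inj M.subtype M.subtype_injective).false ψ (x := x)
    (y := pm [0, 6, 1, 7, 2, 8, 3, 9, 4, 10, 5, 12, 11] [0, 2, 4, 6, 8, 10, 1, 3, 5, 7, 9, 12, 11])
    (h1 (mem_alt (x ^ 6) 1 (by decide +kernel)))
    (h1 (mem_alt (pm [5, 7, 8, 11, 2, 12, 10, 3, 1, 4, 0, 6, 9] [10, 8, 4, 7, 9, 0, 11, 1, 2, 12, 6, 3, 5])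
      (pm [7, 4, 2, 9, 3, 1, 5, 6, 11, 8, 10, 12, 0] [12, 5, 2, 4, 1, 6, 7, 0, 9, 3, 10, 8, 11]) (by decide +kernel)))
    (Equiv.ext (by decide +kernel)) (Equiv.ext (by decide +kernel)))

theorem sq_E6 {K Γ : Type*} [Field K] [Finite K] [Group Γ] [Finite Γ] {A : Sys chevE6 K Γ} (hG : A.G = ⊤) (h0 : A.R3)
    (h1 : 11 ∣ Nat.card K - 1) : Sq Γ := fun P hP => by
  have := Fact.mk Nat.prime_eleven
  obtain ⟨c, hc⟩ := exists_conj hP (not_dvd_index hG Nat.prime_eleven h1 (by rw [card_W_E6]; norm_num))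
  refine ⟨fun a ha b hb => (MulAut.conj c⁻¹).injective (by simpa [mul_assoc] using h0.H_comm _ (hc a ha) _ (hc b hb)),
    fun g hg h hh e => ?_⟩
  obtain ⟨m, -, w, hw, h2, h3⟩ := (br_top hG).key (S := P) hc hg
  have h4 := h3 1 h hh
  obtain ⟨k, hk⟩ := hP ⟨h, hh⟩
  replace hk : h ^ 11 ^ k = 1 := congrArg Subtype.val hk
  obtain ⟨t, ht⟩ := h0.torH_range.ge (hc h hh)
  simp only [pow_one, MonoidHom.id_apply] at h4
  have k1 : ∀ d, h0.torH d = 1 → d ^ 3 = 1 := fun d e => cube_of_tor (dgG_injective (by rw [← h0.θ_torH, e, map_one, map_one]))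
  have h5 : c⁻¹ * h * c = c⁻¹ * h * c⁻¹⁻¹ := by rw [inv_inv]
  have h6 := k1 (mact (wM w) t ^ 2 * t⁻¹) (by
    rw [map_mul, map_pow, map_inv, ← h0.conj_torH h2, ht, ← h4, show ∀ x, c⁻¹ * x * c = c⁻¹ * x * c⁻¹⁻¹ by simp,
      conj_pow, e, inv_inv, mul_inv_cancel])
  have h7 := k1 (t ^ 11 ^ k) (by rw [map_pow, ht, h5, conj_pow, hk]; simp)
  have h8 := noTwo (c := t ^ 3) (k := k) (by rwa [← pow_mul, mul_comm, pow_mul]) hw (by
    rwa [mul_pow, inv_pow, mul_inv_eq_one, ← pow_mul, mul_comm, pow_mul, ← map_pow] at h6)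
  have h9 := congrArg h0.torH h8
  rw [map_pow, ht, h5, conj_pow, map_one, conj_eq_one_iff] at h9
  rw [← pow_one h, ← (show Nat.Coprime 3 11 by norm_num).pow_right k, pow_gcd_eq_one]
  exact ⟨h9, hk⟩

/-- the bound for any group embedded in `E₆(q)` -/
theorem le12' {F : Type*} [Field F] [Fintype F] (p : ℕ) [Fact p.Prime] [CharP F p] (hp : p ≠ 11) {G : Type*} [Group G]
    (e : G →* chevE6.group F) (he : Function.Injective e) (r : ℕ) (K : Subgroup G) [K.Normal]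
    (h : Nonempty (G ⧸ K ≃* alternatingGroup (Fin r))) : r ≤ 12 := by
  have k : 11 ∣ Nat.card (FiniteField.Extension F p 10) - 1 := by
    obtain ⟨a, -, ha⟩ := FiniteField.card F p
    refine (Nat.modEq_iff_dvd' Nat.card_pos).1 (Nat.ModEq.symm ?_)
    rw [FiniteField.natCard_extension, Nat.card_eq_fintype_card, ha]
    exact Nat.ModEq.pow_totient (((Nat.coprime_primes Fact.out Nat.prime_eleven).2 hp).pow_left a)
  obtain ⟨j, hj, -⟩ := exists_field (D := chevE6) (algebraMap F (FiniteField.Extension F p 10))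
  have := Finite.of_injective e he
  exact ((sq_E6 adjG_G (Sys.r3_of_inj _ adjG_θ_injective) k).inj (j.comp e) (hj.comp he)).le h

theorem le12 {F : Type*} [Field F] [Fintype F] (p : ℕ) [Fact p.Prime] [CharP F p] (hp : p ≠ 11) (r : ℕ)
    (H : Subgroup (chevE6.group F)) (K : Subgroup H) [K.Normal] (h : Nonempty (H ⧸ K ≃* alternatingGroup (Fin r))) : r ≤ 12 :=
  le12' p hp H.subtype H.subtype_injective r K h

end CA.E6Sec
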