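/-
Alternating sections of `E₆(q)` in the representation of degree 27.
-/
import Cfsg.Agent.Lib.Lie.E6F3
import Cfsg.Agent.Lib.Grp.H23Sec

set_option autoImplicit false

namespace CA.E6Sec

open Matrix Subgroup Equiv CA.Cub27 Cfsg.Lie Function Module

section
variable {k : Type*} [Field k]

variable (k) in
/-- the invariant trilinear form -/
noncomputable def tri : (I27 → k) →ₗ[k] (I27 → k) →ₗ[k] (I27 → k) →ₗ[k] k :=
  ∑ a, (LinearMap.proj a).smulRight (∑ n, (ee n : k) • ((LinearMap.mul k k).compl₁₂ (LinearMap.proj (pp a n))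
    (LinearMap.proj (qq a n)) + (LinearMap.mul k k).compl₁₂ (LinearMap.proj (qq a n)) (LinearMap.proj (pp a n))))

theorem tri_apply (z x y : I27 → k) : tri k z x y = ∑ a, z a * bb a x y := by
  simp [tri, bb, LinearMap.sum_apply, mul_add]

theorem tri_F1 (z x y : I27 → k) : tri k z x y = F1 z (x + y) - F1 z x - F1 z y := by
  simp only [tri_apply, bb_eq, F1, mul_sub, Finset.sum_sub_distrib]

theorem tri_map {F : Type*} [Field F] (i : F →+* k) (z x y : I27 → F) : tri k (i ∘ z) (i ∘ x) (i ∘ y) = i (tri F z x y) := by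
  have : ∀ n, i (ee n) = ee n := fun n => by unfold ee; split_ifs <;> simp
  simp [tri_apply, bb, this]

/-- a generic height -/
def ht (a : I27) : ℤ := ![1, 2, -3] a.2.1 * ![1, 10, 100] a.1 - ![1, 2, -3] a.2.2 * ![10, 100, 1] a.1

theorem ht_inj : ∀ a b, ht a = ht b → a = b := by decide +kernel
theorem ht_tri : ∀ a n, ht a + ht (pp a n) + ht (qq a n) = 0 := by decide +kernel
theorem card17 : ∀ a, (Finset.univ.filter fun b => ¬N a b).card = 17 := by decide +kernel

theorem bb_ev {b x : I27} (h : N b x) : ∃ y, ∃ ε : k, ε ≠ 0 ∧ ht b + ht x + ht y = 0 ∧ N b y ∧ ∀ u, bb b u (ev x) = ε * u y := by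
  obtain ⟨n, rfl | rfl⟩ := (N_iff _ _).1 h
  exacts [⟨_, _, ee_ne n, ht_tri b n, (N_iff _ _).2 ⟨n, .inr rfl⟩, bb_p b n⟩,
    ⟨_, _, ee_ne n, by have := ht_tri b n; omega, (N_iff _ _).2 ⟨n, .inl rfl⟩, bb_q b n⟩]

theorem exists_top {v : I27 → k} (hv : v ≠ 0) : ∃ a, v a ≠ 0 ∧ ∀ b, v b ≠ 0 → ht b ≤ ht a := by
  classical
  obtain ⟨a, ha, h⟩ := (Finset.univ.filter fun b => v b ≠ 0).exists_max_image ht (by
    obtain ⟨a, ha⟩ := Function.ne_iff.1 hv
    exact ⟨a, by simpa using ha⟩)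
  exact ⟨a, by simpa using ha, fun b hb => h b (by simpa using hb)⟩

theorem rank_tri {v : I27 → k} (hv : v ≠ 0) : finrank k (LinearMap.ker (tri k v)) ≤ 17 := by
  obtain ⟨a, ha, h⟩ := exists_top hv
  let ρ : LinearMap.ker (tri k v) →ₗ[k] ({b // ¬N a b} → k) := (LinearMap.funLeft k k Subtype.val).comp (Submodule.subtype _)
  refine (LinearMap.finrank_le_finrank_of_injective (f := ρ) ((injective_iff_map_eq_zero _).2 fun u hu => ?_)).trans (by
    rw [finrank_fintype_fun_eq_card, Fintype.card_subtype, card17])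
  by_contra h0
  obtain ⟨y, hy, h1⟩ := exists_top (v := u.1) fun e => h0 (Subtype.ext e)
  obtain ⟨x, -, -, h2, h3, -⟩ := bb_ev (k := k) (b := a) (x := y) (not_not.1 fun e => hy (congrFun hu ⟨y, e⟩))
  obtain ⟨y', ε, h4, h5, -, h6⟩ := bb_ev (k := k) h3
  obtain rfl := ht_inj y y' (by omega)
  have h7 : tri k v u (ev x) = 0 := by rw [u.2]; rfl
  rw [tri_apply, Finset.sum_eq_single a (fun b _ hb => ?_) (by simp), h6] at h7
  · exact mul_ne_zero ha (mul_ne_zero h4 hy) h7
  by_contra h8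
  by_cases h9 : N b x
  · obtain ⟨z, δ, -, e1, -, e2⟩ := bb_ev (k := k) h9
    rw [e2] at h8
    have := h b (left_ne_zero_of_mul h8)
    have := h1 z (right_ne_zero_of_mul (right_ne_zero_of_mul h8))
    exact hb (ht_inj _ _ (by omega))
  · refine h8 (mul_eq_zero_of_right _ (Eq.trans ?_ (bb_zero h9 u)))
    exact Finset.sum_congr rfl fun n _ => by ring

theorem tri_inv {F : Type*} [Field F] (hc : ∃ c : F, c ≠ 0 ∧ c ≠ 1) (i : F →+* k) {g : GL I27 F} (hg : g ∈ E6univ F)
    (x y z : I27 → k) : tri k (toLin' (g.val.map i) x) (toLin' (g.val.map i) y) (toLin' (g.val.map i) z) = tri k x y z := by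
  have h1 : ∀ a, (Pi.single a 1 : I27 → k) = i ∘ ev a := fun a => funext fun b => by simp [Pi.single_apply]
  have h2 : ∀ a b c, tri k (toLin' (g.val.map i) (Pi.single a 1)) (toLin' (g.val.map i) (Pi.single b 1))
      (toLin' (g.val.map i) (Pi.single c 1)) = tri k (Pi.single a 1) (Pi.single b 1) (Pi.single c 1) := fun a b c => by
    have h3 : ∀ v, g.val.map i *ᵥ (i ∘ v) = i ∘ (g.val *ᵥ v) := fun v => funext fun a => (RingHom.map_mulVec i _ v a).symm
    simp only [h1, toLin'_apply, h3, tri_map]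
    rw [tri_F1, tri_F1, ← mulVec_add, F1_inv hc hg, F1_inv hc hg, F1_inv hc hg]
  rw [pi_eq_sum_univ' x, pi_eq_sum_univ' y, pi_eq_sum_univ' z]
  simp only [map_sum, map_smul, LinearMap.sum_apply, LinearMap.smul_apply, h2]

end

theorem glue0 {F : Type*} [Field F] [Fintype F] {k : Type} [Field k] (i : F →+* k) (hF : 3 ≤ Fintype.card F) (r : ℕ) (hr : 12 ≤ r)
    {G : Type*} [Group G] (e : G →* chevE6.group F) (he : Injective e) (K : Subgroup G) [K.Normal]
    (h : Nonempty (G ⧸ K ≃* alternatingGroup (Fin r))) :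
    ∃ (Γ : Type) (_ : Group Γ) (_ : Finite Γ) (π : Γ →* alternatingGroup (Fin 12))
      (ρ : Γ →* Module.End k (I27 → k))
      (f : (I27 → k) →ₗ[k] (I27 → k)
        →ₗ[k] (I27 → k) →ₗ[k] k),
      Surjective π ∧ Injective ρ ∧ (∀ g x y z, f (ρ g x) (ρ g y) (ρ g z) = f x y z) ∧
        ∀ v, v ≠ 0 → finrank k (LinearMap.ker (f v)) ≤ 17 := by
  have hc : ∃ c : F, c ≠ 0 ∧ c ≠ 1 := by
    classical
    by_contra hn
    push Not at hn
    have := Finset.card_le_card (s := Finset.univ) (t := ({0, 1} : Finset F)) fun c _ => by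
      by_cases h : c = 0 <;> simp [h, hn c]
    have := Finset.card_le_two (a := (0 : F)) (b := 1)
    rw [Finset.card_univ] at *
    omega
  obtain ⟨M, ψ, h1⟩ := H23Sec.sec h hr
  obtain ⟨e0⟩ := Cub27.equiv hc
  let φ : E6univ F →* chevE6.group F := e0.symm.toMonoidHom.comp (QuotientGroup.mk' _)
  let E := (e.comp M.subtype).comp ((alternatingGroup (Fin 12)).comap ψ).subtype
  have hE : Injective E := (he.comp M.subtype_injective).comp (subtype_injective _)
  obtain ⟨j, hj'⟩ : ∃ j : E.range.comap φ →* GL I27 k, ∀ g, (j g).val = g.1.1.val.map i :=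
    ⟨((GeneralLinearGroup.map (n := I27) i).comp (E6univ F).subtype).comp (E.range.comap φ).subtype, fun _ => rfl⟩
  have hj : Injective j := fun a b h => Subtype.ext (Subtype.ext (Units.ext (Matrix.map_injective i.injective
    ((hj' a).symm.trans ((congrArg Units.val h).trans (hj' b))))))
  obtain ⟨π, hπ⟩ : ∃ π : E.range.comap φ →* alternatingGroup (Fin 12), Surjective π := by
    have h2 : Surjective (ψ.subgroupComap (alternatingGroup (Fin 12))) := fun x => by
      obtain ⟨m, hm⟩ := h1 x.2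
      exact ⟨⟨m, show ψ m ∈ _ from hm ▸ x.2⟩, Subtype.ext hm⟩
    exact ⟨(ψ.subgroupComap _).comp ((MonoidHom.ofInjective hE).symm.toMonoidHom.comp (φ.subgroupComap E.range)),
      h2.comp ((MonoidHom.ofInjective hE).symm.surjective.comp (MonoidHom.subgroupComap_surjective_of_surjective φ _
        (e0.symm.surjective.comp (QuotientGroup.mk'_surjective _))))⟩
  obtain ⟨ρ, hρ⟩ : ∃ ρ : GL I27 k →* Module.End k
      (I27 → k), ∀ g, ρ g = toLin' g.val :=
    ⟨toLinAlgEquiv'.toRingEquiv.toMonoidHom.comp (Units.coeHom _), fun _ => rfl⟩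
  refine ⟨j.range, inferInstance, .of_equiv _ (MonoidHom.ofInjective hj).toEquiv,
    π.comp (MonoidHom.ofInjective hj).symm.toMonoidHom, ρ.comp j.range.subtype, tri _,
    hπ.comp (MonoidHom.ofInjective hj).symm.surjective, fun a b h => Subtype.ext (Units.ext (toLin'.injective
      ((hρ a).symm.trans (h.trans (hρ b))))), ?_, fun v => rank_tri⟩
  intro a x y z
  obtain ⟨g, hg⟩ := a.2
  have h3 : (ρ.comp j.range.subtype) a = toLin' (g.1.1.val.map i) :=
    (hρ _).trans (congrArg _ ((congrArg Units.val hg).symm.trans (hj' g)))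
  have h4 := tri_inv hc i (g := g.1.1) g.1.2 x y z
  rw [h3]
  exact h4

theorem glue' {F : Type*} [Field F] [Fintype F] (p : ℕ) [Fact p.Prime] [CharP F p] (hF : 3 ≤ Fintype.card F) (r : ℕ) (hr : 12 ≤ r)
    {G : Type*} [Group G] (e : G →* chevE6.group F) (he : Injective e) (K : Subgroup G) [K.Normal]
    (h : Nonempty (G ⧸ K ≃* alternatingGroup (Fin r))) :
    ∃ (Γ : Type) (_ : Group Γ) (_ : Finite Γ) (π : Γ →* alternatingGroup (Fin 12))
      (ρ : Γ →* Module.End (AlgebraicClosure (ZMod p)) (I27 → AlgebraicClosure (ZMod p)))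
      (f : (I27 → AlgebraicClosure (ZMod p)) →ₗ[AlgebraicClosure (ZMod p)] (I27 → AlgebraicClosure (ZMod p))
        →ₗ[AlgebraicClosure (ZMod p)] (I27 → AlgebraicClosure (ZMod p)) →ₗ[AlgebraicClosure (ZMod p)] AlgebraicClosure (ZMod p)),
      Surjective π ∧ Injective ρ ∧ (∀ g x y z, f (ρ g x) (ρ g y) (ρ g z) = f x y z) ∧
        ∀ v, v ≠ 0 → finrank (AlgebraicClosure (ZMod p)) (LinearMap.ker (f v)) ≤ 17 := by
  letI := ZMod.algebra F p
  exact glue0 (IsAlgClosed.lift (R := ZMod p) (S := F) (M := AlgebraicClosure (ZMod p))).toRingHom hF r hr e he K h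

theorem glue {F : Type*} [Field F] [Fintype F] (p : ℕ) [Fact p.Prime] [CharP F p] (hF : 3 ≤ Fintype.card F) (r : ℕ) (hr : 12 ≤ r)
    (H : Subgroup (chevE6.group F)) (K : Subgroup H) [K.Normal] (h : Nonempty (H ⧸ K ≃* alternatingGroup (Fin r))) :
    ∃ (Γ : Type) (_ : Group Γ) (_ : Finite Γ) (π : Γ →* alternatingGroup (Fin 12))
      (ρ : Γ →* Module.End (AlgebraicClosure (ZMod p)) (I27 → AlgebraicClosure (ZMod p)))
      (f : (I27 → AlgebraicClosure (ZMod p)) →ₗ[AlgebraicClosure (ZMod p)] (I27 → AlgebraicClosure (ZMod p))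
        →ₗ[AlgebraicClosure (ZMod p)] (I27 → AlgebraicClosure (ZMod p)) →ₗ[AlgebraicClosure (ZMod p)] AlgebraicClosure (ZMod p)),
      Surjective π ∧ Injective ρ ∧ (∀ g x y z, f (ρ g x) (ρ g y) (ρ g z) = f x y z) ∧
        ∀ v, v ≠ 0 → finrank (AlgebraicClosure (ZMod p)) (LinearMap.ker (f v)) ≤ 17 :=
  glue' p hF r hr H.subtype H.subtype_injective K h

end CA.E6Sec
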