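/-
Alternating sections of `E₆(q)`: reductions.
-/
import Cfsg.Agent.Lib.Lie.E6SecA
import Cfsg.Agent.Lib.Lie.E6SecK

set_option autoImplicit false

namespace CA.E6Sec

open Subgroup Cfsg.Lie Function Module

theorem rank5 {k V : Type*} [Field k] [AddCommGroup V] [Module k V] [FiniteDimensional k V] (hd : finrank k V = 27)
    (f : V →ₗ[k] V →ₗ[k] V →ₗ[k] k) (hr : ∀ v, v ≠ 0 → finrank k (LinearMap.ker (f v)) ≤ 17) {g : End k V}
    (hf : ∀ x y z, f (g x) (g y) (g z) = f x y z) (h1 : g ≠ 1) : 5 ≤ finrank k (LinearMap.range (g - 1)) := by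
  obtain ⟨w, hw⟩ : ∃ w, (g - 1) w ≠ 0 := by
    by_contra h
    push Not at h
    exact h1 (sub_eq_zero.1 (LinearMap.ext h))
  have h2 := hr _ hw
  have h3 := (g - 1).finrank_range_add_finrank_ker
  have hU : ∀ u ∈ LinearMap.ker (g - 1), g u = u := fun u hu => sub_eq_zero.1 hu
  let B : LinearMap.ker (g - 1) →ₗ[k] Dual k V := (f ((g - 1) w)).comp (Submodule.subtype _)
  have h4 := LinearMap.finrank_range_add_finrank_ker (V₂ := Dual k V) B
  have h5 : finrank k (LinearMap.range B) ≤ finrank k (LinearMap.ker (g - 1)).dualAnnihilator := Submodule.finrank_mono (by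
    rintro _ ⟨u, rfl⟩
    refine (Submodule.mem_dualAnnihilator _).2 fun x hx => ?_
    have := hf w u x
    rw [hU _ u.2, hU _ hx] at this
    simp [B, this])
  have h6 := Subspace.finrank_add_finrank_dualAnnihilator_eq (LinearMap.ker (g - 1))
  have h7 : finrank k (LinearMap.ker B) ≤ finrank k (LinearMap.ker (f ((g - 1) w))) :=
    LinearMap.finrank_le_finrank_of_injective (f := ((Submodule.subtype _).comp (Submodule.subtype _)).codRestrict _
      fun u => u.2) fun a b e => Subtype.ext (Subtype.ext (by have := congrArg Subtype.val e; exact this))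
  omega

theorem exists_min {Γ Q : Type*} [Group Γ] [Finite Γ] [Group Q] (π : Γ →* Q) (hs : Surjective π) :
    ∃ M : Subgroup Γ, Surjective (π.comp M.subtype) ∧ ∀ L : Subgroup M, L.map (π.comp M.subtype) = ⊤ → L = ⊤ := by
  obtain ⟨M, h1, h2⟩ := (wellFounded_lt (α := Subgroup Γ)).has_min {M | M.map π = ⊤} ⟨⊤, map_top_of_surjective π hs⟩
  refine ⟨M, MonoidHom.range_eq_top.1 (by rw [← MonoidHom.map_range, range_subtype]; exact h1), fun L hL => ?_⟩
  have h3 := (map_subtype_le L).eq_of_not_lt (h2 _ (by rw [Set.mem_ofPred_eq, map_map]; exact hL))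
  exact map_injective M.subtype_injective (h3.trans (by rw [← MonoidHom.range_eq_map, range_subtype]))

/-- the statement left to prove -/
def No12 (p : ℕ) : Prop := ∀ (k : Type) [Field k] [IsAlgClosed k] [CharP k p] (V : Type) [AddCommGroup V] [Module k V]
  [FiniteDimensional k V] (Γ : Type) [Group Γ] [Finite Γ] (π : Γ →* alternatingGroup (Fin 12)) (ρ : Γ →* End k V),
    finrank k V = 27 → Surjective π → (∀ L : Subgroup Γ, L.map π = ⊤ → L = ⊤) → Injective ρ →
      (∀ g, g ≠ 1 → 5 ≤ finrank k (LinearMap.range (ρ g - 1))) → False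

theorem red {F : Type*} [Field F] [Fintype F] (p : ℕ) [hp : Fact p.Prime] [CharP F p] (H : 7 ≤ p → No12 p) {G : Type*} [Group G]
    (e : G →* chevE6.group F) (he : Injective e) (r : ℕ) (K : Subgroup G) [K.Normal]
    (h : Nonempty (G ⧸ K ≃* alternatingGroup (Fin r))) : r ≤ 11 + if p = 2 ∨ p = 3 ∨ p = 5 then 1 else 0 := by
  split_ifs with h1
  · exact le12' p (by omega) e he r K h
  have h7 : 7 ≤ p := by
    by_contra h2
    have := hp.out
    have : p < 7 := by omega
    interval_cases p <;> simp_all (decide := true)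
  by_contra hr
  obtain ⟨a, -, ha⟩ := FiniteField.card F p
  obtain ⟨Γ, _, _, π, ρ, f, h2, h3, h4, h5⟩ := glue' p (by
    have := Nat.le_self_pow a.ne_zero p; omega) r (by omega) e he K h
  obtain ⟨M, h6, h8⟩ := exists_min π h2
  have hd : finrank (AlgebraicClosure (ZMod p)) (I27 → AlgebraicClosure (ZMod p)) = 27 := by simp
  exact H h7 _ _ M _ (ρ.comp M.subtype) hd h6 h8 (h3.comp M.subtype_injective) fun g hg =>
    rank5 hd f h5 (h4 g) fun e => hg (Subtype.ext (h3 (e.trans (map_one ρ).symm)))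

theorem tw_le {K : Type*} [Field K] (q : ℕ) : twistedE6 K q ≤ chevE6.group K := by
  rw [twistedE6, CA.Chev.genSubgroup_eq]; exact map_subtype_le _

end CA.E6Sec
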