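import Cfsg.Agent.Lib.Lie.BNBasic

/-! Hecke-algebra representations along reduced words, the Casimir identity, rationality of the
Schur element, and the combinatorics of a dihedral Weyl group. -/

set_option autoImplicit false

namespace CA.FH
open CA.WordLen

variable {W : Type*} [Group W] {ι : Type*}

/-- product of the images of the letters of a word in a monoid -/
def mp {R : Type*} [Monoid R] (f : ι → R) (l : List ι) : R := (l.map f).prod

@[simp] theorem mp_nil {R : Type*} [Monoid R] (f : ι → R) : mp f [] = 1 := rfl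

@[simp] theorem mp_cons {R : Type*} [Monoid R] (f : ι → R) (i : ι) (l : List ι) :
    mp f (i :: l) = f i * mp f l := by simp [mp]

@[simp] theorem mp_append {R : Type*} [Monoid R] (f : ι → R) (l l' : List ι) :
    mp f (l ++ l') = mp f l * mp f l' := by simp [mp]

theorem mp_alt_even {R : Type*} [Monoid R] (f : ι → R) (a b : ι) (k : ℕ) :
    mp f (alt a b (2 * k)) = (f a * f b) ^ k := by
  induction k with
  | zero => simp [alt_zero]
  | succ k ih =>
    rw [show 2 * (k + 1) = 2 * k + 1 + 1 by ring, alt_succ, alt_succ, mp_cons, mp_cons, ih,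
      pow_succ', mul_assoc]

theorem mp_alt_odd {R : Type*} [Monoid R] (f : ι → R) (a b : ι) (k : ℕ) :
    mp f (alt a b (2 * k + 1)) = (f a * f b) ^ k * f a := by
  induction k with
  | zero => simp [alt_succ, alt_zero]
  | succ k ih =>
    rw [show 2 * (k + 1) + 1 = 2 * k + 1 + 1 + 1 by ring, alt_succ, alt_succ, mp_cons, mp_cons, ih,
      pow_succ']
    simp only [mul_assoc]

/-- a representation of the Hecke algebra with parameters `q` -/
structure HR (s : ι → W) (q : ι → ℂ) {R : Type*} [Ring R] [Algebra ℂ R] (τ : W → R) : Prop where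
  red : ∀ l, Red s l → τ (wp s l) = mp (fun i => τ (s i)) l
  sq : ∀ i, τ (s i) * τ (s i) = (q i - 1) • τ (s i) + q i • (1 : R)

section HR
variable {s : ι → W} {q : ι → ℂ} {R : Type*} [Ring R] [Algebra ℂ R] {τ : W → R}

theorem red_nil (h : InvGen s) : Red s [] := h.len_eq_zero.2 rfl

theorem HR.one (h : InvGen s) (H : HR s q τ) : τ 1 = 1 := H.red [] (red_nil h)

theorem HR.left (h : InvGen s) (H : HR s q τ) {i : ι} {w : W}
    (hw : len s (s i * w) = len s w + 1) : τ (s i * w) = τ (s i) * τ w := by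
  obtain ⟨l, hl, rfl⟩ := h.exists_red w
  have : Red s (i :: l) := by
    unfold Red at hl ⊢
    rw [wp_cons, hw, hl, List.length_cons]
  rw [← wp_cons, H.red _ this, mp_cons, H.red _ hl]

theorem HR.right (h : InvGen s) (H : HR s q τ) {i : ι} {w : W}
    (hw : len s (w * s i) = len s w + 1) : τ (w * s i) = τ w * τ (s i) := by
  obtain ⟨l, hl, rfl⟩ := h.exists_red w
  have : Red s (l ++ [i]) := by
    unfold Red at hl ⊢
    rw [wp_append, wp_singleton, hw, hl, List.length_append, List.length_singleton]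
  rw [← wp_singleton s i, ← wp_append, H.red _ this, mp_append, H.red _ hl, wp_singleton]
  simp

theorem red_of_left {R : Type*} [Monoid R] {τ : W → R} (h : InvGen s) (h1 : τ 1 = 1)
    (hl : ∀ i w, len s (s i * w) = len s w + 1 → τ (s i * w) = τ (s i) * τ w) (l : List ι)
    (hr : Red s l) : τ (wp s l) = mp (fun i => τ (s i)) l := by
  induction l with
  | nil => simpa using h1
  | cons i l ih =>
    have h2 := h.red_tail hr
    rw [wp_cons, mp_cons, ← ih h2]
    apply hl
    unfold Red at hr h2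
    rw [← wp_cons, hr, h2, List.length_cons]

end HR

/-- the length changes by one under left multiplication by a generator -/
def PM (s : ι → W) : Prop :=
  ∀ i w, len s (s i * w) = len s w + 1 ∨ len s (s i * w) + 1 = len s w

theorem casimir [Fintype W] {s : ι → W} {q : ι → ℂ} (h : InvGen s) (hl : PM s) {Q : W → ℂ}
    (hQ : HR s q Q) (hQs : ∀ i, Q (s i) = q i) (hq : ∀ i, q i ≠ 0)
    {M R V : Type*} [Ring M] [Algebra ℂ M] [Ring R] [Algebra ℂ R] [AddCommGroup V] [Module ℂ V]
    {ρ : W → M} {τ : W → R} (hρ : HR s q ρ) (hτ : HR s q τ) (β : M →ₗ[ℂ] R →ₗ[ℂ] V) (i : ι) :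
    ∑ w, (Q w)⁻¹ • β (ρ w⁻¹) (τ (s i) * τ w) = ∑ w, (Q w)⁻¹ • β (ρ w⁻¹ * ρ (s i)) (τ w) := by
  set D : W → V := fun w => (Q w)⁻¹ • β (ρ w⁻¹) (τ (s i) * τ w) -
    (Q w)⁻¹ • β (ρ w⁻¹ * ρ (s i)) (τ w) with hD
  have key : ∀ w, len s (s i * w) = len s w + 1 → D w + D (s i * w) = 0 := by
    intro w hw
    have e1 : (s i * w)⁻¹ = w⁻¹ * s i := by rw [mul_inv_rev, h.inv]
    have e2 : ρ (w⁻¹ * s i) = ρ w⁻¹ * ρ (s i) :=
      hρ.right h (by rw [← e1, h.len_inv, h.len_inv, hw])
    have e3 : τ (s i) * (τ (s i) * τ w) = (q i - 1) • (τ (s i) * τ w) + q i • τ w := by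
      rw [← mul_assoc, hτ.sq, add_mul, smul_mul_assoc, smul_mul_assoc, one_mul]
    have e4 : ρ w⁻¹ * ρ (s i) * ρ (s i) = (q i - 1) • (ρ w⁻¹ * ρ (s i)) + q i • ρ w⁻¹ := by
      rw [mul_assoc, hρ.sq, mul_add, mul_smul_comm, mul_smul_comm, mul_one]
    simp only [hD, e1, e2, hτ.left h hw, hQ.left h hw, hQs, e3, e4, map_add, map_smul,
      LinearMap.add_apply, LinearMap.smul_apply, smul_add, smul_smul, mul_inv]
    have e5 : (q i)⁻¹ * (Q w)⁻¹ * q i = (Q w)⁻¹ := by field_simp [hq i]
    rw [e5]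
    abel
  have key2 : ∀ w, D w + D (s i * w) = 0 := by
    intro w
    rcases hl i w with hw | hw
    · exact key w hw
    · have := key (s i * w) (by rw [h.cancel_left, hw])
      rwa [h.cancel_left, add_comm] at this
  have e : ∑ w, D (s i * w) = ∑ w, D w := Equiv.sum_comp (Equiv.mulLeft (s i)) D
  have e2 : (2 : ℂ) • ∑ w, D w = 0 := by
    rw [two_smul]
    nth_rewrite 2 [← e]
    rw [← Finset.sum_add_distrib]
    exact Finset.sum_eq_zero fun w _ => key2 w
  rw [smul_eq_zero] at e2
  have e3 := e2.resolve_left two_ne_zero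
  rw [hD, Finset.sum_sub_distrib] at e3
  exact sub_eq_zero.1 e3

theorem rat_of_sq {Ω : Type*} [Fintype Ω] [DecidableEq Ω] [Nonempty Ω] {E : Matrix Ω Ω ℂ} {c : ℂ}
    (hE : E * E = c • E) (ht : E.trace = Fintype.card Ω) : ∃ γ : ℚ, c = γ := by
  by_cases hc : c = 0
  · exact ⟨0, by simp [hc]⟩
  have h1 : IsIdempotentElem (Matrix.toLin' (c⁻¹ • E)) := by
    unfold IsIdempotentElem
    rw [Module.End.mul_eq_comp, ← Matrix.toLin'_mul, smul_mul_assoc, mul_smul_comm, hE, smul_smul,
      smul_smul]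
    congr 2
    field_simp
  have h2 := (LinearMap.IsIdempotentElem.isProj_range _ h1).trace
  rw [Matrix.trace_toLin'_eq, Matrix.trace_smul, ht, smul_eq_mul] at h2
  set n := Module.finrank ℂ (LinearMap.range (Matrix.toLin' (c⁻¹ • E)))
  have hN : (Fintype.card Ω : ℂ) ≠ 0 := Nat.cast_ne_zero.2 Fintype.card_ne_zero
  have hn : (n : ℂ) ≠ 0 := by
    rw [← h2]; exact mul_ne_zero (inv_ne_zero hc) hN
  refine ⟨(Fintype.card Ω : ℚ) / n, ?_⟩
  push_cast
  rw [← h2]
  field_simp

theorem single_entry {n : Type*} [Fintype n] [DecidableEq n] (X Y : Matrix n n ℂ) (i j k l : n) :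
    (X * Matrix.single i j (1 : ℂ) * Y) k l = X k i * Y j l := by
  rw [mul_assoc, Matrix.mul_apply, Finset.sum_eq_single i]
  · rw [Matrix.single_mul_apply_same, one_mul]
  · intro k _ hk
    rw [Matrix.single_mul_apply_of_ne _ _ _ _ _ hk, mul_zero]
  · simp

theorem rat_schur [Fintype W] {s : ι → W} {q : ι → ℂ} (h : InvGen s) (hl : PM s) {Q : W → ℂ}
    (hQ : HR s q Q) (hQs : ∀ i, Q (s i) = q i) (hq : ∀ i, q i ≠ 0)
    {Ω : Type*} [Fintype Ω] [DecidableEq Ω] [Nonempty Ω] {T : W → Matrix Ω Ω ℂ} (hT : HR s q T)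
    (htr : ∀ w, w ≠ 1 → (T w).trace = 0) {n : Type*} [Fintype n] [DecidableEq n]
    {ρ : W → Matrix n n ℂ} (hρ : HR s q ρ)
    (hirr : ∀ C : Matrix n n ℂ, (∀ i, ρ (s i) * C = C * ρ (s i)) → ∃ c : ℂ, C = c • 1) :
    ∃ γ : ℚ, ∑ w, (Q w)⁻¹ * ((ρ w⁻¹).trace * (ρ w).trace) = γ := by
  classical
  have hC : ∀ i j : n, ∃ c : ℂ,
      ∑ v, (Q v)⁻¹ • (ρ v * Matrix.single i j 1 * ρ v⁻¹) = c • (1 : Matrix n n ℂ) := by
    intro i j
    apply hirr
    intro k
    have := casimir h hl hQ hQs hq hρ hρ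
      (LinearMap.mk₂ ℂ (fun Y Z : Matrix n n ℂ => Z * Matrix.single i j (1 : ℂ) * Y)
        (by intros; simp [mul_add]) (by intros; simp) (by intros; simp [add_mul])
        (by intros; simp)) k
    simp only [LinearMap.mk₂_apply] at this
    rw [Finset.mul_sum, Finset.sum_mul]
    simp only [mul_smul_comm, smul_mul_assoc, mul_assoc] at this ⊢
    exact this
  choose c hc using hC
  let E : (Matrix n n ℂ →ₗ[ℂ] ℂ) → Matrix Ω Ω ℂ := fun φ => ∑ w, (Q w)⁻¹ • φ (ρ w⁻¹) • T w
  have hTE : ∀ l, Red s l → ∀ φ, T (wp s l) * E φ = E (φ ∘ₗ LinearMap.mulRight ℂ (ρ (wp s l))) := by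
    intro l
    induction l with
    | nil =>
      intro _ φ
      simp [hT.one h, hρ.one h, E]
    | cons i l ih =>
      intro hr φ
      have h2 := h.red_tail hr
      have h3 : len s (s i * wp s l) = len s (wp s l) + 1 := by
        unfold Red at hr h2
        rw [← wp_cons, hr, h2, List.length_cons]
      rw [wp_cons, hT.left h h3, hρ.left h h3, mul_assoc, ih h2]
      have := casimir h hl hQ hQs hq hρ hT
        ((LinearMap.lsmul ℂ (Matrix Ω Ω ℂ)).comp (φ ∘ₗ LinearMap.mulRight ℂ (ρ (wp s l)))) i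
      simp only [E, Finset.mul_sum, mul_smul_comm]
      simpa only [LinearMap.comp_apply, LinearMap.lsmul_apply, LinearMap.mulRight_apply,
        mul_assoc] using this
  have hrat : ∀ i, ∃ γ : ℚ, c i i = γ := by
    intro i
    let φ : Matrix n n ℂ →ₗ[ℂ] ℂ := Matrix.entryLinearMap ℂ ℂ i i
    refine rat_of_sq (E := E φ) ?_ ?_
    · have e1 : E φ * E φ = ∑ v, (Q v)⁻¹ • φ (ρ v⁻¹) • E (φ ∘ₗ LinearMap.mulRight ℂ (ρ v)) := by
        conv_lhs => enter [1]; simp only [E]
        rw [Finset.sum_mul]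
        refine Finset.sum_congr rfl fun v _ => ?_
        obtain ⟨l, hl', rfl⟩ := h.exists_red v
        rw [smul_mul_assoc, smul_mul_assoc, hTE l hl']
      rw [e1]
      simp only [E, Finset.smul_sum, smul_smul]
      rw [Finset.sum_comm]
      refine Finset.sum_congr rfl fun w _ => ?_
      rw [← Finset.sum_smul]
      congr 1
      have e2 := congrArg (fun C => (ρ w⁻¹ * C) i i) (hc i i)
      simp only [Finset.mul_sum, Matrix.sum_apply, mul_smul_comm, mul_one, Matrix.smul_apply,
        smul_eq_mul] at e2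
      simp only [φ, LinearMap.comp_apply, LinearMap.mulRight_apply, Matrix.entryLinearMap_apply]
      rw [mul_left_comm, ← e2, Finset.mul_sum]
      refine Finset.sum_congr rfl fun v _ => ?_
      rw [← mul_assoc (ρ w⁻¹), ← mul_assoc (ρ w⁻¹), single_entry]
      ring
    · simp only [E, Matrix.trace_sum, Matrix.trace_smul]
      rw [Finset.sum_eq_single 1]
      · simp [hQ.one h, hρ.one h, hT.one h, φ]
      · intro w _ hw
        simp [htr w hw]
      · simp
  choose γ hγ using hrat
  refine ⟨∑ i, γ i, ?_⟩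
  have e3 : ∀ i j, ∑ v, (Q v)⁻¹ * (ρ v⁻¹ j j * ρ v i i) = if i = j then c i j else 0 := by
    intro i j
    have e2 := congrArg (fun C => C i j) (hc i j)
    simp only [Matrix.sum_apply, Matrix.smul_apply, smul_eq_mul, Matrix.one_apply] at e2
    rw [mul_ite, mul_one, mul_zero] at e2
    rw [← e2]
    refine Finset.sum_congr rfl fun v _ => ?_
    rw [single_entry]
    ring
  push_cast
  simp only [← hγ, Matrix.trace, Matrix.diag, Finset.sum_mul, Finset.mul_sum]
  rw [Finset.sum_comm]
  refine Finset.sum_congr rfl fun i _ => ?_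
  rw [Finset.sum_comm]
  simp [e3]

/-! ### dihedral Weyl groups -/

/-- two generating involutions -/
structure DH (s : ι → W) (a b : ι) : Prop where
  inv : InvGen s
  pm : PM s
  ne : s a ≠ s b
  all : ∀ i, i = a ∨ i = b

section DH
variable {s : ι → W} {a b : ι}

theorem DH.symm (h : DH s a b) : DH s b a := ⟨h.inv, h.pm, h.ne.symm, fun i => (h.all i).symm⟩

theorem DH.ne_one (h : DH s a b) (i : ι) : s i ≠ 1 := by
  intro e
  have := h.pm i 1
  rw [e, one_mul] at this
  omega

theorem DH.mul_ne (h : DH s a b) : s a * s b ≠ 1 := by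
  intro e
  apply h.ne
  rw [← h.inv.inv a, eq_comm, ← mul_eq_one_iff_eq_inv', e]

theorem DH.ord (h : DH s a b) : orderOf (s b * s a) = orderOf (s a * s b) := by
  rw [← orderOf_inv, mul_inv_rev, h.inv.inv, h.inv.inv]

theorem DH.not_red (h : DH s a b) (i : ι) (l : List ι) : ¬ Red s (i :: i :: l) := by
  intro hr
  unfold Red at hr
  rw [wp_cons, wp_cons, h.inv.cancel_left] at hr
  have := len_le s l
  simp only [List.length_cons] at hr
  omega

theorem DH.red_alt (h : DH s a b) (l : List ι) (hr : Red s l) :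
    l = alt a b l.length ∨ l = alt b a l.length := by
  induction l with
  | nil => left; rfl
  | cons x l ih =>
    have h2 := ih (h.inv.red_tail hr)
    rw [List.length_cons, alt_succ, alt_succ]
    rcases l with _ | ⟨y, l⟩
    · rcases h.all x with rfl | rfl
      · left; rfl
      · right; rfl
    · rw [List.length_cons, alt_succ, alt_succ] at h2
      have hxy : x ≠ y := by rintro rfl; exact h.not_red _ _ hr
      rcases h2 with h2 | h2
      · have hy : y = a := (List.cons.inj h2).1
        have hx : x = b := (h.all x).resolve_left (hy ▸ hxy)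
        right
        rw [List.length_cons, alt_succ, ← h2, hx]
      · have hy : y = b := (List.cons.inj h2).1
        have hx : x = a := (h.all x).resolve_right (hy ▸ hxy)
        left
        rw [List.length_cons, alt_succ, ← h2, hx]

theorem DH.wpa (h : DH s a b) (k : ℕ) :
    wp s (alt a b k) = (s a * s b) ^ k * wp s (alt b a k) :=
  wp_alt s a b (h.inv.sq a) (h.inv.sq b) k

theorem DH.red_step (h : DH s a b) {k : ℕ} (hk : k < orderOf (s a * s b))
    (ih : Red s (alt b a k)) : Red s (alt a b (k + 1)) := by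
  unfold Red at ih ⊢
  rw [length_alt] at ih ⊢
  rw [alt_succ, wp_cons]
  rcases h.pm a (wp s (alt b a k)) with e | e
  · rw [e, ih]
  exfalso
  rw [ih] at e
  obtain ⟨j, rfl⟩ : ∃ j, k = j + 1 := ⟨_, e.symm⟩
  obtain ⟨l, hl, hw⟩ := h.inv.exists_red (s a * wp s (alt b a (j + 1)))
  have hlen : l.length = j := by
    unfold Red at hl
    rw [hw] at hl
    omega
  rw [alt_succ, wp_cons, ← mul_assoc] at hw
  rcases h.red_alt l hl with e2 | e2
  · rw [e2, hlen] at hw
    exact h.mul_ne (by simpa using hw.symm)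
  · rw [e2, hlen, h.wpa, ← mul_assoc, ← pow_succ'] at hw
    have : (s a * s b) ^ (j + 1) = 1 := by simpa using hw.symm
    exact absurd (orderOf_le_of_pow_eq_one (Nat.succ_pos j) this) (by omega)

theorem DH.red_le (h : DH s a b) {k : ℕ} (hk : k ≤ orderOf (s a * s b)) :
    Red s (alt a b k) ∧ Red s (alt b a k) := by
  induction k with
  | zero => exact ⟨red_nil h.inv, red_nil h.inv⟩
  | succ k ih =>
    have := ih (by omega)
    exact ⟨h.red_step (by omega) this.2, h.symm.red_step (by rw [h.ord]; omega) this.1⟩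

theorem DH.braid (h : DH s a b) :
    wp s (alt a b (orderOf (s a * s b))) = wp s (alt b a (orderOf (s a * s b))) := by
  rw [h.wpa, pow_orderOf_eq_one, one_mul]

theorem DH.le_of_red [Finite W] (h : DH s a b) {k : ℕ} (hk : Red s (alt a b k)) :
    k ≤ orderOf (s a * s b) := by
  by_contra hlt
  obtain ⟨j, hj⟩ : ∃ j, orderOf (s a * s b) = j + 1 := ⟨_, (Nat.succ_pred_eq_of_pos (orderOf_pos _)).symm⟩
  obtain ⟨d, rfl⟩ : ∃ d, k = (j + 1 + 1) + d := ⟨k - (j + 1 + 1), by omega⟩
  obtain ⟨v, hv⟩ := alt_add a b (j + 1 + 1) d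
  rw [hv] at hk
  have h1 := (h.inv.red_of_append hk).1
  have h2 := h.braid
  rw [hj] at h2
  unfold Red at h1
  rw [length_alt, alt_succ, wp_cons, ← h2, alt_succ, wp_cons, h.inv.cancel_left] at h1
  have := len_le s (alt b a j)
  rw [length_alt] at this
  omega

theorem DH.exists_rep [Finite W] (h : DH s a b) {R : Type*} [Monoid R] (f : ι → R)
    (hb : mp f (alt a b (orderOf (s a * s b))) = mp f (alt b a (orderOf (s a * s b)))) :
    ∃ ρ : W → R, (∀ l, Red s l → ρ (wp s l) = mp f l) ∧ ∀ i, ρ (s i) = f i := by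
  have key : ∀ k, Red s (alt a b k) → wp s (alt a b k) = wp s (alt b a k) →
      mp f (alt a b k) = mp f (alt b a k) := by
    intro k hk e
    rcases Nat.eq_zero_or_pos k with rfl | hpos
    · rfl
    rw [h.wpa] at e
    have h1 : (s a * s b) ^ k = 1 := by simpa using e
    rw [le_antisymm (h.le_of_red hk) (orderOf_le_of_pow_eq_one hpos h1)]
    exact hb
  have wd : ∀ l l', Red s l → Red s l' → wp s l = wp s l' → mp f l = mp f l' := by
    intro l l' hl hl' e
    have hlen : l'.length = l.length := by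
      unfold Red at hl hl'
      rw [← hl, ← hl', e]
    rcases h.red_alt l hl with e1 | e1 <;> rcases h.red_alt l' hl' with e2 | e2 <;>
      rw [hlen] at e2
    · rw [e1, e2]
    · rw [e1] at hl e; rw [e2] at e; rw [e1, e2]; exact key _ hl e
    · rw [e1] at e; rw [e2] at e hl'; rw [e1, e2]; exact (key _ hl' e.symm).symm
    · rw [e1, e2]
  choose L hL using h.inv.exists_red
  have h1 : ∀ l, Red s l → mp f (L (wp s l)) = mp f l := fun l hl => wd _ _ (hL _).1 hl (hL _).2
  refine ⟨fun w => mp f (L w), h1, fun i => ?_⟩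
  have := h1 [i] (by unfold Red; rw [wp_singleton, h.inv.len_simple (h.ne_one i)]; rfl)
  rw [wp_singleton] at this
  simpa using this

theorem DH.bij [Finite W] (h : DH s a b) : Function.Bijective
    (fun p : Fin (orderOf (s a * s b)) × Bool =>
      (s a * s b) ^ (p.1 : ℕ) * (if p.2 then s a else 1)) := by
  have hs : ∀ j k : ℕ, (s a * s b) ^ j ≠ (s a * s b) ^ k * s a := by
    intro j k e
    have e1 : s a = ((s a * s b) ^ k)⁻¹ * (s a * s b) ^ j := by rw [e]; group
    have hm : s a ∈ Subgroup.zpowers (s a * s b) := by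
      have := mul_mem (inv_mem (pow_mem (Subgroup.mem_zpowers (s a * s b)) k))
        (pow_mem (Subgroup.mem_zpowers (s a * s b)) j)
      rwa [← e1] at this
    obtain ⟨n, hn⟩ := hm
    have hc : Commute (s a * s b) (s a) := by
      conv_rhs => rw [← hn]
      exact (Commute.refl _).zpow_right n
    have h2 : (s a * s b) ^ (2 : ℤ) = 1 := by
      rw [zpow_two, ← mul_assoc, hc.eq, h.inv.cancel_left, h.inv.sq]
    simp only at hn
    rcases Int.even_or_odd' n with ⟨d, rfl | rfl⟩
    · rw [zpow_mul, h2, one_zpow] at hn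
      exact h.ne_one a hn.symm
    · rw [zpow_add, zpow_mul, h2, one_zpow, one_mul, zpow_one] at hn
      exact h.ne_one b (by simpa using hn)
  constructor
  · rintro ⟨j, x⟩ ⟨k, y⟩ e
    have hp : (s a * s b) ^ (j : ℕ) = (s a * s b) ^ (k : ℕ) → j = k := fun e =>
      Fin.ext (pow_injOn_Iio_orderOf j.2 k.2 e)
    cases x <;> cases y <;> simp only [Bool.false_eq_true, if_true, if_false, mul_one] at e
    · rw [hp e]
    · exact absurd e (hs _ _)
    · exact absurd e.symm (hs _ _)
    · rw [hp (mul_right_cancel e)]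
  · intro w
    have key : ∃ n : ℤ, w = (s a * s b) ^ n ∨ w = (s a * s b) ^ n * s a := by
      obtain ⟨l, rfl⟩ := h.inv.gen w
      induction l using List.reverseRecOn with
      | nil => exact ⟨0, Or.inl (by simp)⟩
      | append_singleton l i ih =>
        obtain ⟨n, hn⟩ := ih
        rw [wp_append, wp_singleton]
        rcases hn with hn | hn <;> rw [hn] <;> rcases h.all i with rfl | rfl
        · exact ⟨n, Or.inr rfl⟩
        · refine ⟨n - 1, Or.inr ?_⟩
          rw [zpow_sub_one, mul_inv_rev, h.inv.inv, h.inv.inv, mul_assoc, h.inv.cancel_right]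
        · exact ⟨n, Or.inl (h.inv.cancel_right _ _)⟩
        · exact ⟨n + 1, Or.inl (by rw [zpow_add_one, mul_assoc])⟩
    obtain ⟨n, hn⟩ := key
    obtain ⟨k, hk, e⟩ : ∃ k < orderOf (s a * s b), (s a * s b) ^ k = (s a * s b) ^ n := by
      have : (s a * s b) ^ n ∈ Submonoid.powers (s a * s b) :=
        mem_powers_iff_mem_zpowers.2 ⟨n, rfl⟩
      obtain ⟨k, hk⟩ := this
      exact ⟨k % orderOf (s a * s b), Nat.mod_lt _ (orderOf_pos _), by rw [pow_mod_orderOf]; exact hk⟩
    rcases hn with hn | hn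
    · exact ⟨(⟨k, hk⟩, false), by simp [e, hn]⟩
    · exact ⟨(⟨k, hk⟩, true), by simp [e, hn]⟩

theorem DH.card [Finite W] (h : DH s a b) : Nat.card W = 2 * orderOf (s a * s b) := by
  rw [← Nat.card_eq_of_bijective _ h.bij]
  simp [mul_comm]

theorem DH.sum [Fintype W] (h : DH s a b) (g : W → ℂ) :
    ∑ w, g w = ∑ k ∈ Finset.range (orderOf (s a * s b)),
      (g ((s a * s b) ^ k) + g ((s a * s b) ^ k * s a)) := by
  rw [← h.bij.sum_comp g, Fintype.sum_prod_type, Finset.sum_range]
  refine Finset.sum_congr rfl fun k _ => ?_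
  simp [add_comm]

end DH

end CA.FH
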