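import Cfsg.Agent.Lib.Lie.FH1

/-! The Feit–Higman theorem for a finite group with a `(B, N)`-pair of rank two. -/

set_option autoImplicit false

namespace CA.FH
open CA.WordLen CA.BNBasic Cfsg

section two

theorem sq_two (M : Matrix (Fin 2) (Fin 2) ℂ) : M * M = M.trace • M + (-M.det) • 1 := by
  ext i j
  rw [Matrix.trace_fin_two, Matrix.det_fin_two]
  fin_cases i <;> fin_cases j <;> simp [Matrix.mul_apply, Fin.sum_univ_two] <;> ring

theorem diag_pow (x y : ℂ) (k : ℕ) : (!![x, 0; 0, y] : Matrix (Fin 2) (Fin 2) ℂ) ^ k =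
    !![x ^ k, 0; 0, y ^ k] := by
  induction k with
  | zero => simp [Matrix.one_fin_two]
  | succ k ih => rw [pow_succ, ih]; simp [pow_succ]

theorem trace_pow_comm {n : Type*} [Fintype n] [DecidableEq n] (X Y : Matrix n n ℂ) (k : ℕ) :
    ((Y * X) ^ k).trace = ((X * Y) ^ k).trace := by
  rcases k with _ | k
  · simp
  rw [pow_succ, ← mul_assoc, mul_pow_mul, Matrix.trace_mul_comm, ← mul_assoc, ← pow_succ']

theorem geom_zero {x : ℂ} {m : ℕ} (h1 : x ^ m = 1) (h2 : x ≠ 1) :
    ∑ k ∈ Finset.range m, x ^ k = 0 := by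
  rw [geom_sum_eq h2, h1, sub_self, zero_div]

variable {W : Type*} [Group W] {ι : Type*} {s : ι → W} {a b : ι}

theorem DH.formula [Fintype W] (h : DH s a b) {q : ι → ℂ} {Q : W → ℂ}
    (hQ : HR s q Q) (hQs : ∀ i, Q (s i) = q i) (hq : ∀ i, q i ≠ 0)
    {Ω : Type*} [Fintype Ω] [DecidableEq Ω] [Nonempty Ω] {T : W → Matrix Ω Ω ℂ} (hT : HR s q T)
    (htr : ∀ w, w ≠ 1 → (T w).trace = 0) {r ζ η : ℂ} (hr : r ^ 2 = q a * q b) (hη : ζ * η = 1)
    (hm : ζ ^ orderOf (s a * s b) = 1) (h2 : ζ ^ 2 ≠ 1)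
    (hodd : Odd (orderOf (s a * s b)) → q b = q a ∧ r = q a) :
    ∃ γ : ℚ, (q a + q b + r * (ζ + η)) * (q a * q b + 1 - r * (ζ + η)) =
      γ * (4 * (q a * q b) - (r * (ζ + η)) ^ 2) := by
  classical
  set m := orderOf (s a * s b) with hmdef
  set A := q a with hA
  set B := q b with hB
  have hA0 : A ≠ 0 := hq a
  have hB0 : B ≠ 0 := hq b
  have hr0 : r ≠ 0 := by
    rintro rfl
    exact mul_ne_zero hA0 hB0 (by rw [← hr]; ring)
  have hζ0 : ζ ≠ 0 := by rintro rfl; simp at hη
  have hζη : ζ - η ≠ 0 := by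
    intro e
    apply h2
    linear_combination ζ * e + hη
  have hηm : η ^ m = 1 := by
    have : (ζ * η) ^ m = 1 := by rw [hη, one_pow]
    rwa [mul_pow, hm, one_mul] at this
  have hk : ∀ k, ζ ^ k * η ^ k = 1 := fun k => by rw [← mul_pow, hη, one_pow]
  have hcz : ∀ j k, j + k = m → ζ ^ j = η ^ k := by
    intro j k e
    rw [← e, pow_add] at hm
    linear_combination η ^ k * hm - ζ ^ j * hk k
  obtain ⟨α, β, hαβ, hrel⟩ : ∃ α β : ℂ, α + β = A - 1 ∧ r * (β * ζ + α * η) = -(A * (B - 1)) := by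
    refine ⟨((A - 1) * ζ + A * (B - 1) / r) / (ζ - η),
      A - 1 - ((A - 1) * ζ + A * (B - 1) / r) / (ζ - η), by ring, ?_⟩
    field_simp
    ring
  set S : Matrix (Fin 2) (Fin 2) ℂ := !![α, 1; α * β + A, β] with hS
  set R : Matrix (Fin 2) (Fin 2) ℂ :=
    A⁻¹ • !![-(β * (r * ζ)), r * η; (α * β + A) * (r * ζ), -(α * (r * η))] with hR
  have hSR : S * R = !![r * ζ, 0; 0, r * η] := by
    ext i j
    fin_cases i <;> fin_cases j <;> simp [hS, hR, Matrix.mul_apply, Fin.sum_univ_two] <;>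
      field_simp <;> ring
  have hU : ∀ k, (S * R) ^ k = !![(r * ζ) ^ k, 0; 0, (r * η) ^ k] := fun k => by
    rw [hSR, diag_pow]
  have hdS : S.det = -A := by rw [hS, Matrix.det_fin_two_of]; ring
  have hS2 : S * S = (A - 1) • S + A • 1 := by
    rw [sq_two, hdS, neg_neg, hS, Matrix.trace_fin_two_of, hαβ]
  have hR2 : R * R = (B - 1) • R + B • 1 := by
    have e1 : R.trace = B - 1 := by
      rw [hR, Matrix.trace_smul, Matrix.trace_fin_two_of, smul_eq_mul]
      field_simp
      linear_combination -hrel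
    have e2 : R.det = -B := by
      have := congrArg Matrix.det hSR
      rw [Matrix.det_mul, hdS, Matrix.det_fin_two_of] at this
      apply mul_left_cancel₀ hA0
      linear_combination -this - r ^ 2 * hη - hr
    rw [sq_two, e1, e2, neg_neg]
  have hab : b ≠ a := by rintro rfl; exact h.ne rfl
  let f : ι → Matrix (Fin 2) (Fin 2) ℂ := fun i => if i = a then S else R
  have fa : f a = S := if_pos rfl
  have fb : f b = R := if_neg hab
  have hbr : mp f (alt a b m) = mp f (alt b a m) := by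
    rcases Nat.even_or_odd' m with ⟨d, hd | hd⟩
    · rw [hd, mp_alt_even, mp_alt_even, fa, fb]
      have hu : IsUnit S := by
        rw [Matrix.isUnit_iff_isUnit_det, hdS]
        exact (neg_ne_zero.2 hA0).isUnit
      apply hu.mul_left_cancel
      rw [← mul_pow_mul, hU, mul_pow, mul_pow, hcz d d (by omega)]
      ext i j
      fin_cases i <;> fin_cases j <;> simp [hS, Matrix.mul_apply, Fin.sum_univ_two] <;> ring
    · obtain ⟨e1, e2⟩ := hodd ⟨d, hd⟩
      rw [hd, mp_alt_odd, mp_alt_odd, fa, fb, mul_pow_mul R, hU, mul_pow, mul_pow]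
      have c1 := hcz d (d + 1) (by omega)
      have c2 := hcz (d + 1) d (by omega)
      rw [pow_succ] at c1 c2
      have c3 : α = -(β * ζ) := by
        have h3 : ζ + 1 ≠ 0 := by
          intro e
          apply h2
          linear_combination (ζ - 1) * e
        apply mul_left_cancel₀ (mul_ne_zero hA0 h3)
        rw [e2, e1] at hrel
        linear_combination ζ * hrel + A * ζ * hαβ - A * α * hη
      ext i j
      fin_cases i <;> fin_cases j <;> simp [hS, hR, e2, Matrix.mul_apply, Fin.sum_univ_two] <;>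
        field_simp
      · linear_combination c3
      · linear_combination c1
      · linear_combination -(α * β + A) * c2
      · linear_combination η ^ d * η * c3 - η ^ d * β * hη
  obtain ⟨ρ, hρ1, hρ2⟩ := h.exists_rep f hbr
  have hρ : HR s q ρ := by
    refine ⟨fun l hl => by simp only [hρ2, hρ1 l hl], fun i => ?_⟩
    rw [hρ2]
    rcases h.all i with rfl | rfl
    · rw [fa]; exact hS2
    · rw [fb]; exact hR2
  obtain ⟨γ, hγ⟩ := rat_schur h.inv h.pm hQ hQs hq hT htr hρ (by
    intro C hC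
    have c1 := hC a
    have c2 := hC b
    rw [hρ2, fa] at c1
    rw [hρ2, fb] at c2
    have c3 : S * R * C = C * (S * R) := by rw [mul_assoc, c2, ← mul_assoc, c1, mul_assoc]
    rw [hSR] at c3
    have d1 := congrFun (congrFun c3 0) 1
    have d2 := congrFun (congrFun c3 1) 0
    have d3 := congrFun (congrFun c1 0) 1
    simp [hS, Matrix.mul_apply, Fin.sum_univ_two] at d1 d2 d3
    have e1 : C 0 1 = 0 := by
      apply mul_left_cancel₀ (mul_ne_zero hr0 hζη)
      linear_combination d1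
    have e2 : C 1 0 = 0 := by
      apply mul_left_cancel₀ (mul_ne_zero hr0 hζη)
      linear_combination -d2
    have e3 : C 1 1 = C 0 0 := by rw [e1] at d3; simpa using d3
    refine ⟨C 0 0, ?_⟩
    ext i j
    fin_cases i <;> fin_cases j <;> simp [e1, e2, e3])
  have hQ' : ∀ l, Red s l → Q (wp s l) = mp q l := fun l hl => by
    rw [hQ.red l hl]; simp only [hQs]
  have we : ∀ x y k, wp s (alt x y (2 * k)) = (s x * s y) ^ k := fun x y k => mp_alt_even s x y k
  have wo : ∀ x y k, wp s (alt x y (2 * k + 1)) = (s x * s y) ^ k * s x :=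
    fun x y k => mp_alt_odd s x y k
  have hinv : (s a * s b)⁻¹ = s b * s a := by rw [mul_inv_rev, h.inv.inv, h.inv.inv]
  have hrk : ∀ k, (A * B) ^ k = (r ^ k) ^ 2 := fun k => by rw [← hr, ← pow_mul, ← pow_mul, mul_comm]
  have t1 : ∀ k, 2 * k ≤ m → (ρ ((s a * s b) ^ k)).trace = r ^ k * (ζ ^ k + η ^ k) ∧
      (ρ ((s b * s a) ^ k)).trace = r ^ k * (ζ ^ k + η ^ k) ∧
      Q ((s a * s b) ^ k) = (r ^ k) ^ 2 ∧ Q ((s b * s a) ^ k) = (r ^ k) ^ 2 := by
    intro k hk
    obtain ⟨r1, r2⟩ := h.red_le hk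
    rw [← we, ← we, hρ1 _ r1, hρ1 _ r2, hQ' _ r1, hQ' _ r2, mp_alt_even, mp_alt_even, mp_alt_even,
      mp_alt_even, fa, fb, trace_pow_comm S R, hU, Matrix.trace_fin_two_of, mul_comm (q b), ← hrk]
    refine ⟨by ring, by ring, rfl, rfl⟩
  have t2 : ∀ k, 2 * k + 1 ≤ m → (ρ ((s a * s b) ^ k * s a)).trace = r ^ k * (α * ζ ^ k + β * η ^ k) ∧
      (ρ ((s b * s a) ^ k * s b)).trace = -(r ^ k * r / A * (α * η ^ (k + 1) + β * ζ ^ (k + 1))) ∧
      Q ((s a * s b) ^ k * s a) = (r ^ k) ^ 2 * A ∧ Q ((s b * s a) ^ k * s b) = (r ^ k) ^ 2 * B := by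
    intro k hk
    obtain ⟨r1, r2⟩ := h.red_le hk
    rw [← wo, ← wo, hρ1 _ r1, hρ1 _ r2, hQ' _ r1, hQ' _ r2, mp_alt_odd, mp_alt_odd, mp_alt_odd,
      mp_alt_odd, fa, fb, mul_pow_mul R, hU, mul_comm (q b), ← hrk]
    refine ⟨?_, ?_, rfl, rfl⟩
    · simp [hS, Matrix.trace_fin_two]
      ring
    · simp [hR, Matrix.trace_fin_two]
      field_simp
      ring
  have hsum : ∀ k ∈ Finset.range m,
      (Q ((s a * s b) ^ k))⁻¹ * ((ρ ((s a * s b) ^ k)⁻¹).trace * (ρ ((s a * s b) ^ k)).trace) +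
      (Q ((s a * s b) ^ k * s a))⁻¹ *
        ((ρ ((s a * s b) ^ k * s a)⁻¹).trace * (ρ ((s a * s b) ^ k * s a)).trace) =
      (1 + α ^ 2 / A) * (ζ ^ 2) ^ k + (1 + β ^ 2 / A) * (η ^ 2) ^ k + (2 + 2 * α * β / A) := by
    intro k hkm
    rw [Finset.mem_range] at hkm
    have hflip : ∀ j, j + k = m → (s a * s b) ^ k = (s b * s a) ^ j := by
      intro j hj
      rw [← hinv, inv_pow, eq_inv_iff_mul_eq_one, ← pow_add, add_comm, hj, hmdef,
        pow_orderOf_eq_one]
    have g1 : (Q ((s a * s b) ^ k))⁻¹ * ((ρ ((s a * s b) ^ k)⁻¹).trace *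
        (ρ ((s a * s b) ^ k)).trace) = (ζ ^ k + η ^ k) ^ 2 := by
      by_cases hk2 : 2 * k ≤ m
      · obtain ⟨u1, u2, u3, -⟩ := t1 k hk2
        rw [← inv_pow, hinv, u1, u2, u3]
        field_simp
      · obtain ⟨u1, u2, -, u4⟩ := t1 (m - k) (by omega)
        have hinv' : (s b * s a)⁻¹ = s a * s b := by rw [← hinv, inv_inv]
        rw [hflip (m - k) (by omega), ← inv_pow, hinv', u1, u2, u4, hcz (m - k) k (by omega),
          ← hcz k (m - k) (by omega)]
        field_simp
        ring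
    have g2 : (Q ((s a * s b) ^ k * s a))⁻¹ * ((ρ ((s a * s b) ^ k * s a)⁻¹).trace *
        (ρ ((s a * s b) ^ k * s a)).trace) = (α * ζ ^ k + β * η ^ k) ^ 2 / A := by
      have hi : ((s a * s b) ^ k * s a)⁻¹ = (s a * s b) ^ k * s a := by
        rw [mul_inv_rev, h.inv.inv, ← inv_pow, hinv, mul_pow_mul]
      rw [hi]
      by_cases hk2 : 2 * k + 1 ≤ m
      · obtain ⟨u1, -, u3, -⟩ := t2 k hk2
        rw [u1, u3]
        field_simp
      · obtain ⟨-, u2, -, u4⟩ := t2 (m - k - 1) (by omega)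
        rw [hflip (m - k - 1 + 1) (by omega), pow_succ, ← mul_assoc _ (s b) (s a),
          h.inv.cancel_right, u2, u4,
          hcz (m - k - 1 + 1) k (by omega), ← hcz k (m - k - 1 + 1) (by omega)]
        field_simp
        rw [hr]
        ring
    rw [g1, g2, ← pow_mul, ← pow_mul, mul_comm 2 k, pow_mul, pow_mul]
    linear_combination (2 + 2 * α * β / A) * hk k
  rw [h.sum, Finset.sum_congr rfl hsum, Finset.sum_add_distrib, Finset.sum_add_distrib,
    ← Finset.mul_sum, ← Finset.mul_sum, geom_zero (by rw [← pow_mul, mul_comm, pow_mul, hm, one_pow]) h2,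
    geom_zero (by rw [← pow_mul, mul_comm, pow_mul, hηm, one_pow]) (by
      intro e; apply h2; linear_combination (ζ * η + 1) * hη - ζ ^ 2 * e),
    Finset.sum_const, Finset.card_range, nsmul_eq_mul] at hγ
  have hm0 : (m : ℂ) ≠ 0 := Nat.cast_ne_zero.2 (orderOf_pos _).ne'
  refine ⟨γ / (2 * m), ?_⟩
  push_cast
  rw [← hγ]
  have k1 : α * (r * ζ - r * η) = (A - 1) * (r * ζ) + A * (B - 1) := by
    linear_combination r * ζ * hαβ - hrel
  have k2 : β * (r * η - r * ζ) = (A - 1) * (r * η) + A * (B - 1) := by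
    linear_combination r * η * hαβ - hrel
  have k3 : r * ζ * (r * η) = A * B := by linear_combination r ^ 2 * hη + hr
  have k4 : α * β * (4 * (A * B) - (r * (ζ + η)) ^ 2) =
      ((A - 1) * (r * ζ) + A * (B - 1)) * ((A - 1) * (r * η) + A * (B - 1)) := by
    rw [← k1, ← k2]
    linear_combination -4 * α * β * k3
  field_simp
  linear_combination (2 * m) * (-k4 - (A - 1) ^ 2 * k3)

end two

section building
variable {G : Type*} [Group G] {P : BNPair G}

/-- the Weyl distance between two chambers -/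
noncomputable def dl (x y : G ⧸ P.B) : W P := (exists_inCell (P := P) (x.out⁻¹ * y.out)).choose

theorem dl_iff {g h : G} {w : W P} : dl (g : G ⧸ P.B) (h : G ⧸ P.B) = w ↔ InCell P (g⁻¹ * h) w := by
  have h1 : InCell P _ (dl (g : G ⧸ P.B) (h : G ⧸ P.B)) := (exists_inCell (P := P) _).choose_spec
  obtain ⟨b, hb⟩ := QuotientGroup.mk_out_eq_mul P.B g
  obtain ⟨c, hc⟩ := QuotientGroup.mk_out_eq_mul P.B h
  rw [hb, hc] at h1
  have h2 := (h1.mul_left b.2).mul_right (inv_mem c.2)
  rw [show (b : G) * ((g * b)⁻¹ * (h * c)) * (c : G)⁻¹ = g⁻¹ * h by group] at h2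
  exact ⟨fun e => e ▸ h2, fun e => h2.unique e⟩

theorem dl_one {x y : G ⧸ P.B} : dl x y = 1 ↔ x = y := by
  induction x using QuotientGroup.induction_on
  induction y using QuotientGroup.induction_on
  rw [dl_iff, inCell_one_iff, QuotientGroup.eq]

theorem dl_symm {x y : G ⧸ P.B} {s : P.S} (h : dl x y = sr P s) : dl y x = sr P s := by
  induction x using QuotientGroup.induction_on
  induction y using QuotientGroup.induction_on
  rw [dl_iff] at h ⊢
  have := h.inv
  rwa [(invGen P).inv, mul_inv_rev, inv_inv] at this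

theorem dl_mul {x y z : G ⧸ P.B} {s : P.S} {w : W P} (h : dl x y = sr P s) (k : dl y z = w) :
    dl x z = sr P s * w ∨ dl x z = w := by
  induction x using QuotientGroup.induction_on
  induction y using QuotientGroup.induction_on
  induction z using QuotientGroup.induction_on
  rw [dl_iff] at h k
  rw [dl_iff, dl_iff]
  simpa [mul_assoc] using h.simple_mul k

theorem dl_mul_le {x y z : G ⧸ P.B} {s : P.S} {w : W P} (hle : ℓ P w ≤ ℓ P (sr P s * w))
    (h : dl x y = sr P s) (k : dl y z = w) : dl x z = sr P s * w := by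
  induction x using QuotientGroup.induction_on
  induction y using QuotientGroup.induction_on
  induction z using QuotientGroup.induction_on
  rw [dl_iff] at h k ⊢
  simpa [mul_assoc] using h.simple_mul_of_le hle k

theorem dl_split {x z : G ⧸ P.B} {v w : W P} (h : dl x z = v * w) :
    ∃ y, dl x y = v ∧ dl y z = w := by
  induction x using QuotientGroup.induction_on with | H x => ?_
  induction z using QuotientGroup.induction_on with | H z => ?_
  obtain ⟨n, rfl⟩ := mkW_surj v
  obtain ⟨n', rfl⟩ := mkW_surj w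
  rw [dl_iff, ← map_mul] at h
  obtain ⟨b, hb, c, hc, e⟩ := h.exists_eq
  refine ⟨(x * b * n : G), dl_iff.2 ?_, dl_iff.2 ?_⟩
  · simpa [mul_assoc] using (inCell_mk n).mul_left hb
  · have : (x * b * n)⁻¹ * z = n' * c := by
      rw [inv_mul_eq_iff_eq_mul] at e ⊢
      rw [e]; simp [mul_assoc]
    rw [this]
    exact (inCell_mk n').mul_right hc

theorem dl_smul (g : G) (x y : G ⧸ P.B) : dl (g • x) (g • y) = dl x y := by
  induction x using QuotientGroup.induction_on
  induction y using QuotientGroup.induction_on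
  rw [MulAction.Quotient.smul_mk, MulAction.Quotient.smul_mk, dl_iff]
  simpa [mul_assoc] using dl_iff.1 rfl

open Classical in
/-- the adjacency matrix of a Weyl distance -/
noncomputable def TM (P : BNPair G) (w : W P) : Matrix (G ⧸ P.B) (G ⧸ P.B) ℂ :=
  fun x y => if dl x y = w then 1 else 0

variable [Fintype (G ⧸ P.B)] [DecidableEq (G ⧸ P.B)]

/-- the index parameter of a Weyl group element -/
noncomputable def QM (P : BNPair G) [Fintype (G ⧸ P.B)] (w : W P) : ℂ :=
  ∑ y, TM P w ((1 : G) : G ⧸ P.B) y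

omit [DecidableEq (G ⧸ P.B)] in
theorem row_sum (w : W P) (x : G ⧸ P.B) : ∑ y, TM P w x y = QM P w := by
  induction x using QuotientGroup.induction_on with | H g => ?_
  rw [QM, ← Equiv.sum_comp (MulAction.toPerm g)]
  refine Finset.sum_congr rfl fun y _ => ?_
  have := dl_smul g ((1 : G) : G ⧸ P.B) y
  rw [MulAction.Quotient.smul_mk, smul_eq_mul, mul_one] at this
  unfold TM
  rw [MulAction.toPerm_apply, this]

omit [Fintype (G ⧸ P.B)] in
theorem TM_one : TM P 1 = 1 := by
  ext x y
  simp only [TM, dl_one, Matrix.one_apply]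

omit [DecidableEq (G ⧸ P.B)] in
theorem TM_trace {w : W P} (hw : w ≠ 1) : (TM P w).trace = 0 := by
  refine Finset.sum_eq_zero fun x _ => ?_
  rw [Matrix.diag_apply, TM, dl_one.2 rfl, if_neg hw.symm]

omit [DecidableEq (G ⧸ P.B)] in
theorem TM_left (s : P.S) (w : W P) (hw : ℓ P (sr P s * w) = ℓ P w + 1) :
    TM P (sr P s * w) = TM P (sr P s) * TM P w := by
  ext x z
  rw [Matrix.mul_apply]
  by_cases h : dl x z = sr P s * w
  · obtain ⟨y, h1, h2⟩ := dl_split h
    rw [Finset.sum_eq_single y]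
    · simp [TM, h, h1, h2]
    · intro y' _ hy
      by_cases k1 : dl x y' = sr P s
      swap
      · simp [TM, k1]
      by_cases k2 : dl y' z = w
      swap
      · simp [TM, k2]
      exfalso
      rcases dl_mul (dl_symm k1) h1 with e | e
      · rw [sr_sq] at e
        exact hy (dl_one.1 e)
      · have := dl_mul_le (by omega) e h2
        rw [k2] at this
        exact sr_mul_ne s w this.symm
    · simp
  · rw [Finset.sum_eq_zero]
    · simp [TM, h]
    intro y _
    by_cases k1 : dl x y = sr P s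
    swap
    · simp [TM, k1]
    by_cases k2 : dl y z = w
    swap
    · simp [TM, k2]
    exact absurd (dl_mul_le (by omega) k1 k2) h

theorem TM_sq (s : P.S) : TM P (sr P s) * TM P (sr P s) =
    (QM P (sr P s) - 1) • TM P (sr P s) + QM P (sr P s) • 1 := by
  ext x z
  have hs := sr_ne_one P s
  rw [Matrix.mul_apply, Matrix.add_apply, Matrix.smul_apply, Matrix.smul_apply, smul_eq_mul,
    smul_eq_mul, ← row_sum (sr P s) x]
  by_cases hxz : x = z
  · subst hxz
    have e : TM P (sr P s) x x = 0 := by simp [TM, dl_one.2 rfl, hs.symm]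
    rw [e, mul_zero, zero_add, Matrix.one_apply_eq, mul_one]
    refine Finset.sum_congr rfl fun y _ => ?_
    by_cases k : dl x y = sr P s
    · simp [TM, k, dl_symm k]
    · simp [TM, k]
  rw [Matrix.one_apply_ne hxz, mul_zero, add_zero]
  by_cases h : dl x z = sr P s
  · have e : TM P (sr P s) x z = 1 := by simp [TM, h]
    have e2 : (1 : ℂ) = ∑ y, if y = z then 1 else 0 := by simp
    rw [e, mul_one, e2, ← Finset.sum_sub_distrib]
    refine Finset.sum_congr rfl fun y _ => ?_
    by_cases hy : y = z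
    · subst hy
      simp [TM, h, dl_one.2 rfl, hs.symm]
    by_cases k : dl x y = sr P s
    · rcases dl_mul (dl_symm k) h with e | e
      · rw [sr_sq] at e
        exact absurd (dl_one.1 e) hy
      · simp [TM, k, e, hy]
    · simp [TM, k, hy]
  · have e : TM P (sr P s) x z = 0 := by simp [TM, h]
    rw [e, mul_zero]
    refine Finset.sum_eq_zero fun y _ => ?_
    by_cases k1 : dl x y = sr P s
    swap
    · simp [TM, k1]
    by_cases k2 : dl y z = sr P s
    swap
    · simp [TM, k2]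
    rcases dl_mul k1 k2 with e | e
    · rw [sr_sq] at e
      exact absurd (dl_one.1 e) hxz
    · exact absurd e h

theorem hr_TM : HR (sr P) (fun s => QM P (sr P s)) (TM P) :=
  ⟨red_of_left (invGen P) TM_one TM_left, TM_sq⟩

theorem hr_QM : HR (sr P) (fun s => QM P (sr P s)) (QM P) := by
  refine ⟨red_of_left (invGen P) ?_ fun s w hw => ?_, fun s => by simp; ring⟩
  · simp [QM, TM_one, Matrix.one_apply]
  · rw [QM, TM_left s w hw]
    simp only [Matrix.mul_apply]
    rw [Finset.sum_comm]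
    simp only [← Finset.mul_sum, row_sum, ← Finset.sum_mul]

theorem QM_nat (s : P.S) : ∃ n : ℕ, 2 ≤ n ∧ QM P (sr P s) = n := by
  classical
  refine ⟨(Finset.univ.filter fun y => dl ((1 : G) : G ⧸ P.B) y = sr P s).card, ?_, ?_⟩
  · obtain ⟨c, hc, hn⟩ := exists_conj_not_mem P s.2
    refine Finset.one_lt_card.2 ⟨((s : G)⁻¹ : G), ?_, (c * s : G), ?_, ?_⟩
    · simpa [dl_iff] using inCell_sr_inv s
    · simpa [dl_iff] using (inCell_sr s).mul_left hc
    · rw [Ne, QuotientGroup.eq, inv_inv, ← mul_assoc]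
      exact hn
  · simp [QM, TM]

end building

end CA.FH
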