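import Cfsg.Agent.Lib.Lie.FH2

/-! The Feit–Higman theorem: the arithmetic part. -/

set_option autoImplicit false

namespace CA.FH
open CA.WordLen CA.BNBasic Cfsg

theorem root_cases {ζ η : ℂ} (hη : ζ * η = 1) {m : ℕ} (hm0 : 0 < m) (hm : ζ ^ m = 1) {c : ℚ}
    (hc : ζ + η = c) : ζ ^ 4 = 1 ∨ ζ ^ 6 = 1 := by
  have hi : IsIntegral ℤ ζ := IsIntegral.of_pow hm0 (hm ▸ isIntegral_one)
  have hηm : η ^ m = 1 := by
    have : (ζ * η) ^ m = 1 := by rw [hη, one_pow]
    rwa [mul_pow, hm, one_mul] at this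
  have hj : IsIntegral ℤ η := IsIntegral.of_pow hm0 (hηm ▸ isIntegral_one)
  have h1 : IsIntegral ℤ (algebraMap ℚ ℂ c) := by
    have := hi.add hj
    rwa [hc] at this
  rw [isIntegral_algebraMap_iff (algebraMap ℚ ℂ).injective, IsIntegrallyClosed.isIntegral_iff] at h1
  obtain ⟨n, hn⟩ := h1
  have h2 : ζ + η = n := by rw [hc, ← hn]; simp
  have h3 : ‖ζ‖ = 1 := Complex.norm_eq_one_of_pow_eq_one hm hm0.ne'
  have h4 : ‖η‖ = 1 := Complex.norm_eq_one_of_pow_eq_one hηm hm0.ne'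
  have h5 : |n| ≤ 2 := by
    have := norm_add_le ζ η
    rw [h2, h3, h4, Complex.norm_intCast] at this
    have h6 : ((|n| : ℤ) : ℝ) ≤ 2 := by push_cast; linarith
    exact_mod_cast h6
  have h6 : ζ ^ 2 - n * ζ + 1 = 0 := by linear_combination ζ * h2 - hη
  rw [abs_le] at h5
  obtain ⟨h7, h8⟩ := h5
  interval_cases n <;> push_cast at h6
  · have : ζ = -1 := by
      have : (ζ + 1) ^ 2 = 0 := by linear_combination h6
      linear_combination pow_eq_zero_iff two_ne_zero |>.1 this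
    left; rw [this]; norm_num
  · right; linear_combination (ζ ^ 3 + 1) * (ζ - 1) * h6
  · left; linear_combination (ζ ^ 2 - 1) * h6
  · right; linear_combination (ζ ^ 3 - 1) * (ζ + 1) * h6
  · have : ζ = 1 := by
      have : (ζ - 1) ^ 2 = 0 := by linear_combination h6
      linear_combination pow_eq_zero_iff two_ne_zero |>.1 this
    left; rw [this]; norm_num

theorem rat_solve {x u v : ℂ} {a b : ℚ} (hu : u = a) (hv : v = b) (h : u * x = v)
    (h0 : a = 0 → b ≠ 0) : ∃ c : ℚ, x = c := by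
  subst hu hv
  have ha : a ≠ 0 := by
    intro e
    apply h0 e
    rw [e] at h
    exact_mod_cast (by simpa using h.symm : (b : ℂ) = 0)
  refine ⟨b / a, ?_⟩
  push_cast
  rw [← h]
  field_simp

theorem rat_even {A B : ℕ} (hA : 2 ≤ A) (hB : 2 ≤ B) {x : ℂ} {γ δ : ℚ}
    (h1 : ((A : ℂ) + B + x) * (A * B + 1 - x) = γ * (4 * (A * B) - x ^ 2))
    (h2 : ((A : ℂ) + B - x) * (A * B + 1 + x) = δ * (4 * (A * B) - x ^ 2)) : ∃ c : ℚ, x = c := by
  have hA' : (2 : ℚ) ≤ A := by exact_mod_cast hA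
  have hB' : (2 : ℚ) ≤ B := by exact_mod_cast hB
  obtain ⟨c, hc⟩ : ∃ c : ℚ, x ^ 2 = c := by
    refine rat_solve (a := γ + δ - 2) (b := 4 * (A * B) * (γ + δ) - 2 * ((A + B) * (A * B + 1)))
      rfl rfl (by push_cast; linear_combination h1 + h2) fun e => ?_
    rw [show γ + δ = 2 by linarith]
    nlinarith [mul_nonneg (sub_nonneg.2 hA') (sub_nonneg.2 hB'), sq_nonneg (A - 1 : ℚ),
      mul_pos (show (0 : ℚ) < B by linarith) (show (0 : ℚ) < (A - 1) ^ 2 by nlinarith),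
      mul_pos (show (0 : ℚ) < A by linarith) (show (0 : ℚ) < (B - 1) ^ 2 by nlinarith)]
  refine rat_solve (a := (A - 1) * (B - 1)) (b := γ * (4 * (A * B) - c) - (A + B) * (A * B + 1) + c)
    rfl rfl (by push_cast; rw [← hc]; linear_combination h1) fun e => ?_
  exact absurd e (mul_pos (by linarith) (by linarith)).ne'

theorem feit_higman {G : Type*} [Group G] [Finite G] (P : BNPair G) (h2 : P.rank = 2) :
    Nat.card (W P) ∈ ({4, 6, 8, 12, 16} : Set ℕ) := by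
  classical
  obtain ⟨a, b, hab, hall⟩ := Nat.card_eq_two_iff.1 h2
  have h : DH (sr P) a b := ⟨invGen P, len_simple_mul, fun e => hab (sr_injective P e), fun i => by
    have : i ∈ ({a, b} : Set P.S) := hall ▸ Set.mem_univ i
    simpa using this⟩
  haveI : Fintype (W P) := Fintype.ofFinite _
  haveI : Fintype (G ⧸ P.B) := Fintype.ofFinite _
  rw [h.card]
  obtain ⟨A, hA, eA⟩ := QM_nat a
  obtain ⟨B, hB, eB⟩ := QM_nat b
  have hq : ∀ i, QM P (sr P i) ≠ 0 := fun i => by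
    obtain ⟨n, hn, e⟩ := QM_nat i
    rw [e]
    exact Nat.cast_ne_zero.2 (by omega)
  have F := fun r ζ η => h.formula (r := r) (ζ := ζ) (η := η) (hr_QM (P := P)) (fun _ => rfl) hq
    hr_TM (fun _ => TM_trace)
  simp only [eA, eB] at F
  have hm0 := orderOf_pos (sr P a * sr P b)
  have hm1 : orderOf (sr P a * sr P b) ≠ 1 := fun e => h.mul_ne (orderOf_eq_one_iff.1 e)
  have hbr := congrArg (QM P) h.braid
  rw [hr_QM.red _ (h.red_le le_rfl).1, hr_QM.red _ (h.red_le le_rfl).2] at hbr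
  generalize orderOf (sr P a * sr P b) = m at *
  by_cases hm2 : m = 2
  · simp [hm2]
  have hζ := Complex.isPrimitiveRoot_exp m hm0.ne'
  set ζ := Complex.exp (2 * Real.pi * Complex.I / m)
  have hζ0 : ζ ≠ 0 := hζ.ne_zero hm0.ne'
  have hη : ζ * ζ⁻¹ = 1 := mul_inv_cancel₀ hζ0
  have hz2 : ζ ^ 2 ≠ 1 := hζ.pow_ne_one_of_pos_of_lt two_ne_zero (by omega)
  have hA0 : (A : ℂ) ≠ 0 := Nat.cast_ne_zero.2 (by omega)
  have hB0 : (B : ℂ) ≠ 0 := Nat.cast_ne_zero.2 (by omega)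
  rcases Nat.even_or_odd' m with ⟨d, hd | hd⟩
  · obtain ⟨r, hr⟩ := IsAlgClosed.exists_pow_nat_eq ((A : ℂ) * B) two_pos
    have hr0 : r ≠ 0 := by
      rintro rfl
      exact mul_ne_zero hA0 hB0 (by rw [← hr]; ring)
    have hno : ¬ Odd m := by rw [hd]; simp
    have G : ∀ ξ η : ℂ, ξ * η = 1 → ξ ^ m = 1 → ξ ^ 2 ≠ 1 → ∃ c : ℚ, r * (ξ + η) = c := by
      intro ξ η e1 e2 e3
      obtain ⟨γ, hγ⟩ := F r ξ η hr e1 e2 e3 fun h => absurd h hno
      obtain ⟨δ, hδ⟩ := F r (-ξ) (-η) hr (by simpa using e1)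
        (by rw [hd, pow_mul, neg_sq, ← pow_mul, ← hd, e2]) (by rwa [neg_sq]) fun h => absurd h hno
      exact rat_even hA hB hγ (δ := δ) (by linear_combination hδ)
    obtain ⟨c, hc⟩ := G ζ ζ⁻¹ hη hζ.pow_eq_one hz2
    have e2 : ζ ^ 2 + ζ⁻¹ ^ 2 = ((c ^ 2 / (A * B) - 2 : ℚ) : ℂ) := by
      push_cast
      rw [← hc, ← hr]
      field_simp
      ring
    have e3 : m ∣ 8 ∨ m ∣ 12 := by
      rcases root_cases (ζ := ζ ^ 2) (η := ζ⁻¹ ^ 2) (by rw [← mul_pow, hη, one_pow]) hm0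
        (by rw [← pow_mul, mul_comm, pow_mul, hζ.pow_eq_one, one_pow]) e2 with e | e <;>
        rw [← pow_mul] at e
      · exact Or.inl (hζ.dvd_of_pow_eq_one _ e)
      · exact Or.inr (hζ.dvd_of_pow_eq_one _ e)
    have e4 : m ≠ 12 := by
      intro e
      have n4 : ζ ^ 4 ≠ 1 := hζ.pow_ne_one_of_pos_of_lt (by omega) (by omega)
      have n6 : ζ ^ 6 ≠ 1 := hζ.pow_ne_one_of_pos_of_lt (by omega) (by omega)
      have z12 := hζ.pow_eq_one
      obtain ⟨c', hc'⟩ := G (ζ ^ 2) (ζ⁻¹ ^ 2) (by rw [← mul_pow, hη, one_pow])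
        (by rw [← pow_mul, mul_comm, pow_mul, z12, one_pow]) (by rwa [← pow_mul])
      rw [e] at z12
      have p1 : ζ ^ 6 + 1 = 0 :=
        (mul_eq_zero.1 (by linear_combination z12 : (ζ ^ 6 - 1) * (ζ ^ 6 + 1) = 0)).resolve_left
          (sub_ne_zero.2 n6)
      have p2 : ζ ^ 4 - ζ ^ 2 + 1 = 0 := by
        refine (mul_eq_zero.1 (by linear_combination p1 :
          (ζ ^ 2 + 1) * (ζ ^ 4 - ζ ^ 2 + 1) = 0)).resolve_left fun e => n4 ?_
        linear_combination (ζ ^ 2 - 1) * e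
      have p3 : ζ ^ 2 + ζ⁻¹ ^ 2 = 1 := by
        field_simp
        linear_combination p2
      rw [p3, mul_one] at hc'
      have p4 : ζ + ζ⁻¹ = ((c / c' : ℚ) : ℂ) := by
        push_cast
        rw [← hc, ← hc']
        field_simp
      rcases root_cases hη hm0 hζ.pow_eq_one p4 with e | e
      · exact n4 e
      · exact n6 e
    have e5 : m ≤ 12 := by
      rcases e3 with e | e
      · exact (Nat.le_of_dvd (by norm_num) e).trans (by norm_num)
      · exact Nat.le_of_dvd (by norm_num) e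
    clear hζ hz2 G hc e2 hη hζ0 F hbr hd
    interval_cases m <;> simp_all
  · have hAB : (B : ℂ) = A := by
      rw [hd, mp_alt_odd, mp_alt_odd] at hbr
      simp only [eA, eB] at hbr
      rw [mul_comm (B : ℂ) A] at hbr
      exact (mul_left_cancel₀ (pow_ne_zero _ (mul_ne_zero hA0 hB0)) hbr).symm
    obtain ⟨γ, hγ⟩ := F A ζ ζ⁻¹ (by rw [hAB, sq]) hη hζ.pow_eq_one hz2 fun _ => ⟨hAB, rfl⟩
    rw [hAB] at hγ
    have n1 : (A : ℂ) + A + A * (ζ + ζ⁻¹) ≠ 0 := by
      intro e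
      apply hz2
      have e1 : (A : ℂ) * (ζ + 1) ^ 2 = 0 := by linear_combination ζ * e - A * hη
      have e2 := pow_eq_zero_iff two_ne_zero |>.1 ((mul_eq_zero.1 e1).resolve_left hA0)
      linear_combination (ζ - 1) * e2
    have e1 : (A : ℂ) * A + 1 - A * (ζ + ζ⁻¹) = γ * (2 * A - A * (ζ + ζ⁻¹)) := by
      apply mul_left_cancel₀ n1
      linear_combination hγ
    have hA' : (2 : ℚ) ≤ A := by exact_mod_cast hA
    obtain ⟨c, hc⟩ : ∃ c : ℚ, ζ + ζ⁻¹ = c := by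
      refine rat_solve (a := (γ - 1) * A) (b := 2 * A * γ - A * A - 1) rfl rfl
        (by push_cast; linear_combination e1) fun e => ?_
      have : γ = 1 := by
        rcases mul_eq_zero.1 e with e | e <;> linarith
      rw [this]
      nlinarith
    have e3 : m ∣ 4 ∨ m ∣ 6 := by
      rcases root_cases hη hm0 hζ.pow_eq_one hc with e | e
      · exact Or.inl (hζ.dvd_of_pow_eq_one _ e)
      · exact Or.inr (hζ.dvd_of_pow_eq_one _ e)
    have e5 : m ≤ 6 := by
      rcases e3 with e | e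
      · exact (Nat.le_of_dvd (by norm_num) e).trans (by norm_num)
      · exact Nat.le_of_dvd (by norm_num) e
    have e6 : m = 3 := by
      rcases e3 with ⟨k, e⟩ | ⟨k, e⟩ <;> interval_cases m <;> omega
    simp [e6]

end CA.FH
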