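/-
Curtis–Richen theory, I: weight vectors of modules in the defining characteristic.
-/
import Cfsg.Agent.Lib.Lie.LangChev
import Cfsg.Agent.Lib.Lie.ChevSL2
import Cfsg.Agent.Lib.Lie.H22St
import Cfsg.Agent.Lib.Lie.H12Chev
import Cfsg.Agent.Lib.Grp.H10Dl
import Cfsg.Agent.Lib.Perm.FcRep

set_option autoImplicit false
set_option linter.unusedSectionVars false

namespace CA.H12CR

open Equiv Cfsg.Lie Cfsg.Lie.ChevalleyDatum CA.Chev

variable {D : ChevalleyDatum} [Good D] {K : Type*} [Field K] {Γ : Type*} [Group Γ] (A : Sys D K Γ)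

/-! ### the decomposition `V N U` -/

theorem exists_VNU (hG : A.G = ⊤) (g : Γ) : ∃ y ∈ A.V, ∃ n ∈ A.N, ∃ u ∈ A.U, g = y * n * u := by
  obtain ⟨n0, hn0, w0, ha, hw⟩ := A.exists_n0
  obtain ⟨b, hb, m, hm, b', hb', e⟩ := A.bruhat (g := n0⁻¹ * g) (hG ▸ trivial)
  obtain ⟨u, hu, h, hh, rfl⟩ := A.mem_B.1 hb
  obtain ⟨h', hh', u', hu', rfl⟩ := A.mem_B'.1 hb'
  refine ⟨n0 * u * n0⁻¹, ha.conj_X (S := {r | Pos r}) (T := {r | ¬ Pos r}) (fun s hs h => (hw s).1 h hs) hu,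
    n0 * h * m * h', mul_mem (mul_mem (mul_mem hn0 (A.H_le_N hh)) hm) (A.H_le_N hh'), u', hu', ?_⟩
  rw [← mul_inv_cancel_left n0 g, e]; group

theorem VNU_unique {y y' n n' u u' : Γ} (hy : y ∈ A.V) (hy' : y' ∈ A.V) (hn : n ∈ A.N) (hn' : n' ∈ A.N)
    (hu : u ∈ A.U) (hu' : u' ∈ A.U) (e : y * n * u = y' * n' * u') : n = n' := by
  obtain ⟨w, hw⟩ := A.exists_act hn
  obtain ⟨w', hw'⟩ := A.exists_act hn'
  obtain ⟨b, hb, a, ha, e1⟩ := A.exists_mul nil_neg (fun r => ¬ Pos (w⁻¹ r)) (mul_mem (inv_mem hy') hy)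
  have h1 : n⁻¹ * a * n * u * u'⁻¹ ∈ A.U :=
    mul_mem (mul_mem (hw.conj_X' (T := {r | Pos r}) (fun s hs => not_not.1 hs.2) ha) hu) (inv_mem hu')
  have h2 : n⁻¹ * b * n ∈ A.V := hw.conj_X' (T := {r | ¬ Pos r}) (fun s hs => hs.2) hb
  have e2 : n'⁻¹ * n = (n⁻¹ * a * n * u * u'⁻¹)⁻¹ * (n⁻¹ * b * n)⁻¹ := by
    rw [show n' = y'⁻¹ * y * n * u * u'⁻¹ by rw [mul_assoc y'⁻¹, mul_assoc y'⁻¹, e]; group, e1]; group
  have h3 := hw'.inv.mul hw
  have h4 := A.eq_one_of_act (A.U_le_B (inv_mem h1)) (inv_mem h2) (e2 ▸ h3)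
  have h5 := A.mem_H_of_act (mul_mem (inv_mem hn') hn) (h4 ▸ h3)
  have h6 := A.B_inf_V (g := (n⁻¹ * b * n)⁻¹) (by
    rw [eq_inv_mul_iff_mul_eq] at e2; rw [← e2]; exact mul_mem (A.U_le_B h1) (A.H_le_B h5)) (inv_mem h2)
  rw [h6, mul_one] at e2
  exact (inv_mul_eq_one.1 (A.U_inf_H (e2 ▸ inv_mem h1) h5)).symm

/-! ### the operators `T i` -/

variable [Fintype K] [DecidableEq K] {k V : Type*} [Field k] [AddCommGroup V] [Module k V] (ρ : Representation k Γ V)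

/-- vectors fixed by `U` -/
def Fx (v : V) : Prop := ∀ u ∈ A.U, ρ u v = v

/-- eigenvectors of `H` -/
def Eg (v : V) : Prop := ∀ h ∈ A.H, ∃ c : k, ρ h v = c • v

/-- the Hecke operator of a simple reflection -/
noncomputable def T (i : Nd D) : Module.End k V := ∑ t : K, ρ (A.x (sim i) t * A.n (sim i) 1)

variable {A ρ}

theorem ρ_mul (g h : Γ) (v : V) : ρ (g * h) v = ρ g (ρ h v) := by rw [map_mul]; rfl

theorem ρ_congr {g h : Γ} (e : g = h) (v : V) : ρ g v = ρ h v := by rw [e]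

theorem T_apply (i : Nd D) (v : V) : T A ρ i v = ∑ t : K, ρ (A.x (sim i) t * A.n (sim i) 1) v := by
  rw [T, LinearMap.sum_apply]

theorem Fx.smul {v : V} (h : Fx A ρ v) (c : k) : Fx A ρ (c • v) := fun u hu => by rw [map_smul, h u hu]

theorem Fx.tor {v : V} (h : Fx A ρ v) {g : Γ} (hg : g ∈ A.H) : Fx A ρ (ρ g v) := fun u hu => by
  rw [← ρ_mul, show u * g = g * (g⁻¹ * u * g) by group, ρ_mul, h _ (A.H_conj_X' hg hu)]

theorem Fx.mul {v : V} (h : Fx A ρ v) (g : Γ) {u : Γ} (hu : u ∈ A.U) : ρ (g * u) v = ρ g v := by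
  rw [ρ_mul, h u hu]

theorem x_sim_mem (i : Nd D) (t : K) : A.x (sim i) t ∈ A.U := A.x_mem (S := {r | Pos r}) (pos_sim i) t

theorem Fx.map {v : V} (h : Fx A ρ v) (i : Nd D) : Fx A ρ (T A ρ i v) := fun u hu => by
  obtain ⟨a, ha, c, rfl⟩ := A.exists_U_sim i hu
  rw [T_apply, map_sum]
  refine Fintype.sum_equiv (Equiv.addLeft c) _ _ fun t => ?_
  have h1 := A.conj_mem' (S := {sim i}) (T := {r | Pos r ∧ r ≠ sim i})
    (fun r hr => nil_Up i r (Or.inl (by rw [hr]; exact pos_sim i))) (A.x_mem (Set.mem_singleton _) (c + t)) ha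
  have h2 := (A.act_sim i 1).conj_X' (S := {r | Pos r ∧ r ≠ sim i}) (T := {r | Pos r})
    (fun s hs => by rw [sR_inv]; exact hs.1.sR_pos hs.2) h1
  rw [← ρ_mul, Equiv.coe_addLeft, ← h.mul (A.x (sim i) (c + t) * A.n (sim i) 1) h2]
  exact ρ_congr (by rw [A.add]; group) v

theorem H_T {g : Γ} (hg : g ∈ A.H) (i : Nd D) (v : V) :
    ρ g (T A ρ i v) = T A ρ i (ρ ((A.n (sim i) 1)⁻¹ * g * A.n (sim i) 1) v) := by
  obtain ⟨c, hc⟩ := (A.act_H hg).conj_x (sim i)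
  rw [T_apply, T_apply, map_sum]
  refine Fintype.sum_equiv c.mulLeft _ _ fun t => ?_
  rw [← ρ_mul, ← ρ_mul, Units.mulLeft_apply]
  exact ρ_congr (by rw [← show _ = A.x (sim i) (c * t) from hc t]; group) v

theorem Eg.map {v : V} (h : Eg A ρ v) (i : Nd D) : Eg A ρ (T A ρ i v) := fun g hg => by
  obtain ⟨c, hc⟩ := h _ (A.conj_H' (A.n_mem (sim i) 1) hg)
  exact ⟨c, by rw [H_T hg, hc, map_smul]⟩

theorem h_neg (h3 : A.R3) (r : Rt D) (t : Kˣ) : A.h r t * (A.h r (-1))⁻¹ = A.h r (-t) := by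
  rw [mul_inv_eq_iff_eq_mul, ← h3]; simp

theorem h_T (i : Nd D) (s : Kˣ) (v : V) :
    ρ (A.h (sim i) s) (T A ρ i v) = ∑ t : K, ρ (A.x (sim i) t * A.n (sim i) s) v := by
  obtain ⟨c, hc⟩ := (A.act_H (A.h_mem (sim i) s)).conj_x (sim i)
  rw [T_apply, map_sum]
  refine Fintype.sum_equiv c.mulLeft _ _ fun t => ?_
  rw [← ρ_mul, Units.mulLeft_apply]
  exact ρ_congr (by rw [← show _ = A.x (sim i) (c * t) from hc t, A.n_eq _ s]; group) v

theorem sum_units {M : Type*} [AddCommMonoid M] (f : K → M) : ∑ t, f t = f 0 + ∑ s : Kˣ, f s := by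
  rw [← Finset.add_sum_erase _ _ (Finset.mem_univ 0)]
  congr 1
  symm
  exact Finset.sum_bij (fun s _ => (s : K)) (fun s _ => by simp) (fun _ _ _ _ h => Units.ext h)
    (fun t ht => ⟨Units.mk0 t (Finset.ne_of_mem_erase ht), Finset.mem_univ _, rfl⟩) fun _ _ => rfl

theorem x_n (h3 : A.R3) (r : Rt D) (s : Kˣ) :
    ∃ c, A.x r s * A.n r 1 = A.x (ng r) (s⁻¹ : Kˣ) * A.h r (-s) * A.x r c := by
  have e := A.n_conj_ng r (-1) (s⁻¹ : Kˣ)
  refine ⟨_, by rw [← h_neg h3, ← A.n_mul_n, ← e, A.n_neg, A.n_def' r s, A.x_neg, Units.val_inv_eq_inv_val]; group⟩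

theorem n_x_n (h3 : A.R3) (r : Rt D) (s : Kˣ) :
    ∃ c d, A.n r 1 * A.x r s * A.n r 1 = A.x r c * A.n r (-s⁻¹) * A.x r d := by
  obtain ⟨c, hc⟩ := (A.act_H (inv_mem (A.n_mul_n_mem r 1 1))).conj_x r
  have e := A.n_conj_self r 1 s
  have e1 : A.n r s⁻¹ * A.n r 1 * A.n r 1 = A.n r (-s⁻¹) := by rw [A.n_mul_n, h_neg h3, ← A.n_eq]
  refine ⟨(-s : Kˣ)⁻¹, c * (-s : Kˣ)⁻¹, ?_⟩
  rw [← show _ = A.x r _ from hc _, ← e1, mul_inv_eq_iff_eq_mul.1 e]
  have e2 := A.x_ng_eq r (-s)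
  simp only [Units.val_neg, inv_neg, neg_neg, Units.val_one, inv_one, one_pow, one_mul,
    Units.val_inv_eq_inv_val] at e2 ⊢
  rw [e2]; simp only [mul_assoc, mul_inv_rev, inv_inv, mul_inv_cancel_left]

section char
variable (hq : (Fintype.card K : k) = 0)
include hq

theorem sum_const (v : V) : ∑ _t : K, v = 0 := by
  rw [Finset.sum_const, Finset.card_univ, ← Nat.cast_smul_eq_nsmul k, hq, zero_smul]

theorem Fx.TT (h3 : A.R3) {v : V} (h : Fx A ρ v) (i : Nd D) :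
    T A ρ i (T A ρ i v) = ∑ s : Kˣ, ρ (A.h (sim i) s) (T A ρ i v) := by
  rw [T_apply i v, map_sum, sum_units, ← T_apply]
  have h0 : T A ρ i (ρ (A.x (sim i) 0 * A.n (sim i) 1) v) = 0 := by
    rw [T_apply, ← sum_const hq (ρ (A.n (sim i) 1 * A.n (sim i) 1) v)]
    refine Finset.sum_congr rfl fun t _ => ?_
    rw [← h.tor (A.n_mul_n_mem (sim i) 1 1) _ (x_sim_mem i t), ← ρ_mul, ← ρ_mul]
    exact ρ_congr (by rw [A.x_zero]; group) v
  rw [h0, zero_add]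
  refine Fintype.sum_equiv ((Equiv.inv _).trans (Equiv.neg _)) _ _ fun s => ?_
  obtain ⟨c, d, e⟩ := n_x_n h3 (sim i) s
  rw [h_T, T_apply]
  refine Fintype.sum_equiv (Equiv.addRight c) _ _ fun t => ?_
  rw [← ρ_mul, ← h.mul (A.x (sim i) _ * A.n (sim i) _) (x_sim_mem i d)]
  refine ρ_congr ?_ v
  rw [Equiv.coe_addRight, A.add, mul_assoc (A.x _ t) (A.x _ c), mul_assoc (A.x _ t) (_ * _)]
  exact (by group : _ = _ * (A.n _ 1 * A.x _ s * A.n _ 1)).trans (congrArg _ e)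

end char

/-! ### existence of weight vectors -/

section S
variable [Fintype Γ]

variable (A ρ) in
open Classical in
/-- the Hecke operator of `n ∈ N` acting on the roots as `w` -/
noncomputable def S (w : Perm (Rt D)) (n : Γ) : Module.End k V :=
  ∑ u ∈ Finset.univ.filter (· ∈ A.X (invs w⁻¹)), ρ (u * n)

theorem S_one (n : Γ) : S A ρ 1 n = ρ n := by
  rw [S, Finset.sum_eq_single 1 (fun u hu h => (h (by simpa [A.X_empty] using hu)).elim)
    (fun h => (h (by simp)).elim), one_mul]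

theorem S_step {w : Perm (Rt D)} {i : Nd D} (h : Pos (w⁻¹ (sim i))) (hw : w ∈ RA D) (n : Γ) :
    S A ρ (sR i * w) (A.n (sim i) 1 * n) = T A ρ i * S A ρ w n := by
  classical
  have hne : ∀ s ∈ invs w⁻¹, s ≠ sim i := fun s hs e => (mem_invs.1 hs).2 (e ▸ h)
  have hU : ∀ u ∈ A.X (invs w⁻¹), A.n (sim i) 1 * u * (A.n (sim i) 1)⁻¹ ∈
      A.X {r | r ∈ invs (sR i * w)⁻¹ ∧ r ≠ sim i} := fun u hu =>
    (A.act_sim i 1).conj_X (T := {r | r ∈ invs (sR i * w)⁻¹ ∧ r ≠ sim i}) (fun s hs => ⟨mem_invs.2 ⟨(mem_invs.1 hs).1.sR_pos (hne s hs), by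
      simpa using (mem_invs.1 hs).2⟩, fun e => (not_pos_ng _).2 (pos_sim i) (by
        rw [← sR_sim, ← e, sR_sR]; exact (mem_invs.1 hs).1)⟩) hu
  have hw' : (sR i * w)⁻¹ ∈ RA D := inv_mem (mul_mem (sR_mem_RA i) hw)
  rw [S, S, T, Finset.sum_mul_sum, ← Finset.sum_product']
  symm
  refine Finset.sum_bij (fun a _ => A.x (sim i) a.1 * (A.n (sim i) 1 * a.2 * (A.n (sim i) 1)⁻¹))
    (fun a ha => ?_) (fun a ha b hb e => ?_) (fun g hg => ?_) fun a _ => ?_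
  · simp only [Finset.mem_product, Finset.mem_filter, Finset.mem_univ, true_and] at ha ⊢
    refine mul_mem (A.x_mem (Finset.mem_coe.2 (mem_invs.2 (.intro (pos_sim i) ?_))) _) (A.X_mono (fun _ h => h.1) (hU _ ha))
    rw [mul_inv_rev, sR_inv, Perm.mul_apply, sR_sim, map_ng (inv_mem hw), not_pos_ng]; exact h
  · simp only [Finset.mem_product, Finset.mem_filter, Finset.mem_univ, true_and] at ha hb
    have e1 : a.1 = b.1 := by
      by_contra hab
      refine (A.x_mem_X_iff (S := {r | Pos r}) (T := {r | Pos r ∧ r ≠ sim i}) nil_pos (nil_pos.mono (fun _ h => h.1)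
        fun r hr s hs k hk => (nil_Up i r (Or.inl hr.1) s hs).2 k hk) (fun _ h => h.1) (pos_sim i)
        (c := -b.1 + a.1) (by rwa [neg_add_eq_sub, sub_ne_zero]) ?_).2 rfl
      rw [A.add, A.x_neg, ← mul_inv_cancel_right (A.x _ a.1) (A.n (sim i) 1 * a.2 * (A.n (sim i) 1)⁻¹), e,
        ← mul_assoc, inv_mul_cancel_left]
      exact A.X_mono (S := {r | r ∈ invs (sR i * w)⁻¹ ∧ r ≠ sim i}) (T := {r | Pos r ∧ r ≠ sim i})
        (fun _ h => ⟨(mem_invs.1 h.1).1, h.2⟩) (mul_mem (hU _ hb) (inv_mem (hU _ ha)))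
    rw [e1] at e
    exact Prod.ext e1 (by simpa using e)
  · obtain ⟨a, ha, b, hb, rfl⟩ := A.exists_mul (Sys.nil_invs hw') (· = sim i) (Finset.mem_filter.1 hg).2
    obtain ⟨t, rfl⟩ := A.mem_X_single.1 (A.X_mono (T := {sim i}) (fun _ h => h.2) ha)
    refine ⟨(t, (A.n (sim i) 1)⁻¹ * b * A.n (sim i) 1), ?_, by group⟩
    simp only [Finset.mem_product, Finset.mem_filter, Finset.mem_univ, true_and]
    refine (A.act_sim i 1).conj_X' (fun s hs => ?_) hb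
    rw [sR_inv, Finset.mem_coe, mem_invs]
    exact ⟨(mem_invs.1 hs.1).1.sR_pos hs.2, by simpa using (mem_invs.1 hs.1).2⟩
  · rw [← map_mul]; congr 1; group

theorem S_step' {w : Perm (Rt D)} {i : Nd D} (h : Pos (w⁻¹ (sim i))) (hw : w ∈ RA D) (n : Γ) (v : V) :
    S A ρ (sR i * w) n v = T A ρ i (S A ρ w ((A.n (sim i) 1)⁻¹ * n) v) := by
  rw [← Module.End.mul_apply, ← S_step h hw, mul_inv_cancel_left]

theorem S_good {v : V} (h1 : Fx A ρ v) (h2 : Eg A ρ v) {w : Perm (Rt D)} (hw : w ∈ W D) :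
    ∀ n ∈ A.N, A.Act n w → Fx A ρ (S A ρ w n v) ∧ Eg A ρ (S A ρ w n v) := by
  refine W_induction_left (P := fun w => ∀ n ∈ A.N, A.Act n w → Fx A ρ (S A ρ w n v) ∧ Eg A ρ (S A ρ w n v))
    (fun n hn h => ?_) (fun w hw i hi ih n hn h => ?_) hw
  · obtain ⟨c, hc⟩ := h2 n (A.mem_H_of_act hn h)
    rw [S_one, hc]
    exact ⟨h1.smul c, fun g hg => (h2 g hg).imp fun d hd => by rw [map_smul, hd, smul_comm]⟩
  · obtain ⟨h3, h4⟩ := ih _ (mul_mem (inv_mem (A.n_mem (sim i) 1)) hn) (by simpa [← mul_assoc] using (A.act_sim i 1).inv.mul h)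
    rw [S_step' hi (W_le_RA hw)]
    exact ⟨h3.map i, h4.map i⟩

end S

variable (A ρ) in
/-- weight vectors -/
structure Wv (v : V) : Prop where
  fx : Fx A ρ v
  eg : Eg A ρ v
  tt : ∀ i, T A ρ i v = 0 ∨ T A ρ i v = ∑ s : Kˣ, ρ (A.h (sim i) s) v

theorem card_eq_zero (p : ℕ) [Fact p.Prime] [CharP K p] [CharP k p] : (Fintype.card K : k) = 0 := by
  obtain ⟨n, -, hn⟩ := FiniteField.card K p
  rw [hn, Nat.cast_pow, CharP.cast_eq_zero, zero_pow n.ne_zero]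

/-- the character of a weight at one node -/
def lam (o : Option (Kˣ →* kˣ)) : Kˣ →* kˣ := o.getD 1

/-- the eigenvalue of `T i` of a weight at one node -/
def mu (o : Option (Kˣ →* kˣ)) : k := o.elim 0 fun l => ∑ s, (l s : k)

theorem sum_one (hq : (Fintype.card K : k) = 0) : ∑ s : Kˣ, ((1 : Kˣ →* kˣ) s : k) = -1 := by
  have := sum_units (fun _ : K => (1 : k))
  rw [sum_const hq] at this
  exact eq_neg_of_add_eq_zero_right this.symm

variable (A ρ) in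
/-- `v` has weight `ω` -/
structure Has (ω : Nd D → Option (Kˣ →* kˣ)) (v : V) : Prop where
  fx : Fx A ρ v
  hh : ∀ i s, ρ (A.h (sim i) s) v = (lam (ω i) s : k) • v
  tt : ∀ i, T A ρ i v = mu (ω i) • v

theorem Has.eg {ω : Nd D → Option (Kˣ →* kˣ)} {v : V} (h : Has A ρ ω v) : Eg A ρ v := fun g hg => by
  let M : Subgroup Γ :=
    { carrier := {g | ∃ c : kˣ, ρ g v = (c : k) • v}
      one_mem' := ⟨1, by simp⟩
      mul_mem' := by
        rintro a b ⟨c, hc⟩ ⟨d, hd⟩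
        exact ⟨d * c, by rw [ρ_mul, hd, map_smul, hc, smul_smul, Units.val_mul]⟩
      inv_mem' := by
        rintro a ⟨c, hc⟩
        exact ⟨c⁻¹, by rw [← Units.smul_def, eq_inv_smul_iff, Units.smul_def, ← map_smul, ← hc, ← ρ_mul]; simp⟩ }
  obtain ⟨c, hc⟩ := A.H_le_sim (M := M) (fun i t => ⟨_, h.hh i t⟩) hg
  exact ⟨c, hc⟩

theorem Has.smul {ω : Nd D → Option (Kˣ →* kˣ)} {v : V} (h : Has A ρ ω v) (c : k) : Has A ρ ω (c • v) :=
  ⟨h.fx.smul c, fun i s => by rw [map_smul, h.hh, smul_comm], fun i => by rw [map_smul, h.tt, smul_comm]⟩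

theorem Has.unique (hq : (Fintype.card K : k) = 0) {ω ω' : Nd D → Option (Kˣ →* kˣ)} {v : V} (h : Has A ρ ω v)
    (h' : Has A ρ ω' v) (h0 : v ≠ 0) : ω = ω' := funext fun i => by
  have h1 : lam (ω i) = lam (ω' i) := MonoidHom.ext fun s => Units.ext
    (smul_left_injective k h0 ((h.hh i s).symm.trans (h'.hh i s)))
  have h2 : mu (ω i) = mu (ω' i) := smul_left_injective k h0 ((h.tt i).symm.trans (h'.tt i))
  generalize ω i = a, ω' i = b at h1 h2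
  rcases a with _ | a <;> rcases b with _ | b
  · rfl
  · obtain rfl : 1 = b := h1
    exact absurd (h2.trans (sum_one hq)) (by simp [mu])
  · obtain rfl : a = 1 := h1
    exact absurd (h2.symm.trans (sum_one hq)) (by simp [mu])
  · exact congrArg _ h1

theorem Wv.exists_has (h3 : A.R3) {v : V} (h : Wv A ρ v) (h0 : v ≠ 0) : ∃ ω, Has A ρ ω v := by
  choose c hc using fun i s => h.eg _ (A.h_mem (sim i) s)
  let l : Nd D → Kˣ →* kˣ := fun i => MonoidHom.toHomUnits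
    { toFun := c i
      map_one' := smul_left_injective k h0 (show _ • v = _ • v by rw [← hc]; simp)
      map_mul' := fun s t => smul_left_injective k h0 (show _ • v = _ • v by
        rw [← hc, h3, ρ_mul, hc, map_smul, hc, smul_smul, mul_comm]) }
  have hl : ∀ i s, ρ (A.h (sim i) s) v = (l i s : k) • v := hc
  have : ∀ i, ∃ o, lam o = l i ∧ T A ρ i v = mu o • v := fun i => by
    rcases h.tt i with e | e
    · by_cases h1 : l i = 1
      · exact ⟨none, h1.symm, by simpa [mu] using e⟩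
      · refine ⟨some (l i), rfl, ?_⟩
        have := sum_hom_units_eq_zero ((Units.coeHom k).comp (l i)) fun e => h1 (MonoidHom.ext fun s =>
          Units.ext (DFunLike.congr_fun e s))
        rw [e, show mu (some (l i)) = 0 from this, zero_smul]
    · exact ⟨some (l i), rfl, by rw [e]; simp only [hl, mu, Option.elim, Finset.sum_smul]⟩
  choose ω h1 h2 using this
  exact ⟨ω, h.fx, fun i s => by rw [h1, hl], h2⟩

/-- a weight vector generates its module over `V` -/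
theorem Has.kill (h3 : A.R3) (hG : A.G = ⊤) {ω : Nd D → Option (Kˣ →* kˣ)} {v : V} (h : Has A ρ ω v)
    {f : Module.Dual k V} (hf : ∀ y ∈ A.V, ∀ x, f (ρ y x) = f x) (h0 : f v = 0) (g : Γ) : f (ρ g v) = 0 := by
  obtain ⟨y, hy, n, hn, u, hu, rfl⟩ := exists_VNU A hG g
  rw [h.fx.mul _ hu, ρ_mul, hf y hy]
  obtain ⟨w, hw⟩ := A.exists_act hn
  refine W_induction (P := fun w => ∀ n ∈ A.N, A.Act n w → f (ρ n v) = 0) (fun n hn h1 => ?_)
    (fun w hw i hi ih n hn h1 => ?_) hw.1 n hn hw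
  · obtain ⟨c, hc⟩ := h.eg n (A.mem_H_of_act hn h1)
    rw [hc, map_smul, h0, smul_zero]
  · have h2 : A.Act (n * (A.n (sim i) 1)⁻¹) w := by simpa [mul_assoc] using h1.mul (A.act_sim i 1).inv
    have h4 := ih _ (mul_mem hn (inv_mem (A.n_mem (sim i) 1))) h2
    have h5 := congrArg (fun x => f (ρ (n * (A.n (sim i) 1)⁻¹) x)) (h.tt i)
    simp only [T_apply, map_sum, map_smul, h4, smul_zero] at h5
    rw [sum_units, Finset.sum_eq_zero fun s _ => ?_, add_zero, ← ρ_mul, A.x_zero, one_mul,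
      inv_mul_cancel_right] at h5
    · exact h5
    obtain ⟨c, hc⟩ := x_n h3 (sim i) s
    have h6 := h2.conj_X (S := {ng (sim i)}) (T := {r | ¬ Pos r}) (fun r hr => by
      rw [hr, map_ng h2.ra]; exact (not_pos_ng _).2 hi) (A.x_mem (Set.mem_singleton _) (s⁻¹ : Kˣ))
    rw [hc, h.fx.mul _ (x_sim_mem i c), ρ_mul (A.x _ _), h.hh, map_smul, map_smul, map_smul, ← ρ_mul,
      ← inv_mul_cancel_right (_ * A.x _ _) (n * (A.n (sim i) 1)⁻¹), ρ_mul, hf _ h6, h4, smul_zero]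

variable (ρ) in
/-- irreducibility, in a self-dual form -/
def Irr : Prop := ∀ v (f : Module.Dual k V), (∀ g, f (ρ g v) = 0) → v = 0 ∨ f = 0

variable [Finite Γ] (p : ℕ) [Fact p.Prime] [CharP K p] [CharP k p]
include p

variable (A ρ) in
theorem exists_fix [FiniteDimensional k V] [Nontrivial V] {R : Set (Rt D)} (hR : Nil R) :
    ∃ v ≠ 0, ∀ u ∈ A.X R, ρ u v = v := by
  obtain ⟨v, h0, hv⟩ := CA.H10Dl.exists_fixed (CA.H12Chev.isP_X A p hR) (ρ.comp (A.X R).subtype)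
  exact ⟨v, h0, fun u hu => hv ⟨u, hu⟩⟩

variable (A ρ) in
theorem exists_Wv [IsAlgClosed k] [FiniteDimensional k V] [Nontrivial V] : ∃ v ≠ 0, Wv A ρ v := by
  have h3 := A.r3_of_finite
  have := Fintype.ofFinite Γ
  obtain ⟨v0, h0, hv0⟩ := exists_fix A ρ p nil_pos
  let E : Submodule k V := ⟨⟨⟨{v | Fx A ρ v}, fun h h' u hu => by rw [map_add, h u hu, h' u hu]⟩,
    fun u _ => map_zero _⟩, fun c _ h => h.smul c⟩
  obtain ⟨v, h1 : Fx A ρ v, hv, h2⟩ := CA.FcRep.exists_common_eigen_aux (ρ '' A.H) (by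
    rintro _ ⟨a, ha, rfl⟩ _ ⟨b, hb, rfl⟩; rw [← map_mul, ← map_mul, h3.H_comm a ha b hb]) _ E rfl
    ((Submodule.ne_bot_iff _).2 ⟨v0, hv0, h0⟩) (by rintro _ ⟨a, ha, rfl⟩ w hw; exact Fx.tor hw ha)
  replace h2 : Eg A ρ v := fun g hg => h2 _ ⟨g, hg, rfl⟩
  obtain ⟨w, ⟨n, hn, ha, hne⟩, hmax⟩ := Set.exists_max_image {w | ∃ n ∈ A.N, A.Act n w ∧ S A ρ w n v ≠ 0} lg
    (Set.toFinite _) ⟨1, 1, one_mem _, Sys0.Act.one, by rwa [S_one, map_one]⟩
  refine ⟨_, hne, (S_good h1 h2 ha.1 n hn ha).1, (S_good h1 h2 ha.1 n hn ha).2, fun i => ?_⟩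
  by_cases hi : Pos (w⁻¹ (sim i))
  · left
    by_contra h
    have := hmax _ ⟨_, mul_mem (A.n_mem (sim i) 1) hn, (A.act_sim i 1).mul ha, by rwa [S_step hi ha.ra]⟩
    rw [lg_sR_mul ha.ra hi] at this; omega
  · right
    have h4 := (A.act_sim i 1).inv.mul ha
    rw [sR_inv] at h4
    have h5 : Pos ((sR i * w)⁻¹ (sim i)) := by
      rw [mul_inv_rev, sR_inv]; exact pos_mul_sR (inv_mem ha.ra) hi
    have e := S_step' (A := A) (ρ := ρ) h5 h4.ra n v
    rw [← mul_assoc, sR_mul_self, one_mul] at e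
    rw [e]
    exact (S_good h1 h2 h4.1 _ (mul_mem (inv_mem (A.n_mem (sim i) 1)) hn) h4).1.TT (card_eq_zero p) h3 i

variable (A ρ) in
theorem exists_has [IsAlgClosed k] [FiniteDimensional k V] [Nontrivial V] : ∃ ω v, v ≠ 0 ∧ Has A ρ ω v := by
  obtain ⟨v, h0, hv⟩ := exists_Wv A ρ p
  obtain ⟨ω, h⟩ := hv.exists_has A.r3_of_finite h0
  exact ⟨ω, v, h0, h⟩

variable (hG : A.G = ⊤) [FiniteDimensional k V] (hρ : Irr ρ)
include hG hρ

theorem Irr.line [IsAlgClosed k] {v v' : V} (h : Fx A ρ v) (h' : Fx A ρ v') (h0 : v ≠ 0) : ∃ c : k, v' = c • v := by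
  have := nontrivial_of_ne _ _ h0
  obtain ⟨ω, f, hf0, hf⟩ := exists_has A ρ.dual p
  obtain ⟨n0, -, w0, ha, hw⟩ := A.exists_n0
  have key : ∀ x, Fx A ρ x → f (ρ n0 x) = 0 → x = 0 := fun x hx e => by
    have h1 := hf.kill A.r3_of_finite hG (f := Module.Dual.eval k V (ρ n0 x)) (fun y hy φ => by
      have h2 : n0⁻¹ * y⁻¹ * n0 ∈ A.U := ha.conj_X' (S := {r | ¬ Pos r}) (T := {r | Pos r})
        (fun s hs => by_contra fun h => hs (by simpa using (hw _).2 h)) (inv_mem hy)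
      change φ (ρ y⁻¹ (ρ n0 x)) = φ (ρ n0 x)
      rw [← ρ_mul, ← hx.mul n0 h2]; exact congrArg φ (ρ_congr (by group) x)) e
    refine (hρ x f fun g => ?_).resolve_right hf0
    have := h1 (n0 * g⁻¹)
    change f (ρ (n0 * g⁻¹)⁻¹ (ρ n0 x)) = 0 at this
    rwa [← ρ_mul, mul_inv_rev, inv_inv, inv_mul_cancel_right] at this
  have h1 : f (ρ n0 v) ≠ 0 := fun e => h0 (key v h e)
  refine ⟨f (ρ n0 v') / f (ρ n0 v), sub_eq_zero.1 (key _ (fun u hu => ?_) ?_)⟩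
  · rw [map_sub, map_smul, h u hu, h' u hu]
  · rw [map_sub, map_sub, map_smul, map_smul, smul_eq_mul, div_mul_cancel₀ _ h1, sub_self]

theorem Irr.unique [IsAlgClosed k] {ω ω' : Nd D → Option (Kˣ →* kˣ)} {v v' : V} (h : Has A ρ ω v)
    (h' : Has A ρ ω' v') (h0 : v ≠ 0) (h0' : v' ≠ 0) : ω = ω' := by
  obtain ⟨c, rfl⟩ := hρ.line p hG h.fx h'.fx h0
  exact (h.smul c).unique (card_eq_zero p) h' h0'

theorem Irr.exists_dual {ω : Nd D → Option (Kˣ →* kˣ)} {v : V} (h : Has A ρ ω v) (h0 : v ≠ 0) :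
    ∃ f : Module.Dual k V, f v ≠ 0 ∧ ∀ y ∈ A.V, ∀ x, f (ρ y x) = f x := by
  have := nontrivial_of_ne _ _ h0
  obtain ⟨f, hf0, hf⟩ := exists_fix A ρ.dual p nil_neg
  have h1 : ∀ y ∈ A.V, ∀ x, f (ρ y x) = f x := fun y hy x => by
    have : f (ρ y⁻¹⁻¹ x) = f x := LinearMap.congr_fun (hf y⁻¹ (inv_mem hy)) x
    rwa [inv_inv] at this
  exact ⟨f, fun e => (hρ v f (h.kill A.r3_of_finite hG h1 e)).elim h0 hf0, h1⟩

/-- irreducible modules with the same weight have a common matrix coefficient -/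
theorem Irr.coeff {V' : Type*} [AddCommGroup V'] [Module k V'] [FiniteDimensional k V'] {ρ' : Representation k Γ V'}
    (hρ' : Irr ρ') {ω : Nd D → Option (Kˣ →* kˣ)} {v : V} {v' : V'} (h : Has A ρ ω v) (h' : Has A ρ' ω v')
    (h0 : v ≠ 0) (h0' : v' ≠ 0) : ∃ (f : Module.Dual k V) (f' : Module.Dual k V'), f v ≠ 0 ∧
      ∀ g, f (ρ g v) = f' (ρ' g v') := by
  obtain ⟨f, h1, hf⟩ := hρ.exists_dual p hG h h0
  obtain ⟨f', h1', hf'⟩ := hρ'.exists_dual p hG h' h0'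
  have h2 : Has A (ρ.prod ρ') ω (v, v') :=
    ⟨fun u hu => Prod.ext (h.fx u hu) (h'.fx u hu), fun i s => Prod.ext (h.hh i s) (h'.hh i s), fun i => by
      rw [T_apply, Prod.smul_mk, ← h.tt, ← h'.tt, T_apply, T_apply, ← prod_mk_sum]; rfl⟩
  refine ⟨f' v' • f, f v • f', mul_ne_zero h1' h1, fun g => sub_eq_zero.1 (h2.kill A.r3_of_finite hG
    (f := (f' v' • f).comp (.fst _ _ _) - (f v • f').comp (.snd _ _ _)) (fun y hy x => ?_) ?_ g)⟩
  · change f' v' * f (ρ y x.1) - f v * f' (ρ' y x.2) = f' v' * f x.1 - f v * f' x.2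
    rw [hf y hy, hf' y hy]
  · change f' v' * f v - f v * f' v' = 0
    ring

end CA.H12CR
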