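/-
Curtis–Richen theory, II: every weight occurs; the number of `p`-regular classes of a simply connected Chevalley group.
-/
import Cfsg.Agent.Lib.Lie.H12CR
import Cfsg.Agent.Lib.Block.BlkIBr

set_option autoImplicit false
set_option linter.unusedSectionVars false

namespace CA.H12CR2

open Equiv Cfsg Cfsg.Lie Cfsg.Lie.ChevalleyDatum CA.Chev CA.H12CR CA.BlkIdem
open scoped MonoidAlgebra

/-! ### the number of simple modules -/

theorem card_IBr {G : Type*} [Group G] [Finite G] {p : ℕ} {M : Ideal AlgInt} (hM : IsPModular p M) :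
    Nat.card {c : ConjClasses G // ∃ g, ConjClasses.mk g = c ∧ ¬ p ∣ orderOf g} = (BlkIBr.wed M G).n := by
  classical
  set C := {c : ConjClasses G // ∃ g, ConjClasses.mk g = c ∧ ¬ p ∣ orderOf g}
  have : Fintype C := Fintype.ofFinite _
  choose rep h1 h2 using fun c : C => c.2
  let L : (BlkIBr.IBr M G → ℂ) →ₗ[ℂ] (C → ℂ) :=
    Fintype.linearCombination ℂ fun i c => BlkIBr.phi p i (rep c)
  have hL : ∀ a c, L a c = ∑ i, a i * BlkIBr.phi p i (rep c) := fun a c => by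
    simp [L, Fintype.linearCombination_apply]
  have hb : Function.Bijective L := by
    refine ⟨(injective_iff_map_eq_zero L).2 fun a ha => funext fun i =>
      Fintype.linearIndependent_iff.1 (BlkIBr.li_phi hM) a (funext fun g => ?_) i, fun f => ?_⟩
    · by_cases hg : p ∣ orderOf g
      · simp [BlkIBr.phi_of_dvd _ hg]
      · obtain ⟨x, hx⟩ := isConj_iff.1 (ConjClasses.mk_eq_mk_iff_isConj.1 (h1 ⟨_, g, rfl, hg⟩))
        have := congrFun ha ⟨_, g, rfl, hg⟩
        rw [hL] at this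
        rw [← hx]
        simpa [BlkIBr.phi_classFun _ _ x] using this
    · let θ : G → ℂ := fun g => if h : ∃ x, ConjClasses.mk x = ConjClasses.mk g ∧ ¬ p ∣ orderOf x then f ⟨_, h⟩ else 0
      have hθ : IsClassFunction G θ := fun g x => by
        have : ConjClasses.mk (x * g * x⁻¹) = ConjClasses.mk g :=
          ConjClasses.mk_eq_mk_iff_isConj.2 (isConj_iff.2 ⟨x, rfl⟩).symm
        simp only [θ, this]
      refine ⟨_, funext fun c => (hL _ c).trans ((BlkIBr.apply_eq hM hθ (h2 c)).symm.trans ?_)⟩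
      simp only [θ, h1]
      rw [dif_pos c.2]
  have := (LinearEquiv.ofBijective L hb).finrank_eq
  simpa using this.symm

section Wed
variable {k Γ : Type*} [Field k] [Group Γ] (Wd : Wed k k[Γ])

/-- the simple modules of a Wedderburn decomposition -/
noncomputable def sg (i : Fin Wd.n) : k[Γ] →ₐ[k] Module.End k (Fin (Wd.dim i) → k) :=
  Matrix.toLinAlgEquiv'.toAlgHom.comp ((Pi.evalAlgHom k _ i).comp Wd.π)

theorem sg_apply (i : Fin Wd.n) (a : k[Γ]) (v : Fin (Wd.dim i) → k) : sg Wd i a v = (Wd.π a i).mulVec v := rfl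

/-- the simple representations of a Wedderburn decomposition -/
noncomputable def rp (i : Fin Wd.n) : Representation k Γ (Fin (Wd.dim i) → k) :=
  (sg Wd i).toMonoidHom.comp (MonoidAlgebra.of k Γ)

theorem rp_alg (i : Fin Wd.n) : (rp Wd i).asAlgebraHom = sg Wd i :=
  MonoidAlgebra.algHom_ext (fun g => Representation.asAlgebraHom_single_one _ g) (Subsingleton.elim _ _)

theorem coeff_ext {V V' : Type*} [AddCommGroup V] [Module k V] [AddCommGroup V'] [Module k V']
    {ρ : Representation k Γ V} {ρ' : Representation k Γ V'} {v : V} {v' : V'} {f : Module.Dual k V}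
    {f' : Module.Dual k V'} (h : ∀ g, f (ρ g v) = f' (ρ' g v')) (a : k[Γ]) :
    f (ρ.asAlgebraHom a v) = f' (ρ'.asAlgebraHom a v') := by
  induction a using MonoidAlgebra.induction_on with
  | of g => rw [ρ.asAlgebraHom_of, ρ'.asAlgebraHom_of, h]
  | add a b ha hb => simp only [map_add, LinearMap.add_apply, ha, hb]
  | smul c a ha => simp only [map_smul, LinearMap.smul_apply, ha]

theorem irr_rp (i : Fin Wd.n) : Irr (rp Wd i) := fun v f h => by
  classical
  by_contra! hn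
  obtain ⟨x, hx⟩ := DFunLike.ne_iff.1 hn.2
  obtain ⟨g, hg⟩ := Module.Projective.exists_dual_eq_one k hn.1
  obtain ⟨a, ha⟩ := Wd.surj (Pi.single i (LinearMap.toMatrix' (g.smulRight x)))
  have := coeff_ext (ρ' := rp Wd i) (v' := v) (f' := 0) h a
  rw [rp_alg, sg_apply, ha, Pi.single_eq_same, LinearMap.toMatrix'_mulVec, LinearMap.smulRight_apply, hg,
    one_smul] at this
  exact hx this

theorem eq_of_coeff {i j : Fin Wd.n} {v : Fin (Wd.dim i) → k} {v' : Fin (Wd.dim j) → k} {f : Module.Dual k _}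
    {f' : Module.Dual k _} (h0 : f v ≠ 0) (h : ∀ g, f (rp Wd i g v) = f' (rp Wd j g v')) : i = j := by
  classical
  by_contra hij
  obtain ⟨a, ha⟩ := Wd.surj (Pi.single i 1)
  have := coeff_ext h a
  rw [rp_alg, rp_alg, sg_apply, sg_apply, ha, Pi.single_eq_same, Pi.single_eq_of_ne' hij] at this
  exact h0 (by simpa using this)

theorem exists_quot {V : Type*} [AddCommGroup V] [Module k V] (ρ : Representation k Γ V) {v : V} (h0 : v ≠ 0) :
    ∃ i x, x ≠ 0 ∧ ∀ a, ρ.asAlgebraHom a v = 0 → (rp Wd i).asAlgebraHom a x = 0 := by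
  let I : Ideal Wd.S :=
    { carrier := Wd.π '' {a | ρ.asAlgebraHom a v = 0}
      zero_mem' := ⟨0, by simp, map_zero _⟩
      add_mem' := by
        rintro _ _ ⟨a, ha, rfl⟩ ⟨b, hb, rfl⟩
        exact ⟨a + b, by simp only [Set.mem_ofPred_eq, map_add, LinearMap.add_apply] at *; rw [ha, hb, add_zero],
          map_add _ _ _⟩
      smul_mem' := by
        rintro c _ ⟨a, ha, rfl⟩
        obtain ⟨c, rfl⟩ := Wd.surj c
        exact ⟨c * a, by simp only [Set.mem_ofPred_eq, map_mul, Module.End.mul_apply] at *; rw [ha, map_zero],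
          map_mul _ _ _⟩ }
  obtain ⟨e, he, hI⟩ := IsSemisimpleRing.ideal_eq_span_idempotent I
  have h1 : 1 - e ≠ 0 := fun h => by
    obtain ⟨a, ha, e1⟩ : e ∈ I := hI ▸ Ideal.subset_span rfl
    obtain ⟨u, rfl⟩ := Wd.isUnit_of (a := a) (by rw [e1, ← sub_eq_zero.1 h]; exact isUnit_one)
    have := congrArg (ρ.asAlgebraHom (u⁻¹ : k[Γ]ˣ)) (show _ = _ from ha)
    rw [← Module.End.mul_apply, ← map_mul, Units.inv_mul, map_one, map_zero] at this
    exact h0 this
  obtain ⟨i, hi⟩ := Function.ne_iff.1 h1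
  obtain ⟨x, hx⟩ : ∃ x, ((1 - e) i).mulVec x ≠ 0 := by
    by_contra! h
    exact hi (Matrix.ext_of_mulVec_single fun j => by rw [h, Pi.zero_apply, Matrix.zero_mulVec])
  refine ⟨i, _, hx, fun a ha => ?_⟩
  obtain ⟨y, hy⟩ := Ideal.mem_span_singleton'.1 (hI.le (show Wd.π a ∈ I from ⟨a, ha, rfl⟩))
  rw [rp_alg, sg_apply, Matrix.mulVec_mulVec, ← Pi.mul_apply, ← hy, mul_assoc, mul_sub, he.eq]
  simp

end Wed

/-! ### existence of modules with given weight -/

variable {D : ChevalleyDatum} [Good D] {K : Type*} [Field K] {Γ : Type*} [Group Γ] {A : Sys D K Γ} (h3 : A.R3)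

/-- the torus of the subsystem `J` -/
noncomputable def HJ (J : Set (Nd D)) : Subgroup Γ := (Subgroup.pi Jᶜ ⊥).map h3.torH

theorem h_mem_HJ {J : Set (Nd D)} {j : Nd D} (hj : j ∈ J) (t : Kˣ) : A.h (sim j) t ∈ HJ h3 J :=
  ⟨_, fun i hi => Pi.mulSingle_eq_of_ne (fun e : i = j => hi (e ▸ hj)) _, h3.torH_single j t⟩

theorem conj_HJ {J : Set (Nd D)} {m y : Γ} {w : Perm (Rt D)} (h : A.Act m w) (hw : w ∈ WJ J) (hy : y ∈ HJ h3 J) :
    m * y * m⁻¹ ∈ HJ h3 J := by
  obtain ⟨c, hc, rfl⟩ := hy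
  refine ⟨_, fun j hj => ?_, (h3.conj_torH h c).symm⟩
  change _ = _
  rw [mact_apply]
  refine Finset.prod_eq_one fun i _ => ?_
  by_cases hi : i ∈ J
  · rw [show wM w i j = 0 from (rt_eq_zero_iff _ _).1 ((map_mem_Phi hw).2 (sim_mem_Phi.2 hi) j hj), zpow_zero]
  · rw [show c i = 1 from hc i hi, one_zpow]

theorem nn_mem_HJ {J : Set (Nd D)} {j : Nd D} (hj : j ∈ J) (t u : Kˣ) : A.n (sim j) t * A.n (sim j) u ∈ HJ h3 J := by
  rw [A.n_mul_n]; exact mul_mem (h_mem_HJ h3 hj _) (inv_mem (h_mem_HJ h3 hj _))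

theorem nw_mem_HJ {J : Set (Nd D)} {L : List (Nd D)} (hL : ∀ j ∈ L, j ∈ J) (h : wd L = 1) : A.nw L ∈ HJ h3 J := by
  induction hn : L.length using Nat.strong_induction_on generalizing L with
  | _ m ih =>
    rcases List.eq_nil_or_concat L with rfl | ⟨L', p, rfl⟩
    · exact one_mem _
    rw [List.concat_eq_append] at h hn hL ⊢
    have e : wd L' = sR p := by
      rw [wd_append, wd_cons, wd_nil, mul_one, mul_eq_one_iff_eq_inv, sR_inv] at h; exact h
    obtain ⟨α, j, β, rfl, h2, h1⟩ := exchange' (L := L') (p := p) (by rw [e, sR_sim, not_pos_ng]; exact pos_sim p)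
    rw [e, sR_mul_self] at h1
    have h4 := ih _ (by rw [← hn]; simp only [List.length_append, List.length_cons]; omega)
      (fun i hi => hL i (by simp only [List.mem_append, List.mem_cons] at hi ⊢; tauto)) h1.symm rfl
    obtain ⟨c, hc⟩ := (A.act_nw β).conj_n (sim p)
    have h5 := hc 1
    rw [h2] at h5
    have := mul_mem (conj_HJ h3 (A.act_nw α) (wd_mem_WJ fun i hi => hL i (by simp [hi]))
      (nn_mem_HJ h3 (hL j (by simp)) 1 (c * 1))) h4
    rw [← h5] at this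
    convert this using 1
    simp only [Sys.nw_append, Sys.nw_cons, Sys.nw_nil]; group

theorem inv_nw_mul {J : Set (Nd D)} {L L' : List (Nd D)} (hL : ∀ j ∈ L, j ∈ J) (hL' : ∀ j ∈ L', j ∈ J) :
    ∃ M : List (Nd D), (∀ j ∈ M, j ∈ J) ∧ ∃ h ∈ HJ h3 J, (A.nw L')⁻¹ * A.nw L = A.nw M * h := by
  induction L' generalizing L with
  | nil => exact ⟨L, hL, 1, one_mem _, by simp⟩
  | cons j L' ih =>
    have hj := hL' j (by simp)
    obtain ⟨M, hM, h, hh, e⟩ := ih (L := j :: L) (by simpa using ⟨hj, hL⟩) fun i hi => hL' i (by simp [hi])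
    refine ⟨M, hM, _, mul_mem hh (conj_HJ h3 (A.act_nw L).inv (inv_mem (wd_mem_WJ hL))
      (inv_mem (nn_mem_HJ h3 hj 1 1))), ?_⟩
    rw [← mul_assoc (A.nw M), ← e]
    simp only [Sys.nw_cons]; group

theorem exists_psi (hi : Function.Injective h3.torH) {k : Type*} [Field k] (Λ : (Nd D → Kˣ) →* kˣ) {J : Set (Nd D)}
    (hΛ : ∀ c ∈ Subgroup.pi Jᶜ ⊥, Λ c = 1) : ∃ ψ : Γ → k, ψ 1 = 1 ∧ (∀ n c, ψ (n * h3.torH c) = Λ c * ψ n) ∧
      (∀ n, ∀ j ∈ J, ψ (n * A.n (sim j) 1) = ψ n) ∧ ∀ n w, A.Act n w → w ∉ WJ J → ψ n = 0 := by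
  classical
  let P : Γ → (Nd D → Kˣ) → Prop := fun n c => ∃ L : List (Nd D), (∀ j ∈ L, j ∈ J) ∧ n = A.nw L * h3.torH c
  have hH : ∀ c, h3.torH c ∈ A.H := fun c => h3.torH_range.le ⟨c, rfl⟩
  have wd' : ∀ n c c', P n c → P n c' → Λ c = Λ c' := by
    rintro _ c c' ⟨L, hL, rfl⟩ ⟨L', hL', e⟩
    obtain ⟨M, hM, _, ⟨d, hd, rfl⟩, e'⟩ := inv_nw_mul h3 hL hL'
    have e1 : A.nw M = h3.torH (c' * c⁻¹ * d⁻¹) := by
      rw [map_mul, map_mul, map_inv, map_inv, eq_mul_inv_iff_mul_eq, ← e', eq_mul_inv_iff_mul_eq, mul_assoc, e]; group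
    obtain ⟨d', hd', e2⟩ := nw_mem_HJ h3 hM ((A.act_nw M).unique (e1 ▸ A.act_H (hH _)))
    have := hΛ _ hd'
    rw [hi (e2.trans e1), map_mul, map_mul, map_inv, map_inv, hΛ d hd, inv_one, mul_one, mul_inv_eq_one] at this
    exact this.symm
  let ψ : Γ → k := fun n => if h : ∃ c, P n c then Λ h.choose else 0
  have h1 : ∀ n c, P n c → ψ n = Λ c := fun n c h => by
    simp only [ψ]; rw [dif_pos ⟨c, h⟩, wd' _ _ _ (Exists.choose_spec ⟨c, h⟩) h]
  have h0 : ∀ n, (¬ ∃ c, P n c) → ψ n = 0 := fun n h => dif_neg h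
  have h2 : ∀ n c d, P n c → P (n * h3.torH d) (c * d) := by
    rintro _ c d ⟨L, hL, rfl⟩; exact ⟨L, hL, by rw [map_mul, mul_assoc]⟩
  have h4 : ∀ n c, ∀ j ∈ J, P n c → ∃ d, Λ d = Λ c ∧ P (n * A.n (sim j) 1) d := by
    rintro _ c j hj ⟨L, hL, rfl⟩
    refine ⟨c * Pi.mulSingle j (mact (Cm D) c j)⁻¹, ?_, L ++ [j], by simpa [or_imp, forall_and] using ⟨hL, hj⟩, ?_⟩
    · rw [map_mul, hΛ (Pi.mulSingle j _) fun i hi => Pi.mulSingle_eq_of_ne (fun e : i = j => hi (e ▸ hj)) _, mul_one]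
    · rw [← h3.conj_sim j c (tor_sim c j).symm, Sys.nw_append, Sys.nw_cons, Sys.nw_nil, mul_one, mul_assoc, mul_assoc,
        ← mul_assoc (A.n _ 1), ← mul_assoc (A.n _ 1), h3.H_comm _ (A.n_mul_n_mem _ 1 1) _ (hH c)]
      group
  refine ⟨ψ, by simpa using h1 1 1 ⟨[], by simp, by simp⟩, fun n c => ?_, fun n j hj => ?_, fun n w hw hJ => h0 n ?_⟩
  · by_cases h : ∃ c, P n c
    · obtain ⟨d, hd⟩ := h
      rw [h1 _ _ hd, h1 _ _ (h2 _ _ c hd), map_mul, Units.val_mul, mul_comm]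
    · rw [h0 n h, mul_zero]
      exact h0 _ fun ⟨d, hd⟩ => h ⟨_, by simpa using h2 _ _ c⁻¹ hd⟩
  · by_cases h : ∃ c, P n c
    · obtain ⟨d, hd⟩ := h
      obtain ⟨d', e, hd'⟩ := h4 _ _ j hj hd
      rw [h1 _ _ hd, h1 _ _ hd', e]
    · rw [h0 n h]
      refine h0 _ fun ⟨d, hd⟩ => h ?_
      obtain ⟨d', -, hd'⟩ := h4 _ _ j hj hd
      obtain ⟨c, hc⟩ := h3.torH_range.ge (inv_mem (A.n_mul_n_mem (sim j) 1 1))
      exact ⟨_, by simpa [hc, mul_assoc] using h2 _ _ c hd'⟩
  · rintro ⟨c, L, hL, rfl⟩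
    exact hJ (((A.act_nw L).mul (A.act_H (hH c))).unique hw ▸ by simpa using wd_mem_WJ hL)

/-- the right regular representation on functions -/
def rr (k Γ : Type*) [Field k] [Group Γ] : Representation k Γ (Γ → k) where
  toFun g := LinearMap.funLeft k k (· * g)
  map_one' := by ext; simp
  map_mul' g h := by ext; simp [LinearMap.funLeft_apply, mul_assoc]

variable [Fintype K] [DecidableEq K] {k : Type*} [Field k] (hG : A.G = ⊤) (hi : Function.Injective h3.torH)
include hG hi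

theorem exists_has (hq : (Fintype.card K : k) = 0) (ω : Nd D → Option (Kˣ →* kˣ)) :
    ∃ φ ≠ 0, Has A (rr k Γ) ω φ := by
  let Λ : (Nd D → Kˣ) →* kˣ := ∏ i, (lam (ω i)).comp (Pi.evalMonoidHom _ i)
  have hΛ : ∀ c, Λ c = ∏ i, lam (ω i) (c i) := fun c => by simp [Λ, MonoidHom.finsetProd_apply]
  obtain ⟨ψ, h1, h2, h4, h5⟩ := exists_psi h3 hi Λ (J := {i | ω i = none}) fun c hc => by
    rw [hΛ]
    refine Finset.prod_eq_one fun i _ => ?_
    by_cases e : ω i = none
    · rw [e]; rfl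
    · rw [show c i = 1 from hc i e, map_one]
  replace h2 : ∀ n i s, ψ (n * A.h (sim i) s) = lam (ω i) s * ψ n := fun n i s => by
    rw [← h3.torH_single, h2, hΛ, Finset.prod_eq_single i (fun j _ hj => by rw [Pi.mulSingle_eq_of_ne hj, map_one])
      (by simp), Pi.mulSingle_eq_same]
  choose y hy nb hn u hu e using exists_VNU A hG
  let φ : Γ → k := fun g => ψ (nb g)
  have hφ : ∀ y ∈ A.V, ∀ n ∈ A.N, ∀ u ∈ A.U, φ (y * n * u) = ψ n := fun y' hy' n hn' u' hu' =>
    congrArg ψ (VNU_unique A (hy _) hy' (hn _) hn' (hu _) hu' (e _).symm)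
  have hφ1 : ∀ y ∈ A.V, ∀ n ∈ A.N, φ (y * n) = ψ n := fun y hy n hn => by simpa using hφ y hy n hn 1 (one_mem _)
  have hf : Fx A (rr k Γ) φ := fun v hv => funext fun g => by
    change φ (g * v) = _
    rw [e g, mul_assoc, hφ _ (hy _) _ (hn _) _ (mul_mem (hu _) hv), hφ _ (hy _) _ (hn _) _ (hu _)]
  have hh : ∀ i s, rr k Γ (A.h (sim i) s) φ = (lam (ω i) s : k) • φ := fun i s => funext fun g => by
    change φ (g * _) = _ * φ g
    rw [e g, hφ _ (hy _) _ (hn _) _ (hu _), ← h2, ← hφ _ (hy g) _ (mul_mem (hn _) (A.H_le_N (A.h_mem _ _))) _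
      (A.H_conj_X' (A.h_mem (sim i) s) (hu g))]
    congr 1; group
  refine ⟨φ, fun h => one_ne_zero (h1.symm.trans ((hφ1 1 (one_mem _) 1 (one_mem _)).symm.trans (congrFun h _))),
    hf, hh, fun i => funext fun g => ?_⟩
  have e1 : T A (rr k Γ) i φ g = T A (rr k Γ) i φ (y g * nb g) := by
    conv_lhs => rw [e g]
    exact congrFun (hf.map i _ (hu g)) _
  obtain ⟨w, hw⟩ := A.exists_act (hn g)
  have hm := mul_mem (hn g) (A.n_mem (sim i) 1)
  rw [e1, T_apply, Finset.sum_apply]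
  change ∑ t, φ (_ * _) = _ * ψ (nb g)
  by_cases hp : Pos (w (sim i))
  · have e2 : ∀ s : Kˣ, φ (y g * nb g * (A.x (sim i) s * A.n (sim i) 1)) = lam (ω i) (-s) * ψ (nb g) := fun s => by
      obtain ⟨c, hc⟩ := x_n h3 (sim i) s
      rw [hc, ← h2, ← hφ _ (mul_mem (hy g) (hw.conj_X (S := {ng (sim i)}) (T := {r | ¬ Pos r}) (fun r hr => by
        rw [hr, map_ng hw.ra]; exact (not_pos_ng _).2 hp) (A.x_mem (Set.mem_singleton _) (s⁻¹ : Kˣ)))) _
        (mul_mem (hn _) (A.H_le_N (A.h_mem _ _))) _ (x_sim_mem i c)]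
      congr 1; group
    rw [sum_units, A.x_zero, one_mul, mul_assoc, hφ1 _ (hy g) _ hm, Finset.sum_congr rfl fun s _ => e2 s,
      ← Finset.sum_mul, Fintype.sum_equiv (Equiv.neg Kˣ) (fun s => (lam (ω i) (-s) : k)) (fun s => (lam (ω i) s : k))
        fun _ => rfl]
    rcases e3 : ω i with _ | l
    · rw [h4 _ i e3, show lam (none : Option (Kˣ →* kˣ)) = 1 from rfl, sum_one hq]; simp [mu]
    · rw [h5 _ _ (hw.mul (A.act_sim i 1)) fun h => (not_pos_ng _).2 hp (by
        have := (pos_sim i).map_WJ h (by rw [sim_mem_Phi]; simp [e3])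
        rwa [Perm.mul_apply, sR_sim, map_ng hw.ra] at this), zero_add]
      rfl
  · have e2 : ∀ t, φ (y g * nb g * (A.x (sim i) t * A.n (sim i) 1)) = ψ (nb g * A.n (sim i) 1) := fun t => by
      rw [← hφ1 _ (mul_mem (hy g) (hw.conj_X (S := {sim i}) (T := {r | ¬ Pos r}) (fun r hr => by rw [hr]; exact hp)
        (A.x_mem (Set.mem_singleton _) t))) _ hm]
      congr 1; group
    rw [Finset.sum_congr rfl fun t _ => e2 t, sum_const hq]
    rcases e3 : ω i with _ | l
    · simp [mu]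
    · rw [h5 _ _ hw fun h => hp ((pos_sim i).map_WJ h (by rw [sim_mem_Phi]; simp [e3])), mul_zero]

omit hG hi in
theorem has_of {V V' : Type*} [AddCommGroup V] [Module k V] [AddCommGroup V'] [Module k V']
    {ρ : Representation k Γ V} {ρ' : Representation k Γ V'} {v : V} {v' : V'} {ω : Nd D → Option (Kˣ →* kˣ)}
    (h : Has A ρ ω v) (h' : ∀ a, ρ.asAlgebraHom a v = 0 → ρ'.asAlgebraHom a v' = 0) : Has A ρ' ω v' := by
  have key : ∀ (a : k[Γ]) (c : k), ρ.asAlgebraHom a v = c • v → ρ'.asAlgebraHom a v' = c • v' := fun a c e => by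
    simpa [sub_eq_zero] using h' (a - c • 1) (by simpa [sub_eq_zero] using e)
  refine ⟨fun u hu => ?_, fun i s => ?_, fun i => ?_⟩
  · simpa using key (.single u 1) 1 (by simpa using h.fx u hu)
  · simpa using key (.single (A.h (sim i) s) 1) _ (by simpa using h.hh i s)
  · simpa [T] using key (∑ t, .single (A.x (sim i) t * A.n (sim i) 1) 1) _ (by simpa [T] using h.tt i)

variable [Finite Γ] (p : ℕ) [hp : Fact p.Prime] [CharP K p]

theorem card_wed [CharP k p] [IsAlgClosed k] (Wd : Wed k k[Γ]) : Wd.n = Fintype.card K ^ D.rank := by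
  have : ∀ i, Nontrivial (Fin (Wd.dim i) → k) := fun i => haveI : Nonempty _ := ⟨Wd.o i⟩; inferInstance
  choose ω v h0 hv using fun i => H12CR.exists_has A (rp Wd i) p
  have hb : Function.Bijective ω := by
    refine ⟨fun i j e => ?_, fun o => ?_⟩
    · obtain ⟨f, f', h1, h2⟩ := (irr_rp Wd i).coeff p hG (irr_rp Wd j) (hv i) (e ▸ hv j) (h0 i) (h0 j)
      exact eq_of_coeff Wd h1 h2
    · obtain ⟨φ, h1, h2⟩ := exists_has h3 hG hi (card_eq_zero (k := k) p) o
      obtain ⟨i, x, h4, h5⟩ := exists_quot Wd (rr k Γ) h1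
      exact ⟨i, (irr_rp Wd i).unique p hG (hv i) (has_of h2 h5) (h0 i) h4⟩
  have h1 : NeZero ((Monoid.exponent Kˣ : ℕ) : k) := ⟨fun h => by
    have := (CharP.cast_eq_zero_iff K p _).2 (((CharP.cast_eq_zero_iff k p _).1 h).trans Group.exponent_dvd_nat_card)
    rw [Nat.card_units, Nat.cast_sub Nat.card_pos, Nat.card_eq_fintype_card, FiniteField.cast_card_eq_zero] at this
    simp at this⟩
  have h2 := CommGroup.card_monoidHom_of_hasEnoughRootsOfUnity Kˣ k
  have : Finite (Kˣ →* kˣ) := Nat.finite_of_card_ne_zero (h2 ▸ Nat.card_pos.ne')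
  have h4 := Nat.card_eq_of_bijective _ hb
  rwa [Nat.card_fin, Nat.card_fun, Finite.card_option, h2, Nat.card_units, Nat.sub_add_cancel Nat.card_pos,
    Nat.card_eq_fintype_card, Nat.card_fin] at h4

theorem card_reg : Nat.card {c : ConjClasses Γ // ∃ g, ConjClasses.mk g = c ∧ ¬ p ∣ orderOf g} =
    Fintype.card K ^ D.rank := by
  obtain ⟨M, hM⟩ := BlkVal.exists_isPModular hp.1
  have := BlkVal.charP_k hM
  rw [card_IBr hM, card_wed h3 hG hi p]

omit hG hi in
/-- the number of `p`-regular classes of a Chevalley group which is simply connected -/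
theorem card_reg_adj (h : Nat.card (tor (D := D) (K := K)).ker = 1) :
    Nat.card {c : ConjClasses (D.group K) // ∃ g, ConjClasses.mk g = c ∧ (orderOf g).Coprime p} =
      Fintype.card K ^ D.rank := by
  have h3 := (adjG D K).r3_of_finite
  simp only [Nat.coprime_comm (m := p), hp.1.coprime_iff_not_dvd]
  refine card_reg h3 adjG_G ((injective_iff_map_eq_one _).2 fun c hc => ?_) p
  have := h3.θ_torH c
  rw [hc, map_one] at this
  exact Subgroup.mem_bot.1 ((Subgroup.eq_bot_of_card_eq _ h).le (dgG_injective (this.symm.trans (map_one _).symm)))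

end CA.H12CR2
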