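/-
The number of constituents of `1_B^G` (the deformation argument for the centre of the Hecke algebra).
-/
import Cfsg.Agent.Lib.Block.BlkOmega
import Cfsg.Agent.Lib.Char.Cons
import Cfsg.Agent.Lib.Lie.H12Par
import Cfsg.Agent.Lib.Lie.ChevOrd

set_option autoImplicit false

namespace CA.H12Hk

open Polynomial Module
open Matrix hiding single

section rank
variable {m n : Type*} [Fintype m] [Fintype n]

/-- evaluation of a polynomial matrix -/
noncomputable def evM (t : ℂ) (M : Matrix m n ℂ[X]) : Matrix m n ℂ := M.map (evalRingHom t)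

theorem finite_lt (M : Matrix m n ℂ[X]) (t₁ : ℂ) : {t | (evM t M).rank < (evM t₁ M).rank}.Finite := by
  classical
  let f := (evM t₁ M).mulVecLin
  obtain ⟨g, hg⟩ := f.rangeRestrict.exists_rightInverse_of_surjective f.range_rangeRestrict
  obtain ⟨h, hh⟩ := (LinearMap.range f).subtype.exists_leftInverse_of_injective (Submodule.ker_subtype _)
  let e := (finBasis ℂ (LinearMap.range f)).equivFun
  let P := LinearMap.toMatrix' (e.toLinearMap ∘ₗ h)
  let Q := LinearMap.toMatrix' (g ∘ₗ e.symm.toLinearMap)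
  let d := (P.map C * M * Q.map C).det
  have hd : ∀ t, d.eval t = (P * evM t M * Q).det := fun t => by
    rw [← coe_evalRingHom, RingHom.map_det, RingHom.mapMatrix_apply, Matrix.map_mul, Matrix.map_mul, map_map, map_map]
    congr 3 <;> ext <;> simp
  have h1 : P * evM t₁ M * Q = 1 := by
    rw [← LinearMap.toMatrix'_toLin' (evM t₁ M), ← LinearMap.toMatrix'_comp, ← LinearMap.toMatrix'_comp,
      ← LinearMap.toMatrix'_id]
    congr 1
    refine LinearMap.ext fun x => ?_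
    have a := DFunLike.congr_fun hg (e.symm x)
    have b := DFunLike.congr_fun hh (e.symm x)
    change e (h (f.rangeRestrict (g (e.symm x)) : m → ℂ)) = x
    change f.rangeRestrict (g _) = e.symm x at a
    change h (e.symm x : m → ℂ) = e.symm x at b
    rw [a, b, e.apply_symm_apply]
  refine Set.not_infinite.1 fun hi => ?_
  have : d = 0 := eq_zero_of_infinite_isRoot _ (hi.mono fun t ht => by
    by_contra h0
    have := rank_of_isUnit _ ((isUnit_iff_isUnit_det _).2 (IsUnit.mk0 _ fun e => h0 ((hd t).trans e)))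
    have := (rank_mul_le_left (P * evM t M) Q).trans (rank_mul_le_right P _)
    change _ < finrank ℂ (LinearMap.range f) at ht
    simp only [Fintype.card_fin] at *
    omega)
  have h2 := hd t₁
  rw [this, h1, det_one, eval_zero] at h2
  exact zero_ne_one h2

theorem rank_eq {A : Matrix m n ℂ[X]} {M : Matrix n n ℂ[X]} (h : A * M = 0) {t₁ t₂ : ℂ}
    (h1 : LinearMap.ker (evM t₁ A).mulVecLin ≤ LinearMap.range (evM t₁ M).mulVecLin)
    (h2 : LinearMap.ker (evM t₂ A).mulVecLin ≤ LinearMap.range (evM t₂ M).mulVecLin) :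
    (evM t₁ M).rank = (evM t₂ M).rank := by
  obtain ⟨t, ht⟩ := ((((finite_lt A t₁).union (finite_lt A t₂)).union (finite_lt M t₁)).union
    (finite_lt M t₂)).exists_notMem
  simp only [Set.mem_union, Set.mem_ofPred_eq, not_or, not_lt] at ht
  have k : ∀ t, LinearMap.ker (evM t A).mulVecLin ≤ LinearMap.range (evM t M).mulVecLin →
      Fintype.card n ≤ (evM t A).rank + (evM t M).rank := fun t h => by
    rw [← finrank_fintype_fun_eq_card ℂ, ← (evM t A).mulVecLin.finrank_range_add_finrank_ker]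
    exact Nat.add_le_add_left (Submodule.finrank_mono h) _
  have k' : ∀ t, (evM t A).rank + (evM t M).rank ≤ Fintype.card n := fun t =>
    rank_add_rank_le_card_of_mul_eq_zero (by rw [evM, evM, ← Matrix.map_mul, h, Matrix.map_zero _ (map_zero _)])
  have := k _ h1
  have := k _ h2
  have := k' t
  omega

end rank

/-- a finite group with generating involutions and a length function -/
structure Cx (W ι : Type*) [Group W] where
  s : ι → W
  ℓ : W → ℕ
  ss : ∀ i, s i * s i = 1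
  step : ∀ i w, ℓ (s i * w) = ℓ w + 1 ∨ ℓ (s i * w) + 1 = ℓ w
  inv : ∀ w, ℓ w⁻¹ = ℓ w
  one : ℓ 1 = 0
  desc : ∀ w, w ≠ 1 → ∃ i, ℓ (s i * w) < ℓ w

namespace Cx
variable {W ι : Type*} [Group W] (Y : Cx W ι)

theorem s_inv (i : ι) : (Y.s i)⁻¹ = Y.s i := inv_eq_of_mul_eq_one_right (Y.ss i)
theorem ℓ_s (i : ι) : Y.ℓ (Y.s i) = 1 := by
  have := Y.step i 1
  rw [mul_one, Y.one] at this; omega
theorem ℓ_mul (w : W) (i : ι) : Y.ℓ (w * Y.s i) = Y.ℓ (Y.s i * w⁻¹) := by rw [← Y.inv, _root_.mul_inv_rev, s_inv]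

/-- reduced words -/
def Red : List ι → W → Prop
  | [], w => w = 1
  | i :: L, w => Y.ℓ (Y.s i * w) < Y.ℓ w ∧ Red L (Y.s i * w)

theorem exists_red (w : W) : ∃ L, Y.Red L w := by
  induction h : Y.ℓ w using Nat.strong_induction_on generalizing w with
  | _ n ih =>
  by_cases e : w = 1
  · exact ⟨[], e⟩
  obtain ⟨i, hi⟩ := Y.desc w e
  obtain ⟨L, hL⟩ := ih _ (h ▸ hi) _ rfl
  exact ⟨i :: L, hi, hL⟩

variable [Fintype W] [DecidableEq W]

/-- the generic multiplication operators -/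
noncomputable def Mt (σ : W → W) : Matrix W W ℂ[X] := fun u w =>
  if Y.ℓ w < Y.ℓ (σ w) then (if u = σ w then 1 else 0) else (if u = σ w then X else 0) + if u = w then X - 1 else 0

/-- the commutators with the generators -/
noncomputable def Ad : Matrix (ι × W) W ℂ[X] := fun p => (Y.Mt (Y.s p.1 * ·) - Y.Mt (· * Y.s p.1)) p.2

/-- conjugation along a word -/
noncomputable def Dw (L : List ι) : Matrix W W ℂ[X] := (L.map fun i => Y.Mt (Y.s i * ·) * Y.Mt (· * Y.s i)).prod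

/-- the Casimir operator -/
noncomputable def Cas : Matrix W W ℂ[X] := ∑ w, (X ^ ((∑ u, Y.ℓ u) - Y.ℓ w) : ℂ[X]) • Y.Dw (Y.exists_red w).choose

end Cx

open Cfsg MonoidAlgebra CA.BlkAlg CA.BlkOmega

/-- double coset data -/
structure Hk {W ι : Type*} [Group W] (Y : Cx W ι) {G : Type*} [Group G] (B : Subgroup G) (q : ℕ) where
  c : G → W
  eq : ∀ x y, c x = c y ↔ ∃ b ∈ B, ∃ b' ∈ B, y = b * x * b'
  one : c 1 = 1
  inv : ∀ g, c g⁻¹ = (c g)⁻¹
  card : ∀ w, Nat.card {g // c g = w} = Nat.card B * q ^ Y.ℓ w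
  step : ∀ i g h, c g = Y.s i → c (g * h) = Y.s i * c h ∨ (¬ Y.ℓ (c h) < Y.ℓ (Y.s i * c h) ∧ c (g * h) = c h)
  pos : q ≠ 0

section
variable {G : Type*} [Group G] [Fintype G]

/-- the support condition -/
def Sp (a : ℂ[G]) (P : G → Prop) : Prop := ∀ g, a.coeff g ≠ 0 → P g

theorem Sp.mul {a b : ℂ[G]} {P Q R : G → Prop} (ha : Sp a P) (hb : Sp b Q) (h : ∀ x y, P x → Q y → R (x * y)) :
    Sp (a * b) R := fun g hg => by
  rw [coeff_mul_sum] at hg
  obtain ⟨x, -, hx⟩ := Finset.exists_ne_zero_of_sum_ne_zero hg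
  simpa using h _ _ (ha x (left_ne_zero_of_mul hx)) (hb _ (right_ne_zero_of_mul hx))

/-- the augmentation -/
noncomputable def ε : ℂ[G] →ₐ[ℂ] ℂ := MonoidAlgebra.lift ℂ ℂ G 1

omit [Fintype G] in
theorem ε_single (g : G) : ε (single g 1) = 1 := by simp [ε]

theorem ε_apply (a : ℂ[G]) : ε a = ∑ g, a.coeff g := by
  conv_lhs => rw [eq_sum_single a]
  simp only [map_sum, map_smul, ε_single, smul_eq_mul, mul_one]

/-- biinvariant elements -/
def Bi (B : Subgroup G) (a : ℂ[G]) : Prop := ∀ b ∈ B, single b 1 * a = a ∧ a * single b 1 = a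

omit [Fintype G] in
theorem Bi.mul {B : Subgroup G} {a b : ℂ[G]} (ha : Bi B a) (hb : Bi B b) (y : ℂ[G]) : Bi B (a * y * b) := fun g hg =>
  ⟨by rw [← mul_assoc, ← mul_assoc, (ha g hg).1], by rw [mul_assoc _ b, (hb g hg).2]⟩

/-- the averaging map -/
noncomputable def av (a : ℂ[G]) : ℂ[G] := ∑ g : G, cjA g a

theorem av_mem (a : ℂ[G]) : av a ∈ Z ℂ G := mem_Z_iff_cjA.2 fun u => by
  simp only [av, map_sum, ← cjA_mul_apply]
  exact Fintype.sum_equiv (Equiv.mulLeft u) _ _ fun _ => rfl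

theorem av_mul {z : ℂ[G]} (hz : z ∈ Z ℂ G) (a : ℂ[G]) : av (z * a) = z * av a := by
  simp only [av, map_mul, mem_Z_iff_cjA.1 hz, Finset.mul_sum]

theorem chiL_av (χ : IrrCharacter G) (a : ℂ[G]) : chiL χ.1 (av a) = Fintype.card G * chiL χ.1 a := by
  simp only [av, map_sum, chiL_cjA (CChar.CharFun.irr_classFun χ.2), Finset.sum_const, Finset.card_univ, nsmul_eq_mul]

theorem mul_fB {z : ℂ[G]} (hz : z ∈ Z ℂ G) (χ : IrrCharacter G) : fB {χ} * z = omega χ.1 z • fB {χ} := by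
  classical
  refine eq_of_omega (mul_mem (fB_mem_Z _) hz) (Subalgebra.smul_mem _ (fB_mem_Z _) _) fun ψ => ?_
  rw [omega_mul_of_Z ψ.2 (fB_mem_Z _), map_smul, omega_fB]
  split_ifs with h
  · rw [Set.mem_singleton_iff.1 h]; simp
  · simp

theorem fB_mul_eq_zero {e : ℂ[G]} (he : e * e = e) {χ : IrrCharacter G} (h : chiL χ.1 e = 0) : fB {χ} * e = 0 := by
  classical
  refine eq_zero_of_chiL fun ψ g => ?_
  rw [mul_assoc, chiL_fB_mul]
  split_ifs with h'
  · obtain rfl := Set.mem_singleton_iff.1 h'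
    obtain ⟨n, ρ, -, e1⟩ := ψ.2
    rw [← e1, chiL_character] at h ⊢
    rw [map_mul, LinearMap.IsIdempotentElem.eq_zero_of_trace_eq_zero (by rw [IsIdempotentElem, ← map_mul, he]) h,
      zero_mul, map_zero]
  · rfl

end

namespace Hk
variable {W ι : Type*} [Group W] {Y : Cx W ι} {G : Type*} [Group G] [Fintype G] {B : Subgroup G} {q : ℕ} (H : Hk Y B q)

/-- the coordinates of the Hecke algebra -/
noncomputable def Φ : (W → ℂ) →ₗ[ℂ] ℂ[G] := (Nat.card B : ℂ)⁻¹ • ofFun.toLinearMap ∘ₗ LinearMap.funLeft ℂ ℂ H.c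

theorem coeff_Φ (x : W → ℂ) (g : G) : (H.Φ x).coeff g = (Nat.card B : ℂ)⁻¹ * x (H.c g) := rfl

omit [Fintype G] in
theorem B_ne [Finite G] : (Nat.card B : ℂ) ≠ 0 := Nat.cast_ne_zero.2 Nat.card_pos.ne'

omit [Fintype G] in
include H in
theorem q_ne : (q : ℂ) ≠ 0 := Nat.cast_ne_zero.2 H.pos

theorem surj (w : W) : ∃ g, H.c g = w := by
  obtain ⟨g, hg⟩ := (Nat.card_ne_zero.1 ((H.card w).trans_ne (mul_ne_zero Nat.card_pos.ne' (pow_ne_zero _ H.pos)))).1
  exact ⟨g, hg⟩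

theorem Φ_inj : Function.Injective H.Φ := fun x y h => funext fun w => by
  obtain ⟨g, rfl⟩ := H.surj w
  exact mul_left_cancel₀ (inv_ne_zero B_ne) ((H.coeff_Φ x g).symm.trans (h ▸ H.coeff_Φ y g))

theorem bi_Φ (x : W → ℂ) : Bi B (H.Φ x) := fun b hb =>
  ⟨ext_coeff fun g => by
    rw [coeff_single_mul_apply, one_mul, coeff_Φ, coeff_Φ, (H.eq _ g).2 ⟨b, hb, 1, one_mem _, by group⟩],
  ext_coeff fun g => by
    rw [coeff_mul_single_apply, mul_one, coeff_Φ, coeff_Φ, (H.eq _ g).2 ⟨1, one_mem _, b, hb, by group⟩]⟩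

theorem exists_Φ {a : ℂ[G]} (h : Bi B a) : ∃ x, H.Φ x = a := by
  choose r hr using H.surj
  refine ⟨fun w => Nat.card B * a.coeff (r w), ext_coeff fun g => ?_⟩
  obtain ⟨b, hb, b', hb', e⟩ := (H.eq _ _).1 (hr (H.c g))
  rw [coeff_Φ, inv_mul_cancel_left₀ B_ne]
  conv_rhs => rw [← (h b hb).1, ← (h b' hb').2, e]
  simp [mul_assoc]

omit [Fintype G] in
theorem c_eq_one {g : G} : H.c g = 1 ↔ g ∈ B := by
  rw [← H.one, eq_comm, H.eq]
  exact ⟨fun ⟨b, hb, b', hb', e⟩ => e ▸ mul_mem (mul_mem hb (one_mem _)) hb', fun h => ⟨g, h, 1, one_mem _, by group⟩⟩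

variable [Fintype W] [DecidableEq W]

theorem sum_c {M : Type*} [AddCommMonoid M] (f : W → M) : ∑ g, f (H.c g) = ∑ w, (Nat.card B * q ^ Y.ℓ w) • f w := by
  rw [← Finset.sum_fiberwise Finset.univ H.c]
  refine Finset.sum_congr rfl fun w _ => ?_
  rw [Finset.sum_congr rfl fun g hg => by rw [(Finset.mem_filter.1 hg).2], Finset.sum_const, ← H.card,
    Nat.card_eq_fintype_card, Fintype.card_subtype]

theorem ε_Φ (x : W → ℂ) : ε (H.Φ x) = ∑ w, (q : ℂ) ^ Y.ℓ w * x w := by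
  rw [ε_apply, Finset.sum_congr rfl fun g _ => H.coeff_Φ x g, H.sum_c fun w => (Nat.card B : ℂ)⁻¹ * x w]
  refine Finset.sum_congr rfl fun w _ => ?_
  have := B_ne (B := B)
  simp only [nsmul_eq_mul, Nat.cast_mul, Nat.cast_pow]; field_simp

/-- the standard basis -/
noncomputable def T (w : W) : ℂ[G] := H.Φ (Pi.single w 1)

omit [Fintype W] in
theorem bi_T (w : W) : Bi B (H.T w) := H.bi_Φ _

omit [Fintype W] in
theorem sp_T (w : W) : Sp (H.T w) (H.c · = w) := fun g hg => by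
  by_contra h
  rw [T, coeff_Φ, Pi.single_eq_of_ne h, mul_zero] at hg
  exact hg rfl

theorem ε_T (w : W) : ε (H.T w) = q ^ Y.ℓ w := by
  rw [T, ε_Φ, Finset.sum_eq_single w (fun u _ h => by rw [Pi.single_eq_of_ne h, mul_zero]) (by simp)]; simp

theorem Φ_eq (x : W → ℂ) : H.Φ x = ∑ w, x w • H.T w := by
  conv_lhs => rw [← Finset.univ_sum_single x]
  simp only [map_sum, T, ← map_smul, ← Pi.single_smul', smul_eq_mul, mul_one]

theorem e_mul {a : ℂ[G]} (h : Bi B a) : H.T 1 * a = a ∧ a * H.T 1 = a := by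
  have k : ∀ f : G → ℂ[G], (∀ b ∈ B, f b = a) → ∑ g, (H.T 1).coeff g • f g = a := fun f hf => by
    have := H.ε_T 1
    rw [ε_apply, Y.one, pow_zero] at this
    rw [Finset.sum_congr rfl fun g _ => (?_ : _ = (H.T 1).coeff g • a), ← Finset.sum_smul, this, one_smul]
    by_cases e : (H.T 1).coeff g = 0
    · rw [e, zero_smul, zero_smul]
    · rw [hf g (H.c_eq_one.1 (H.sp_T 1 g e))]
  constructor
  · conv_lhs => rw [eq_sum_single (H.T 1)]
    simp only [Finset.sum_mul, smul_mul_assoc]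
    exact k _ fun b hb => (h b hb).1
  · conv_lhs => rw [eq_sum_single (H.T 1)]
    simp only [Finset.mul_sum, mul_smul_comm]
    exact k _ fun b hb => (h b hb).2

theorem eq_two {a : ℂ[G]} (h : Bi B a) {u w : W} (huw : u ≠ w) (hs : Sp a fun g => H.c g = u ∨ H.c g = w) :
    ∃ x y : ℂ, a = x • H.T u + y • H.T w := by
  obtain ⟨x, rfl⟩ := H.exists_Φ h
  refine ⟨x u, x w, ?_⟩
  rw [Φ_eq, ← Finset.sum_subset (Finset.subset_univ {u, w}) fun v _ hv => ?_, Finset.sum_pair huw]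
  obtain ⟨g, rfl⟩ := H.surj v
  rw [show x (H.c g) = 0 from by_contra fun e => hv (by simpa using hs g (mul_ne_zero (inv_ne_zero B_ne) e)), zero_smul]

theorem eq_T {a : ℂ[G]} (h : Bi B a) {w : W} (hs : Sp a (H.c · = w)) : ((q : ℂ) ^ Y.ℓ w) • a = ε a • H.T w := by
  obtain ⟨x, rfl⟩ := H.exists_Φ h
  have : H.Φ x = x w • H.T w := by
    rw [Φ_eq, Finset.sum_eq_single w (fun v _ hv => ?_) (by simp)]
    obtain ⟨g, rfl⟩ := H.surj v
    rw [show x (H.c g) = 0 from by_contra fun e => hv (hs g (mul_ne_zero (inv_ne_zero B_ne) e)), zero_smul]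
  rw [this, map_smul, ε_T, smul_smul, smul_eq_mul, mul_comm]

theorem T_mul {u w : W} (h : Y.ℓ (u * w) = Y.ℓ u + Y.ℓ w) (hc : ∀ x y, H.c x = u → H.c y = w → H.c (x * y) = u * w) :
    H.T u * H.T w = H.T (u * w) := by
  have := H.eq_T (by simpa using (H.bi_T u).mul (H.bi_T w) 1) ((H.sp_T u).mul (H.sp_T w) hc)
  rw [map_mul, ε_T, ε_T, ← pow_add, ← h] at this
  exact smul_right_injective _ (pow_ne_zero _ H.q_ne) this

theorem T_up {i : ι} {w : W} (h : Y.ℓ w < Y.ℓ (Y.s i * w)) : H.T (Y.s i) * H.T w = H.T (Y.s i * w) :=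
  H.T_mul (by have := Y.step i w; rw [Y.ℓ_s]; omega) fun x y hx hy =>
    hy ▸ (H.step i x y hx).resolve_right fun e => e.1 (hy ▸ h)

theorem T_up' {i : ι} {w : W} (h : Y.ℓ w < Y.ℓ (w * Y.s i)) : H.T w * H.T (Y.s i) = H.T (w * Y.s i) := by
  rw [Y.ℓ_mul, ← Y.inv w] at h
  refine H.T_mul (by have := Y.step i w⁻¹; rw [Y.ℓ_s, Y.ℓ_mul, ← Y.inv w]; omega) fun x y hx hy => ?_
  have := (H.step i y⁻¹ x⁻¹ (by rw [H.inv, hy, Y.s_inv])).resolve_right fun e => e.1 (by rwa [H.inv, hx])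
  rw [← _root_.mul_inv_rev, H.inv, H.inv, hx, inv_eq_iff_eq_inv] at this
  rw [this, _root_.mul_inv_rev, inv_inv, Y.s_inv]

theorem T_sq (i : ι) : H.T (Y.s i) * H.T (Y.s i) = (q : ℂ) • H.T 1 + ((q : ℂ) - 1) • H.T (Y.s i) := by
  have h1 : 1 ≠ Y.s i := fun e => by have := Y.ℓ_s i; rw [← e, Y.one] at this; omega
  obtain ⟨x, y, e⟩ := H.eq_two (by simpa using (H.bi_T (Y.s i)).mul (H.bi_T (Y.s i)) 1) h1
    ((H.sp_T _).mul (H.sp_T _) fun x y hx hy => (H.step i x y hx).imp (fun e => by rw [e, hy, Y.ss]) fun e => e.2.trans hy)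
  have h2 := congrArg (·.coeff 1) e
  have h3 := congrArg ε e
  have := B_ne (B := B)
  have := H.q_ne
  simp only [coeff_mul_sum, mul_one, T, coeff_Φ, H.inv, coeff_add', coeff_smul', H.one, Pi.single_eq_same,
    Pi.single_eq_of_ne h1, mul_zero, add_zero] at h2
  rw [H.sum_c fun w => (Nat.card B : ℂ)⁻¹ * (Pi.single (Y.s i) (1 : ℂ) : W → ℂ) w * ((Nat.card B : ℂ)⁻¹ *
    (Pi.single (Y.s i) (1 : ℂ) : W → ℂ) w⁻¹), Finset.sum_eq_single (Y.s i) (fun u _ h => by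
      rw [Pi.single_eq_of_ne h]; simp) (by simp), Y.s_inv, Y.ℓ_s] at h2
  simp only [map_mul, map_add, map_smul, ε_T, Y.ℓ_s, Y.one, smul_eq_mul, pow_one, pow_zero] at h3
  simp only [Pi.single_eq_same, nsmul_eq_mul, Nat.cast_mul, pow_one] at h2
  obtain rfl : x = q := by field_simp at h2; exact h2.symm
  rw [e, show y = q - 1 from mul_right_cancel₀ H.q_ne (by linear_combination -h3)]

theorem Φ_Mt {σ : W → W} {F : ℂ[G] →ₗ[ℂ] ℂ[G]} (h1 : ∀ w, Y.ℓ w < Y.ℓ (σ w) → F (H.T w) = H.T (σ w))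
    (h2 : ∀ w, ¬ Y.ℓ w < Y.ℓ (σ w) → F (H.T w) = (q : ℂ) • H.T (σ w) + ((q : ℂ) - 1) • H.T w) (x : W → ℂ) :
    H.Φ (evM q (Y.Mt σ) *ᵥ x) = F (H.Φ x) := by
  have : H.Φ ∘ₗ (evM q (Y.Mt σ)).mulVecLin = F ∘ₗ H.Φ := LinearMap.pi_ext' fun w => LinearMap.ext_ring (by
    change H.Φ (evM q (Y.Mt σ) *ᵥ Pi.single w 1) = F (H.T w)
    by_cases h : Y.ℓ w < Y.ℓ (σ w)
    · rw [h1 w h, T]; congr 1; ext u
      simp [evM, Cx.Mt, h, Pi.single_apply, apply_ite (eval (q : ℂ))]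
    · rw [h2 w h, T, T, ← map_smul, ← map_smul, ← map_add]; congr 1; ext u
      simp [evM, Cx.Mt, h, Pi.single_apply, apply_ite (eval (q : ℂ))])
  exact DFunLike.congr_fun this x

theorem Φ_L (i : ι) (x : W → ℂ) : H.Φ (evM q (Y.Mt (Y.s i * ·)) *ᵥ x) = H.T (Y.s i) * H.Φ x :=
  H.Φ_Mt (F := LinearMap.mulLeft ℂ _) (fun _ h => H.T_up h) (fun w h => by
    have e : Y.s i * (Y.s i * w) = w := by rw [← mul_assoc, Y.ss, one_mul]
    have := H.T_up (i := i) (w := Y.s i * w) (by have := Y.step i w; rw [e]; omega)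
    rw [e] at this
    rw [LinearMap.mulLeft_apply]
    conv_lhs => rw [← this, ← mul_assoc, T_sq, add_mul, smul_mul_assoc, smul_mul_assoc, (H.e_mul (H.bi_T _)).1, this]) x

theorem Φ_R (i : ι) (x : W → ℂ) : H.Φ (evM q (Y.Mt (· * Y.s i)) *ᵥ x) = H.Φ x * H.T (Y.s i) :=
  H.Φ_Mt (F := LinearMap.mulRight ℂ _) (fun _ h => H.T_up' h) (fun w h => by
    have e : w * Y.s i * Y.s i = w := by rw [mul_assoc, Y.ss, mul_one]
    have := H.T_up' (i := i) (w := w * Y.s i) (by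
      have := Y.step i w⁻¹; rw [e]; rw [← Y.ℓ_mul, Y.inv] at this; omega)
    rw [e] at this
    rw [LinearMap.mulRight_apply]
    conv_lhs => rw [← this, mul_assoc, T_sq, mul_add, mul_smul_comm, mul_smul_comm, (H.e_mul (H.bi_T _)).2, this]) x

theorem T_red {i : ι} {w : W} (h : Y.ℓ (Y.s i * w) < Y.ℓ w) :
    H.T w = H.T (Y.s i) * H.T (Y.s i * w) ∧ H.T w⁻¹ = H.T (Y.s i * w)⁻¹ * H.T (Y.s i) := by
  have e : Y.s i * (Y.s i * w) = w := by rw [← mul_assoc, Y.ss, one_mul]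
  have e' : (Y.s i * w)⁻¹ * Y.s i = w⁻¹ := by group
  exact ⟨by rw [H.T_up (by rwa [e]), e], by rw [H.T_up' (by rwa [e', Y.inv, Y.inv]), e']⟩

theorem Φ_Dw {L : List ι} {w : W} (h : Y.Red L w) (x : W → ℂ) :
    H.Φ (evM q (Y.Dw L) *ᵥ x) = H.T w * H.Φ x * H.T w⁻¹ := by
  induction L generalizing w with
  | nil =>
    obtain rfl : w = 1 := h
    rw [Cx.Dw, List.map_nil, List.prod_nil, evM, Matrix.map_one _ (map_zero _) (map_one _), one_mulVec, inv_one,
      (H.e_mul (H.bi_Φ x)).1, (H.e_mul (H.bi_Φ x)).2]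
  | cons i L ih =>
    have := ih h.2
    rw [Cx.Dw, List.map_cons, List.prod_cons, evM, Matrix.map_mul, Matrix.map_mul, ← mulVec_mulVec, ← mulVec_mulVec]
    refine (H.Φ_L i _).trans ?_
    rw [(H.T_red h.1).1, (H.T_red h.1).2]
    refine (congrArg _ ((H.Φ_R i _).trans (congrArg (· * _) this))).trans (by simp only [mul_assoc])

theorem Φ_Cas' (x : W → ℂ) :
    H.Φ (evM q Y.Cas *ᵥ x) = ∑ w, (q : ℂ) ^ ((∑ u, Y.ℓ u) - Y.ℓ w) • (H.T w * H.Φ x * H.T w⁻¹) := by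
  have : evM q Y.Cas = ∑ w, (q : ℂ) ^ ((∑ u, Y.ℓ u) - Y.ℓ w) • evM q (Y.Dw (Y.exists_red w).choose) := by
    ext a b; simp [evM, Cx.Cas, Matrix.sum_apply, eval_finsetSum]
  simp only [this, sum_mulVec, smul_mulVec, map_sum, map_smul, H.Φ_Dw (Y.exists_red _).choose_spec]

theorem Φ_Cas (x : W → ℂ) :
    H.Φ (evM q Y.Cas *ᵥ x) = ((q : ℂ) ^ (∑ u, Y.ℓ u) / Nat.card B) • (av (H.Φ x) * H.T 1) := by
  have k : ∀ g, H.T 1 * single g 1 * H.T 1 = ((q : ℂ) ^ Y.ℓ (H.c g))⁻¹ • H.T (H.c g) := fun g => by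
    have := H.eq_T ((H.bi_T 1).mul (H.bi_T 1) (single g 1)) (w := H.c g) (((H.sp_T 1).mul (Q := (· = g))
      (R := (H.c · = H.c g)) (fun x hx => by_contra fun e => hx (by simp [Finsupp.single_eq_of_ne e]))
        fun x y hx hy => ((H.eq _ _).2 ⟨x, H.c_eq_one.1 hx, 1, one_mem _, by rw [hy, mul_one]⟩).symm).mul (H.sp_T 1)
        fun x y hx hy => hx ▸ ((H.eq _ _).2 ⟨1, one_mem _, y, H.c_eq_one.1 hy, by rw [one_mul]⟩).symm)
    rw [map_mul, map_mul, ε_T, ε_single, Y.one, pow_zero, one_mul, one_mul, one_smul] at this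
    rw [← this, inv_smul_smul₀ (pow_ne_zero _ H.q_ne)]
  have e := H.e_mul (H.bi_Φ x)
  have : av (H.Φ x) * H.T 1 = ∑ g, (H.T 1 * single g 1 * H.T 1) * H.Φ x * (H.T 1 * single g⁻¹ 1 * H.T 1) := by
    rw [← (H.e_mul (H.bi_T 1)).1, ← mul_assoc, (commute_of_mem_Z (av_mem _) _).eq, av, Finset.mul_sum, Finset.sum_mul]
    refine Finset.sum_congr rfl fun g _ => ?_
    conv_lhs => rw [cjA_eq, ← e.1, ← e.2]
    simp only [(H.e_mul (H.bi_T 1)).1, mul_assoc]
  simp only [k, H.inv, Y.inv] at this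
  rw [this, H.sum_c fun w => ((q : ℂ) ^ Y.ℓ w)⁻¹ • H.T w * H.Φ x * ((q : ℂ) ^ Y.ℓ w)⁻¹ • H.T w⁻¹, Φ_Cas',
    Finset.smul_sum]
  refine Finset.sum_congr rfl fun w _ => ?_
  have := B_ne (B := B)
  have := H.q_ne
  rw [pow_sub₀ _ this (Finset.single_le_sum (fun _ _ => Nat.zero_le _) (Finset.mem_univ w)), smul_mul_assoc,
    smul_mul_assoc, mul_smul_comm, ← Nat.cast_smul_eq_nsmul ℂ, smul_smul, smul_smul, smul_smul]
  congr 1
  push_cast; field_simp

theorem Ad_eq_zero {x : W → ℂ} : evM q Y.Ad *ᵥ x = 0 ↔ ∀ i, Commute (H.T (Y.s i)) (H.Φ x) := by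
  have : ∀ i, Commute (H.T (Y.s i)) (H.Φ x) ↔ ∀ w, (evM q Y.Ad *ᵥ x) (i, w) = 0 := fun i => by
    rw [Commute, SemiconjBy, ← Φ_L, ← Φ_R, H.Φ_inj.eq_iff, ← sub_eq_zero, ← sub_mulVec, funext_iff]
    refine forall_congr' fun w => ?_
    rw [evM, evM, ← Matrix.map_sub _ (map_sub _)]; rfl
  simp only [this, funext_iff, Prod.forall, Pi.zero_apply]

include H in
theorem Ad_Cas (x : W → ℂ) : evM q Y.Ad *ᵥ evM q Y.Cas *ᵥ x = 0 := (Ad_eq_zero H).2 fun i => by
  rw [Φ_Cas]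
  refine ((commute_of_mem_Z (av_mem _) _).symm.mul_right ?_).smul_right _
  rw [Commute, SemiconjBy, (H.e_mul (H.bi_T _)).1, (H.e_mul (H.bi_T _)).2]

theorem mem_range (χ : IrrCharacter G) : fB {χ} * H.T 1 ∈ LinearMap.range (H.Φ ∘ₗ (evM q Y.Cas).mulVecLin) := by
  by_cases h : chiL χ.1 (H.T 1) = 0
  · rw [fB_mul_eq_zero (H.e_mul (H.bi_T 1)).1 h]; exact zero_mem _
  obtain ⟨x, hx⟩ := H.exists_Φ (a := fB {χ} * H.T 1) (by
    have := (H.bi_T 1).mul (H.bi_T 1) (fB {χ})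
    rwa [← (commute_of_mem_Z (fB_mem_Z _) _).eq, mul_assoc, (H.e_mul (H.bi_T 1)).1] at this)
  have e := H.Φ_Cas x
  rw [hx, av_mul (fB_mem_Z _), mul_fB (av_mem _), smul_mul_assoc, smul_smul, omega_apply, chiL_av] at e
  rw [← Submodule.smul_mem_iff _ (mul_ne_zero (div_ne_zero (pow_ne_zero _ H.q_ne) (B_ne (B := B))) (div_ne_zero (mul_ne_zero
    (Nat.cast_ne_zero.2 (Fintype.card_ne_zero (α := G))) h) (CChar.CharFun.irr_apply_one_ne_zero χ.2))), ← e]
  exact ⟨x, rfl⟩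

include H in
theorem ker_le : LinearMap.ker (evM q Y.Ad).mulVecLin ≤ LinearMap.range (evM q Y.Cas).mulVecLin := fun x hx => by
  have := @Fintype.ofFinite _ (finite_irr (G := G))
  have h1 := H.Ad_eq_zero.1 hx
  have h2 : ∀ L w, Y.Red L w → Commute (H.T w) (H.Φ x) := fun L => by
    induction L with
    | nil => rintro _ (rfl : _ = 1); exact (H.e_mul (H.bi_Φ x)).1.trans (H.e_mul (H.bi_Φ x)).2.symm
    | cons i L ih => intro w h; rw [(H.T_red h.1).1]; exact (h1 i).mul_left (ih _ h.2)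
  obtain ⟨y, hy⟩ : H.T 1 ∈ LinearMap.range (H.Φ ∘ₗ (evM q Y.Cas).mulVecLin) := by
    rw [← one_mul (H.T 1), eq_sum_fB_singleton (one_mem _), Finset.sum_mul]
    exact sum_mem fun χ _ => by rw [smul_mul_assoc]; exact Submodule.smul_mem _ _ (H.mem_range χ)
  obtain ⟨z, hz⟩ := H.exists_Φ (by simpa using (H.bi_Φ x).mul (H.bi_Φ y) 1 : Bi B (H.Φ x * H.Φ y))
  refine ⟨z, H.Φ_inj ?_⟩
  change H.Φ (_ *ᵥ _) = _ at hy ⊢
  rw [← (H.e_mul (H.bi_Φ x)).2, ← hy, Φ_Cas', Φ_Cas', hz, Finset.mul_sum]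
  refine Finset.sum_congr rfl fun w _ => ?_
  rw [mul_smul_comm, ← mul_assoc, (h2 _ w (Y.exists_red w).choose_spec).eq]
  simp only [mul_assoc]

include H in
theorem rank_Cas : (evM q Y.Cas).rank = Nat.card {χ : IrrCharacter G //
    ∃ φ : G → ℂ, IsCharacter G φ ∧ fixedPointCharacter B = (χ : G → ℂ) + φ} := by
  classical
  have := @Fintype.ofFinite _ (finite_irr (G := G))
  have k : ∀ χ : IrrCharacter G, (∃ φ : G → ℂ, IsCharacter G φ ∧ fixedPointCharacter B = (χ : G → ℂ) + φ) ↔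
      chiL χ.1 (H.T 1) ≠ 0 := fun χ => by
    have : chiL χ.1 (H.T 1) = classInner χ.1 (fixedPointCharacter B) := by
      rw [H12Par.inner_fpc B (CChar.CharFun.irr_classFun χ.2), chiL_apply, Finset.mul_sum,
        ← Finset.sum_subtype (Finset.univ.filter (· ∈ B)) (by simp) fun g => (Nat.card B : ℂ)⁻¹ * χ.1 g,
        Finset.sum_filter]
      refine Finset.sum_congr rfl fun g _ => ?_
      simp [T, coeff_Φ, Pi.single_apply, H.c_eq_one]
    rw [this, Ne, Cons.ci_eq_zero_comm]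
    refine ⟨fun ⟨φ, h1, h2⟩ => ?_, Cons.exists_eq_add (H12Par.fpc_char B) χ.2⟩
    rw [h2]
    exact Cons.inner_add_ne_zero (CChar.CharFun.char_of_irr χ.2) h1 (CChar.CharFun.char_of_irr χ.2)
      (by rw [CChar.CharFun.inner_irr_self χ.2]; exact one_ne_zero)
  let u : {χ : IrrCharacter G // chiL χ.1 (H.T 1) ≠ 0} → ℂ[G] := fun χ => fB {χ.1} * H.T 1
  have h1 : LinearIndependent ℂ u := Fintype.linearIndependent_iff.2 fun a ha ψ => by
    have := congrArg (chiL ψ.1.1) ha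
    simp only [u, map_sum, map_smul, chiL_fB_mul, map_zero, Set.mem_singleton_iff, smul_eq_mul, Subtype.val_inj,
      mul_ite, mul_zero, Finset.sum_ite_eq, Finset.mem_univ, if_true] at this
    exact (mul_eq_zero.1 this).resolve_right ψ.2
  have h2 : LinearMap.range (H.Φ ∘ₗ (evM q Y.Cas).mulVecLin) = Submodule.span ℂ (Set.range u) := by
    refine le_antisymm ?_ (Submodule.span_le.2 (Set.range_subset_iff.2 fun χ => H.mem_range χ.1))
    rintro _ ⟨x, rfl⟩
    change H.Φ (_ *ᵥ _) ∈ _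
    rw [Φ_Cas, eq_sum_fB_singleton (av_mem _), Finset.sum_mul]
    refine Submodule.smul_mem _ _ (sum_mem fun χ _ => ?_)
    rw [smul_mul_assoc]
    refine Submodule.smul_mem _ _ ?_
    by_cases h : chiL χ.1 (H.T 1) = 0
    · rw [fB_mul_eq_zero (H.e_mul (H.bi_T 1)).1 h]; exact zero_mem _
    · exact Submodule.subset_span ⟨⟨χ, h⟩, rfl⟩
  rw [Nat.card_congr (Equiv.subtypeEquivRight k), Nat.card_eq_fintype_card, ← finrank_span_eq_card h1, ← h2,
    LinearMap.range_comp, (Submodule.equivMapOfInjective _ H.Φ_inj _).finrank_eq.symm, Matrix.rank]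

end Hk

/-- the Weyl group itself -/
noncomputable def Cx.hk {W ι : Type*} [Group W] (Y : Cx W ι) : Hk Y (⊥ : Subgroup W) 1 where
  c := id
  eq x y := by simp [eq_comm]
  one := rfl
  inv _ := rfl
  card w := by simp
  step i g h e := Or.inl (by rw [← e]; rfl)
  pos := one_ne_zero

theorem Cx.card_eq {W ι : Type*} [Group W] [Finite W] [Finite ι] (Y : Cx W ι)
    (h : Set.Infinite {q : ℕ | ∃ (G : Type) (_ : Group G) (_ : Finite G) (B : Subgroup G), Nonempty (Hk Y B q)})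
    {G : Type*} [Group G] [Finite G] {B : Subgroup G} {q : ℕ} (H : Hk Y B q) :
    Nat.card {χ : IrrCharacter G // ∃ φ : G → ℂ, IsCharacter G φ ∧ fixedPointCharacter B = (χ : G → ℂ) + φ} =
      Nat.card (ConjClasses W) := by
  classical
  cases nonempty_fintype W
  cases nonempty_fintype ι
  cases nonempty_fintype G
  have h0 : Y.Ad * Y.Cas = 0 := Matrix.ext fun a b => eq_zero_of_infinite_isRoot _
    ((h.image Nat.cast_injective.injOn).mono (by
      rintro _ ⟨q, ⟨G, _, _, B, ⟨H⟩⟩, rfl⟩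
      cases nonempty_fintype G
      have := congrFun (H.Ad_Cas (Pi.single b 1)) a
      rw [mulVec_mulVec, evM, evM, ← Matrix.map_mul] at this
      simpa using this))
  rw [← H.rank_Cas, rank_eq h0 H.ker_le Y.hk.ker_le, Y.hk.rank_Cas, ← CChar.CharOrth.card_irr]
  refine Nat.card_congr (Equiv.subtypeUnivEquiv fun χ => Cons.exists_eq_add (H12Par.fpc_char _) χ.2 ?_)
  rw [Ne, Cons.ci_eq_zero_comm, H12Par.inner_fpc _ (CChar.CharFun.irr_classFun χ.2)]
  rw [Fintype.sum_subsingleton _ 1]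
  exact mul_ne_zero (inv_ne_zero Hk.B_ne) (CChar.CharFun.irr_apply_one_ne_zero χ.2)

open CA.Chev Cfsg.Lie Equiv

variable (D : ChevalleyDatum) [Good D]

/-- the Weyl group of a root system -/
noncomputable def cx : Cx (W D) (Nd D) where
  s := sW
  ℓ w := lg w.1
  ss i := Subtype.ext (sR_mul_self i)
  step i w := (em (Pos (w.1⁻¹ (sim i)))).imp (lg_sR_mul (W_le_RA w.2)) (lg_sR_mul' (W_le_RA w.2))
  inv w := lg_inv (W_le_RA w.2)
  one := lg_one
  desc w h := by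
    obtain ⟨i, hi⟩ := exists_descent (inv_mem w.2) fun e => h (Subtype.ext (inv_eq_one.1 e))
    exact ⟨i, Nat.lt_of_succ_le (lg_sR_mul' (W_le_RA w.2) hi).le⟩

variable {D} {K : Type*} [Field K] {Γ : Type*} [Group Γ]

theorem exists_hk [Finite K] (A : Sys D K Γ) (hG : A.G = ⊤) : Nonempty (Hk (cx D) A.B (Nat.card K)) := by
  choose b hb m hm b' hb' e using fun g : Γ => A.bruhat (hG ▸ Subgroup.mem_top g)
  have k : ∀ {g x y n : Γ} {w : Perm (Rt D)}, x ∈ A.B → y ∈ A.B → n ∈ A.N → A.Act n w → g = x * n * y →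
      (A.piW ⟨m g, hm g⟩).1 = w := fun {g x y n w} hx hy hn hw e' =>
    (A.bruhat_unique (mul_mem (inv_mem (hb g)) hx) (mul_mem hy (inv_mem (hb' g))) hn hw (A.act_piW ⟨m g, hm g⟩) (by
      change m g = _
      calc m g = (b g)⁻¹ * (b g * m g * b' g) * (b' g)⁻¹ := by group
        _ = _ := by rw [← e g, e']; group)).symm
  have a := fun g => A.act_piW ⟨m g, hm g⟩
  refine ⟨⟨fun g => A.piW ⟨m g, hm g⟩, fun x y => ⟨fun h => ?_, ?_⟩,
    Subtype.ext (k (one_mem _) (one_mem _) (one_mem _) Sys0.Act.one (by group)), fun g => Subtype.ext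
      (k (inv_mem (hb' g)) (inv_mem (hb g)) (inv_mem (hm g)) (a g).inv ((congrArg _ (e g)).trans (by group))),
    fun w => ?_, fun i g h hg => ?_, Nat.card_pos.ne'⟩⟩
  · refine ⟨b y * (b x)⁻¹, mul_mem (hb y) (inv_mem (hb x)), (b' x)⁻¹ * ((m x)⁻¹ * m y) * b' y, mul_mem (mul_mem
      (inv_mem (hb' x)) (A.H_le_B (A.mem_H_of_act_eq (hm x) (hm y) (a x) (h ▸ a y)))) (hb' y), ?_⟩
    calc y = b y * m y * b' y := e y
      _ = b y * (b x)⁻¹ * (b x * m x * b' x) * ((b' x)⁻¹ * ((m x)⁻¹ * m y) * b' y) := by group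
      _ = _ := by rw [← e x]
  · rintro ⟨u, hu, v, hv, rfl⟩
    exact (Subtype.ext (k (mul_mem hu (hb x)) (mul_mem (hb' x) hv) (hm x) (a x) (by
      conv_lhs => rw [e x]
      group))).symm
  · obtain ⟨n, hn, hw⟩ := A.exists_N w.2
    have hU : A.X (invs w.1) ≤ A.B := (A.X_mono fun r hr => (mem_invs.1 hr).1).trans A.U_le_B
    change _ = _ * Nat.card K ^ lg w.1
    rw [lg, ← Set.ncard_coe_finset, ← A.card_X (Sys.nil_invs (W_le_RA w.2)), ← Nat.card_prod]
    refine (Nat.card_congr (Equiv.ofBijective (fun p : A.B × A.X (invs w.1) =>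
      (⟨p.1 * n * p.2, Subtype.ext (k p.1.2 (hU p.2.2) hn hw rfl)⟩ : {g // A.piW ⟨m g, hm g⟩ = w})) ⟨?_, ?_⟩)).symm
    · rintro ⟨x, u⟩ ⟨x', u'⟩ h
      obtain ⟨h1, h2⟩ := A.canon_unique x.2 x'.2 hw u.2 u'.2 (congrArg Subtype.val h)
      rw [Subtype.ext h1, Subtype.ext h2]
    · rintro ⟨g, rfl⟩
      obtain ⟨x, hx, u, hu, e'⟩ := A.exists_canon (hb g) (mul_mem (A.H_le_B (A.mem_H_of_act_eq hn (hm g) hw (a g)))
        (hb' g)) hn hw
      exact ⟨(⟨x, hx⟩, ⟨u, hu⟩), Subtype.ext (by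
        change x * n * u = g
        rw [← e']; conv_rhs => rw [e g]
        group)⟩
  · have h1 := A.H_le_B (A.mem_H_of_act_eq (A.n_mem (sim i) 1) (hm g) (A.act_sim i 1)
      (by have := a g; rwa [congrArg Subtype.val hg] at this))
    have h2 : g * h = b g * (A.n (sim i) 1 * ((A.n (sim i) 1)⁻¹ * m g * (b' g * b h)) * m h) * b' h := by
      conv_lhs => rw [e g, e h]
      group
    rcases A.bn_step i (mul_mem h1 (mul_mem (hb' g) (hb h))) (a h) with ⟨x, hx, y, hy, e'⟩ | ⟨h3, x, hx, y, hy, e'⟩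
    · exact Or.inl (Subtype.ext (k (mul_mem (hb g) hx) (mul_mem hy (hb' h)) (mul_mem (A.n_mem _ _) (hm h))
        ((A.act_sim i 1).mul (a h)) (by rw [h2, e']; group)))
    · refine Or.inr ⟨not_lt.2 (Nat.le_of_succ_le (lg_sR_mul' (a h).ra h3).le),
        Subtype.ext (k (mul_mem (hb g) hx) (mul_mem hy (hb' h)) (hm h) (a h) (by rw [h2, e']; group))⟩

theorem card_const [Finite K] [Finite Γ] (A : Sys D K Γ) (hG : A.G = ⊤) :
    Nat.card {χ : IrrCharacter Γ // ∃ φ : Γ → ℂ, IsCharacter Γ φ ∧ fixedPointCharacter A.B = (χ : Γ → ℂ) + φ} =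
      Nat.card (ConjClasses (W D)) := by
  obtain ⟨H⟩ := exists_hk A hG
  refine (cx D).card_eq (Set.infinite_of_injective_forall_mem (f := fun n : ℕ => 2 ^ (n + 1))
    (fun a b h => by simpa using h) fun n => ⟨D.group (GaloisField 2 (n + 1)), inferInstance, inferInstance, (adjG D _).B, ?_⟩) H
  exact GaloisField.card 2 (n + 1) n.succ_ne_zero ▸ exists_hk (adjG D _) adjG_G

theorem card_cc {G H : Type*} [Group G] [Group H] (e : G ≃* H) : Nat.card (ConjClasses G) = Nat.card (ConjClasses H) :=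
  Nat.card_congr (Quotient.congr e.toEquiv fun _ _ =>
    ⟨e.toMonoidHom.map_isConj, fun h => by
      have := e.symm.toMonoidHom.map_isConj h
      change IsConj (e.symm (e _)) (e.symm (e _)) at this
      rwa [e.symm_apply_apply, e.symm_apply_apply] at this⟩)

theorem card_adj [Finite K] {M : CoxeterMatrix (Nd D)} (h : ∃ e : W D ≃* M.Group, ∀ i, e (sW i) = M.simple i) :
    Nat.card {χ : IrrCharacter (D.group K) // ∃ φ : D.group K → ℂ, IsCharacter _ φ ∧
      fixedPointCharacter ((D.borelSubgroup K).subgroupOf (D.group K)) = (χ : D.group K → ℂ) + φ} =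
      Nat.card (ConjClasses M.Group) := by
  rw [← adjG_B, card_const _ adjG_G, card_cc h.choose]

end CA.H12Hk
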