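/-
Two-generation of Chevalley groups over finite fields: a certificate checker for "the subgroup containing
`h_β(κ) x_r(1)` and `x_s(1) n_w` contains every root subgroup".
-/
import Cfsg.Agent.Lib.Lie.ChevAdj
import Cfsg.Agent.Lib.Lie.ChevSt

set_option autoImplicit false

namespace CA.Chev.H14

open Matrix Equiv Cfsg.Lie Cfsg.Lie.ChevalleyDatum

/-- parameters of a certificate -/
structure Cfg where
  L : List ℕ
  fl : Bool
  s : ℕ
  β : ℕ
  c0 : ℤ
  z0 : ℤ
  jj : ℕ
  sp : Bool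

/-- a factor `x_k(C v^j)` -/
abbrev Tm := ℕ × ℤ × ℕ

def wN (T : Tab) (L : List ℕ) (r : ℕ) : ℕ := L.foldr (fun i x => T.rf i x) r
noncomputable def prN (T : Tab) (r s : ℕ) : ℤ := sumLt T.l fun j => T.co r j * T.wt s j
def cW (T : Tab) (r s : ℕ) : List Tm := (T.cT r s).map fun c => (c.1, c.2.1, c.2.2.2)
def fW (T : Tab) (c : Cfg) (r : ℕ) : List Tm :=
  (wN T c.L r, 1, 1) :: (if c.fl = true ∧ wN T c.L r ≠ c.s then cW T c.s (wN T c.L r) else [])
def okT (c : Cfg) (S : List ℕ) (x : Tm) : Bool := decide (x.1 ∈ S ∨ x.2.1 = c.z0 ∨ x.2.1 = -c.z0)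
def nz (c : Cfg) (C : ℤ) : Bool := decide (C = 1 ∨ C = -1 ∨ C = c.c0 ∨ C = -c.c0)

def one (c : Cfg) (S : List ℕ) (wd : List Tm) (p : ℕ) : Option ℕ :=
  match wd.drop p with
  | x :: rest => if ((wd.take p).all (okT c S) && rest.all (okT c S) && nz c x.2.1 &&
      decide (x.2.2 = 1 ∨ x.2.2 = 2 ∨ x.2.2 = c.jj)) = true then some x.1 else none
  | [] => none

noncomputable def two (T : Tab) (c : Cfg) (S : List ℕ) (wd : List Tm) (p : ℕ) : Option ℕ :=
  match wd.drop p with
  | x :: y :: rest => if ((wd.take p).all (okT c S) && rest.all (okT c S) && nz c y.2.1 && c.sp &&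
      decide (x.1 < T.n ∧ y.1 < T.n ∧ x.2.2 = y.2.2 ∧ (y.2.2 = 1 ∨ y.2.2 = c.jj)) &&
      decide (prN T c.β x.1 = prN T c.β y.1 + 1 ∨ prN T c.β y.1 = prN T c.β x.1 + 1)) = true then some y.1 else none
  | _ => none

def fOK (T : Tab) (c : Cfg) (r : ℕ) : Bool := decide (r < T.n ∧ (c.fl = true → wN T c.L r ≠ T.neg c.s))

noncomputable def step (T : Tab) (c : Cfg) (S : List ℕ) (st : ℕ × ℕ × ℕ × ℕ) : Option ℕ :=
  if st.1 = 0 then (if (fOK T c st.2.1 && decide (st.2.1 ∈ S)) = true then one c S (fW T c st.2.1) st.2.2.2 else none)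
  else if st.1 = 1 then
    (if st.2.1 < T.n ∧ st.2.2.1 < T.n ∧ st.2.1 ∈ S ∧ st.2.2.1 ∈ S ∧ st.2.2.1 ≠ st.2.1 ∧ st.2.2.1 ≠ T.neg st.2.1
      then one c S (cW T st.2.1 st.2.2.1) st.2.2.2 else none)
  else if st.1 = 2 then
    (if (fOK T c st.2.1 && decide (wN T c.L st.2.1 ∈ S ∧ (fW T c st.2.1).length = 1)) = true then some st.2.1 else none)
  else (if (fOK T c st.2.1 && decide (st.2.1 ∈ S)) = true then two T c S (fW T c st.2.1) st.2.2.2 else none)

noncomputable def run (T : Tab) (c : Cfg) (sts : List (ℕ × ℕ × ℕ × ℕ)) : List ℕ → Bool :=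
  List.rec (fun S => allLt T.l fun i => decide (T.simple i ∈ S ∧ T.neg (T.simple i) ∈ S))
    (fun st _ ih S => Option.rec false (fun k => ih (k :: S)) (step T c S st)) sts

noncomputable def chk (T : Tab) (c : Cfg) (r0 : ℕ) (sts : List (ℕ × ℕ × ℕ × ℕ)) : Bool :=
  c.L.all (fun i => decide (i < T.l)) && decide (c.s < T.n ∧ c.β < T.n) && fOK T c r0 &&
    decide ((fW T c r0).length = 1) && decide (prN T c.β r0 = 0) &&
    decide (prN T c.β (wN T c.L r0) = 1 ∨ prN T c.β (wN T c.L r0) = -1 ∨ prN T c.β (wN T c.L r0) = 2 ∨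
      prN T c.β (wN T c.L r0) = -2) && run T c sts [wN T c.L r0]

variable {D : ChevalleyDatum} [Good D] {K : Type*} [Field K] {Γ : Type*} [Group Γ]

theorem sq_span [Finite K] (P : AddSubgroup K) {c : K} (hc : c ≠ 0) (h : ∀ v : K, c * v ^ 2 ∈ P) (t : K) :
    t ∈ P := by
  by_cases h2 : (2 : K) = 0
  · have hi : Function.Injective fun v : K => v ^ 2 := by
      intro a b e
      have : (a - b) ^ 2 = 0 := by
        simp only at e
        linear_combination (-1) * e + (a ^ 2 - a * b) * h2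
      exact sub_eq_zero.1 (pow_eq_zero_iff two_ne_zero |>.1 this)
    obtain ⟨v, hv⟩ := Finite.surjective_of_injective hi (t / c)
    simp only at hv
    have := h v
    rwa [hv, mul_div_cancel₀ _ hc] at this
  · have := P.sub_mem (P.sub_mem (h (t / c / 2 + 1)) (h (t / c / 2))) (h 1)
    have e : c * (t / c / 2 + 1) ^ 2 - c * (t / c / 2) ^ 2 - c * 1 ^ 2 = t := by field_simp; ring
    rwa [e] at this

/-- root elements indexed by natural numbers -/
noncomputable def xN (A : Sys D K Γ) (r : ℕ) (t : K) : Γ := if h : r < D.nroots then A.x ⟨r, h⟩ t else 1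

theorem xN_val (A : Sys D K Γ) (r : Rt D) (t : K) : xN A r t = A.x r t := by simp [xN]

theorem xN_zero (A : Sys D K Γ) (r : ℕ) : xN A r 0 = 1 := by
  unfold xN; split_ifs
  · exact A.x_zero _
  · rfl

/-- the parameters of the root elements in `M` -/
def par (A : Sys D K Γ) (M : Subgroup Γ) (r : ℕ) : AddSubgroup K where
  carrier := {t | xN A r t ∈ M}
  zero_mem' := by simp [xN_zero]
  add_mem' := by
    intro a b ha hb
    simp only [Set.mem_setOf_eq, xN] at *
    split_ifs at * with h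
    · rw [A.add]; exact M.mul_mem ha hb
    · exact M.one_mem
  neg_mem' := by
    intro a ha
    simp only [Set.mem_setOf_eq, xN] at *
    split_ifs at * with h
    · rw [A.x_neg]; exact M.inv_mem ha
    · exact M.one_mem

def Fu (A : Sys D K Γ) (M : Subgroup Γ) (r : ℕ) : Prop := ∀ t, xN A r t ∈ M

noncomputable def ev (A : Sys D K Γ) (wd : List Tm) (v : K) : Γ :=
  (wd.map fun x => xN A x.1 ((x.2.1 : K) * v ^ x.2.2)).prod

theorem ev_append (A : Sys D K Γ) (a b : List Tm) (v : K) : ev A (a ++ b) v = ev A a v * ev A b v := by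
  simp [ev]

theorem ev_cons (A : Sys D K Γ) (x : Tm) (b : List Tm) (v : K) :
    ev A (x :: b) v = xN A x.1 ((x.2.1 : K) * v ^ x.2.2) * ev A b v := by
  simp [ev]

theorem cw_eq (A : Sys D K Γ) (r s : Rt D) (v : K) : cw A.x r s (-1) v = ev A (cW (tab D) r s) v := by
  rw [cw, ev, cW, tab_cT, commTerms_eq, List.map_map, List.map_map]
  congr 1
  refine List.map_congr_left fun c _ => ?_
  simp [xN_val]

theorem wN_val {L : List (Nd D)} (r : Rt D) : wN (tab D) (L.map Fin.val) r = (wd L r : Rt D) := by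
  induction L with
  | nil => simp [wN, wd_nil]
  | cons i L ih =>
    rw [wd_cons, Perm.mul_apply, sR_val, ← ih]; rfl

/-- the hypotheses on the subgroup -/
structure Hyp (A : Sys D K Γ) (M : Subgroup Γ) (c : Cfg) (κ : Kˣ) (L : List (Nd D)) (s β : Rt D) : Prop where
  hL : c.L = L.map Fin.val
  hs : c.s = s
  hβ : c.β = β
  hb : A.x s (if c.fl = true then 1 else 0) * A.nw L ∈ M
  hh : A.h β κ ∈ M
  hc0 : (c.c0 : K) ≠ 0
  hz0 : (c.z0 : K) = 0
  hjj : Function.Surjective fun v : K => v ^ c.jj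
  hsp : c.sp = true → κ ≠ 1

variable {A : Sys D K Γ} {M : Subgroup Γ} {c : Cfg} {κ : Kˣ} {L : List (Nd D)} {s β : Rt D}

theorem Hyp.ok (H : Hyp A M c κ L s β) {S : List ℕ} (hS : ∀ k ∈ S, Fu A M k) {wd : List Tm}
    (h : wd.all (okT c S) = true) (v : K) : ev A wd v ∈ M := by
  induction wd with
  | nil => simp [ev]
  | cons x wd ih =>
    rw [List.all_cons, Bool.and_eq_true] at h
    rw [ev_cons]
    refine M.mul_mem ?_ (ih h.2)
    have h1 := h.1
    simp only [okT, decide_eq_true_eq] at h1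
    rcases h1 with h1 | h1 | h1
    · exact hS _ h1 _
    · rw [h1, H.hz0, zero_mul, xN_zero]; exact M.one_mem
    · rw [h1, Int.cast_neg, H.hz0, neg_zero, zero_mul, xN_zero]; exact M.one_mem

theorem Hyp.nz_ne (H : Hyp A M c κ L s β) {C : ℤ} (h : nz c C = true) : (C : K) ≠ 0 := by
  simp only [nz, decide_eq_true_eq] at h
  rcases h with rfl | rfl | rfl | rfl
  · simp
  · simp
  · exact H.hc0
  · simpa using H.hc0

theorem Hyp.one_sound [Finite K] (H : Hyp A M c κ L s β) {S : List ℕ} (hS : ∀ k ∈ S, Fu A M k) {wd : List Tm}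
    (hw : ∀ v, ev A wd v ∈ M) {p k : ℕ} (h : one c S wd p = some k) : Fu A M k := by
  unfold one at h
  split at h
  · rename_i x rest e
    split_ifs at h with h1
    obtain rfl := Option.some.inj h
    simp only [Bool.and_eq_true, decide_eq_true_eq] at h1
    obtain ⟨⟨⟨h1, h2⟩, h3⟩, h4⟩ := h1
    have hC := H.nz_ne h3
    have key : ∀ v : K, (x.2.1 : K) * v ^ x.2.2 ∈ par A M x.1 := by
      intro v
      have := hw v
      rw [← List.take_append_drop p wd, e, ev_append, ev_cons] at this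
      exact (M.mul_mem_cancel_right (H.ok hS h2 v)).1 ((M.mul_mem_cancel_left (H.ok hS h1 v)).1 this)
    intro t
    change t ∈ par A M x.1
    rcases h4 with h4 | h4 | h4
    · have := key (t / x.2.1)
      rwa [h4, pow_one, mul_div_cancel₀ _ hC] at this
    · exact sq_span _ hC (fun v => by simpa [h4] using key v) t
    · obtain ⟨v, hv⟩ := H.hjj (t / x.2.1)
      have := key v
      simp only at hv
      rwa [h4, hv, mul_div_cancel₀ _ hC] at this
  · exact absurd h (by simp)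

theorem Hyp.two_sound (H : Hyp A M c κ L s β) {S : List ℕ} (hS : ∀ k ∈ S, Fu A M k) {wd : List Tm}
    (hw : ∀ v, ev A wd v ∈ M) {p k : ℕ} (h : two (tab D) c S wd p = some k) : Fu A M k := by
  unfold two at h
  split at h
  · rename_i x y rest e
    split_ifs at h with h1
    obtain rfl := Option.some.inj h
    simp only [Bool.and_eq_true, decide_eq_true_eq] at h1
    obtain ⟨⟨⟨⟨⟨h1, h2⟩, h3⟩, h4⟩, hx, hy, h5, h6⟩, h7⟩ := h1
    have hC := H.nz_ne h3
    have hκ := H.hsp h4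
    obtain ⟨k1, C1, j1⟩ := x
    obtain ⟨k2, C2, j2⟩ := y
    simp only at hx hy h5 h6 h7 hC ⊢
    subst h5
    lift k1 to Rt D using hx
    lift k2 to Rt D using hy
    rw [H.hβ, prN, prN, ← pr_eq_tab rfl, ← pr_eq_tab rfl] at h7
    have key : ∀ u : K, A.x k1 (C1 * u) * A.x k2 (C2 * u) ∈ M := by
      intro u
      obtain ⟨v, hv⟩ : ∃ v : K, v ^ j1 = u := by
        rcases h6 with h6 | h6
        · exact ⟨u, by rw [h6, pow_one]⟩
        · rw [h6]; exact H.hjj u
      have := hw v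
      rw [← List.take_append_drop p wd, e, ev_append, ev_cons, ev_cons, ← mul_assoc (xN _ _ _)] at this
      have := (M.mul_mem_cancel_right (H.ok hS h2 v)).1 ((M.mul_mem_cancel_left (H.ok hS h1 v)).1 this)
      simpa only [xN_val, hv] using this
    have hne : (κ : K) ^ pr β k2 - (κ : K) ^ pr β k1 ≠ 0 := by
      have h0 : (κ : K) ≠ 0 := κ.ne_zero
      have h1' : (κ : K) ≠ 1 := fun e => hκ (Units.ext e)
      intro e
      rw [sub_eq_zero] at e
      rcases h7 with h7 | h7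
      · rw [h7, zpow_add_one₀ h0] at e
        exact h1' (mul_left_cancel₀ (zpow_ne_zero _ h0) (e.symm.trans (mul_one _).symm))
      · rw [h7, zpow_add_one₀ h0] at e
        exact h1' (mul_left_cancel₀ (zpow_ne_zero _ h0) (e.trans (mul_one _).symm))
    intro t
    rw [xN_val]
    set u := t / (C2 * ((κ : K) ^ pr β k2 - (κ : K) ^ pr β k1)) with hu
    have h8 := M.mul_mem (M.mul_mem H.hh (key u)) (M.inv_mem H.hh)
    rw [show ∀ g a b : Γ, g * (a * b) * g⁻¹ = (g * a * g⁻¹) * (g * b * g⁻¹) by intros; group,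
      A.h_conj, A.h_conj] at h8
    have h9 := M.mul_mem (M.inv_mem (key ((κ : K) ^ pr β k1 * u))) h8
    rw [show (C1 : K) * ((κ : K) ^ pr β k1 * u) = (κ : K) ^ pr β k1 * (C1 * u) by ring,
      show ∀ a b d : Γ, (a * b)⁻¹ * (a * d) = b⁻¹ * d by intros; group, ← A.x_neg, ← A.add] at h9
    have e2 : -((C2 : K) * ((κ : K) ^ pr β k1 * u)) + (κ : K) ^ pr β k2 * (C2 * u) = t := by
      have : (C2 * ((κ : K) ^ pr β k2 - (κ : K) ^ pr β k1)) * u = t :=
        mul_div_cancel₀ _ (mul_ne_zero hC hne)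
      linear_combination this
    rwa [e2] at h9
  · exact absurd h (by simp)

theorem Hyp.conj (H : Hyp A M c κ L s β) (r : Rt D) (h : fOK (tab D) c r = true) :
    ∃ g ∈ M, ∃ a : Kˣ, ∀ u, g * A.x r u * g⁻¹ = ev A (fW (tab D) c r) (a * u) := by
  obtain ⟨a, ha⟩ := (A.act_nw L).conj_x r
  refine ⟨_, H.hb, a, fun u => ?_⟩
  simp only [fOK, decide_eq_true_eq] at h
  rw [show ∀ x n y : Γ, x * n * y * (x * n)⁻¹ = x * (n * y * n⁻¹) * x⁻¹ by intros; group, ha, fW, ev_cons,
    H.hL, wN_val, H.hs]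
  rw [H.hL, wN_val, H.hs] at h
  simp only [xN_val, Int.cast_one, one_mul, pow_one]
  by_cases hf : c.fl = true
  · by_cases hs : wd L r = s
    · rw [if_pos hf, if_neg (by simp [hs]), hs, A.x_comm]; simp [ev]
    · have hs' : ((wd L r : Rt D) : ℕ) ≠ s := fun e => hs (Fin.ext e)
      rw [if_pos hf, if_pos ⟨hf, hs'⟩, ← cw_eq, ← A.conj_eq hs (fun e => h.2 hf (congrArg Fin.val e)),
        A.x_neg, inv_inv]
  · rw [if_neg hf, if_neg (by simp [hf]), A.x_zero]; simp [ev]

theorem Hyp.fwd (H : Hyp A M c κ L s β) {r : ℕ} (h : fOK (tab D) c r = true) (hr : Fu A M r) (v : K) :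
    ev A (fW (tab D) c r) v ∈ M := by
  have hr' : r < D.nroots := by simp only [fOK, decide_eq_true_eq] at h; exact h.1
  lift r to Rt D using hr'
  obtain ⟨g, hg, a, ha⟩ := H.conj r h
  have := ha (a⁻¹ * v)
  rw [← mul_assoc, Units.mul_inv, one_mul] at this
  rw [← this]
  exact M.mul_mem (M.mul_mem hg (by simpa [xN_val] using hr _)) (M.inv_mem hg)

theorem ev_len {r : ℕ} (h : (fW (tab D) c r).length = 1) (v : K) :
    ev A (fW (tab D) c r) v = xN A (wN (tab D) c.L r) v := by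
  rw [fW] at h ⊢
  rw [List.length_cons, Nat.add_eq_right, List.length_eq_zero_iff] at h
  rw [h]; simp [ev]

theorem Hyp.bwd (H : Hyp A M c κ L s β) {r : ℕ} (h : fOK (tab D) c r = true)
    (hl : (fW (tab D) c r).length = 1) (hr : Fu A M (wN (tab D) c.L r)) : Fu A M r := by
  have hr' : r < D.nroots := by simp only [fOK, decide_eq_true_eq] at h; exact h.1
  lift r to Rt D using hr'
  obtain ⟨g, hg, a, ha⟩ := H.conj r h
  intro u
  have := hr (a * u)
  rw [← ev_len hl, ← ha] at this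
  rw [xN_val]
  exact (M.mul_mem_cancel_left hg).1 ((M.mul_mem_cancel_right (M.inv_mem hg)).1 this)

theorem com {r r' : ℕ} (h1 : r < D.nroots) (h2 : r' < D.nroots) (h3 : r' ≠ r) (h4 : r' ≠ D.neg r)
    (hr : Fu A M r) (hr' : Fu A M r') (v : K) : ev A (cW (tab D) r r') v ∈ M := by
  lift r to Rt D using h1
  lift r' to Rt D using h2
  have e := A.conj_eq (r := r) (s := r') (fun e => h3 (congrArg Fin.val e)) (fun e => h4 (congrArg Fin.val e))
    (-1) v
  rw [← cw_eq]
  have a1 : A.x r (-1) ∈ M := by simpa [xN_val] using hr (-1)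
  have a2 : A.x r' v ∈ M := by simpa [xN_val] using hr' v
  exact (M.mul_mem_cancel_left a2).1 (e ▸ M.mul_mem (M.mul_mem (M.inv_mem a1) a2) a1)

theorem Hyp.step_sound [Finite K] (H : Hyp A M c κ L s β) {S : List ℕ} (hS : ∀ k ∈ S, Fu A M k)
    {st : ℕ × ℕ × ℕ × ℕ} {k : ℕ} (h : step (tab D) c S st = some k) : Fu A M k := by
  unfold step at h
  split_ifs at h with h0 h1 h2 h3 h4 h5 h6
  · rw [Bool.and_eq_true, decide_eq_true_eq] at h1
    exact H.one_sound hS (H.fwd h1.1 (hS _ h1.2)) h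
  · obtain ⟨a1, a2, a3, a4, a5, a6⟩ := h3
    exact H.one_sound hS (com a1 a2 a5 a6 (hS _ a3) (hS _ a4)) h
  · rw [Bool.and_eq_true, decide_eq_true_eq] at h5
    obtain rfl := Option.some.inj h
    exact H.bwd h5.1 h5.2.2 (hS _ h5.2.1)
  · rw [Bool.and_eq_true, decide_eq_true_eq] at h6
    exact H.two_sound hS (H.fwd h6.1 (hS _ h6.2)) h

theorem Hyp.run_sound [Finite K] (H : Hyp A M c κ L s β) (sts : List (ℕ × ℕ × ℕ × ℕ)) :
    ∀ {S : List ℕ}, (∀ k ∈ S, Fu A M k) → run (tab D) c sts S = true → A.G ≤ M := by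
  induction sts with
  | nil =>
    intro S hS h
    have h' := allLt_iff.1 h
    refine A.G_le_of_sim (fun i t => ?_) (fun i t => ?_)
    · have := h' i i.2
      rw [decide_eq_true_eq] at this
      exact xN_val A (sim i) t ▸ hS _ this.1 t
    · have := h' i i.2
      rw [decide_eq_true_eq] at this
      exact xN_val A (ng (sim i)) t ▸ hS _ this.2 t
  | cons st sts ih =>
    intro S hS h
    change Option.rec false (fun k => run (tab D) c sts (k :: S)) (step (tab D) c S st) = true at h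
    cases e : step (tab D) c S st with
    | none => rw [e] at h; exact absurd h (by simp)
    | some k =>
      rw [e] at h
      refine ih (S := k :: S) (fun j hj => ?_) h
      rcases List.mem_cons.1 hj with rfl | hj
      · exact H.step_sound hS e
      · exact hS j hj

theorem full_of [Finite K] (hκ : ∀ a : Kˣ, a ∈ Submonoid.powers κ) (hh : A.h β κ ∈ M) {r : Rt D} {a : K}
    (ha : a ≠ 0) (hx : A.x r a ∈ M) (hp : pr β r = 1 ∨ pr β r = -1 ∨ pr β r = 2 ∨ pr β r = -2) : Fu A M r := by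
  have key : ∀ b : Kˣ, A.x r ((b : K) ^ pr β r * a) ∈ M := by
    intro b
    obtain ⟨n, rfl⟩ := hκ b
    induction n with
    | zero => simpa using hx
    | succ n ih =>
      have := M.mul_mem (M.mul_mem hh ih) (M.inv_mem hh)
      rw [A.h_conj] at this
      simp only [pow_succ, Units.val_mul, mul_zpow] at this ⊢
      rwa [mul_comm _ ((κ : K) ^ pr β r), mul_assoc]
  refine sq_span (par A M r) ha fun v => ?_
  change xN A r _ ∈ M
  rw [xN_val]
  by_cases hv : v = 0
  · rw [hv]; simp [A.x_zero]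
  rcases hp with hp | hp | hp | hp
  · simpa [hp, mul_comm] using key (Units.mk0 (v ^ 2) (pow_ne_zero 2 hv))
  · simpa [hp, mul_comm] using key (Units.mk0 (v ^ 2) (pow_ne_zero 2 hv))⁻¹
  · have := key (Units.mk0 v hv)
    rw [hp, mul_comm] at this
    exact_mod_cast this
  · have := key (Units.mk0 v hv)⁻¹
    rw [hp, mul_comm] at this
    simp only [Units.val_inv_eq_inv_val, Units.val_mk0, _root_.inv_zpow', neg_neg] at this
    exact_mod_cast this

theorem two_gen [Finite K] (A : Sys D K Γ) (hG : A.G = ⊤) (h3 : A.R3) {T : Tab} (hT : tab D = T) (c : Cfg) (r0 : ℕ)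
    (sts : List (ℕ × ℕ × ℕ × ℕ)) (h : chk T c r0 sts = true) (hc0 : (c.c0 : K) ≠ 0) (hz0 : (c.z0 : K) = 0)
    (hjj : Function.Surjective fun v : K => v ^ c.jj) (hsp : c.sp = true → ∃ x : K, x ≠ 0 ∧ x ≠ 1) :
    ∃ a b : Γ, Subgroup.closure ({a, b} : Set Γ) = ⊤ := by
  subst hT
  simp only [chk, Bool.and_eq_true, decide_eq_true_eq, List.all_eq_true] at h
  obtain ⟨⟨⟨⟨⟨⟨h1, hs, hβ⟩, h4⟩, h5⟩, h6⟩, h7⟩, h8⟩ := h
  have hr0 : r0 < D.nroots := by simp only [fOK, decide_eq_true_eq] at h4; exact h4.1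
  lift r0 to Rt D using hr0
  obtain ⟨L, hL⟩ : ∃ L : List (Nd D), c.L = L.map Fin.val :=
    ⟨c.L.pmap (fun i (hi : i < D.rank) => (⟨i, hi⟩ : Nd D)) (show ∀ x ∈ c.L, x < D.rank from h1), by
      rw [List.map_pmap]; simp⟩
  obtain ⟨κ, hκ⟩ := IsCyclic.exists_monoid_generator (α := Kˣ)
  set s : Rt D := ⟨c.s, hs⟩
  set β : Rt D := ⟨c.β, hβ⟩
  have hβ' : c.β = β := rfl
  rw [hβ', prN, ← pr_eq_tab rfl] at h6
  refine ⟨A.h β κ * A.x r0 1, A.x s (if c.fl = true then 1 else 0) * A.nw L, ?_⟩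
  set M := Subgroup.closure ({A.h β κ * A.x r0 1, A.x s (if c.fl = true then 1 else 0) * A.nw L} : Set Γ)
  have ha : A.h β κ * A.x r0 1 ∈ M := Subgroup.subset_closure (by simp)
  have hb : A.x s (if c.fl = true then 1 else 0) * A.nw L ∈ M := Subgroup.subset_closure (by simp)
  have hcomm : Commute (A.h β κ) (A.x r0 1) := by
    have := A.h_conj β r0 κ 1
    rw [h6, zpow_zero, mul_one, mul_inv_eq_iff_eq_mul] at this
    exact this
  have hhp : ∀ n : ℕ, A.h β κ ^ n = A.h β (κ ^ n) := by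
    intro n
    induction n with
    | zero => simp [A.h_one]
    | succ n ih => rw [pow_succ, pow_succ, ih, h3]
  have hxp : ∀ n : ℕ, A.x r0 1 ^ n = A.x r0 n := by
    intro n
    induction n with
    | zero => simp [A.x_zero]
    | succ n ih => rw [pow_succ, ih, ← A.add]; simp
  have hh : A.h β κ ∈ M := by
    let _ := Fintype.ofFinite K
    have := M.pow_mem ha (Fintype.card K)
    rwa [hcomm.mul_pow, hhp, hxp, FiniteField.cast_card_eq_zero, A.x_zero, mul_one,
      show κ ^ Fintype.card K = κ from Units.ext (by rw [Units.val_pow_eq_pow_val, FiniteField.pow_card])] at this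
  have hx : A.x r0 1 ∈ M := (M.mul_mem_cancel_left hh).1 ha
  have H : Hyp A M c κ L s β := by
    refine ⟨hL, rfl, rfl, hb, hh, hc0, hz0, hjj, fun e e' => ?_⟩
    obtain ⟨x, x0, x1⟩ := hsp e
    obtain ⟨n, hn⟩ := hκ (Units.mk0 x x0)
    simp only [e', one_pow] at hn
    exact x1 (by simpa using (congrArg Units.val hn).symm)
  obtain ⟨g, hg, a, hga⟩ := H.conj r0 h4
  have h9 := M.mul_mem (M.mul_mem hg hx) (M.inv_mem hg)
  rw [hga, ev_len h5, hL, wN_val, xN_val, mul_one] at h9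
  rw [hL, wN_val, hβ', prN, ← pr_eq_tab rfl] at h7
  have h10 := full_of hκ hh a.ne_zero h9 h7
  rw [eq_top_iff, ← hG]
  refine H.run_sound sts (fun k hk => ?_) h8
  rw [List.mem_singleton.1 hk, hL, wN_val]
  exact h10

end CA.Chev.H14
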