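import Cfsg.Agent.Lib.Lie.H22E6a

/-! Rows of the certificate for `²E₆(2)`. -/

set_option autoImplicit false
set_option linter.all false
set_option maxRecDepth 100000
set_option Elab.async false

namespace CA.H22E6
open CA.SchurPc CA.SchurLow CA.PcEx CA.CNet CA.CWord
noncomputable section

theorem r0 : P 0 := by decide +kernel
theorem r1 : P 1 := by decide +kernel
theorem r2 : P 2 := by decide +kernel
theorem r3 : P 3 := by decide +kernel
theorem r4 : P 4 := by decide +kernel
theorem r5 : P 5 := by decide +kernel

end
end CA.H22E6
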