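import Cfsg.Agent.Lib.Lie.H22E6a

/-! Rows of the certificate for `²E₆(2)`. -/

set_option autoImplicit false
set_option linter.all false
set_option maxRecDepth 100000
set_option Elab.async false

namespace CA.H22E6
open CA.SchurPc CA.SchurLow CA.PcEx CA.CNet CA.CWord
noncomputable section

theorem r6 : P 6 := by decide +kernel
theorem r7 : P 7 := by decide +kernel
theorem r8 : P 8 := by decide +kernel
theorem r9 : P 9 := by decide +kernel
theorem r10 : P 10 := by decide +kernel
theorem r11 : P 11 := by decide +kernel
theorem r12 : P 12 := by decide +kernel
theorem r13 : P 13 := by decide +kernel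
theorem r14 : P 14 := by decide +kernel

end
end CA.H22E6
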