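import Cfsg.Agent.Lib.Lie.H22E6a

/-! Rows of the certificate for `²E₆(2)`. -/

set_option autoImplicit false
set_option linter.all false
set_option maxRecDepth 100000
set_option Elab.async false

namespace CA.H22E6
open CA.SchurPc CA.SchurLow CA.PcEx CA.CNet CA.CWord
noncomputable section

theorem r15 : P 15 := by decide +kernel
theorem r16 : P 16 := by decide +kernel
theorem r17 : P 17 := by decide +kernel
theorem r18 : P 18 := by decide +kernel
theorem r19 : P 19 := by decide +kernel
theorem r20 : P 20 := by decide +kernel
theorem r21 : P 21 := by decide +kernel
theorem r22 : P 22 := by decide +kernel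
theorem r23 : P 23 := by decide +kernel
theorem r24 : P 24 := by decide +kernel
theorem r25 : P 25 := by decide +kernel
theorem r26 : P 26 := by decide +kernel
theorem r27 : P 27 := by decide +kernel
theorem r28 : P 28 := by decide +kernel
theorem r29 : P 29 := by decide +kernel
theorem r30 : P 30 := by decide +kernel
theorem r31 : P 31 := by decide +kernel
theorem r32 : P 32 := by decide +kernel
theorem r33 : P 33 := by decide +kernel
theorem r34 : P 34 := by decide +kernel
theorem r35 : P 35 := by decide +kernel

end
end CA.H22E6
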