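import Cfsg.Agent.Lib.Lie.H22E6f

/-! The 2-part of the multiplier of `²E₆(2)`. -/

set_option autoImplicit false
set_option linter.all false

namespace CA.H22E6
open Cfsg CA.SchurPc CA.SchurLow CA.PcEx CA.CNet CA.CWord CA.Chev CA.Chev.Twist Cfsg.Lie CA.BNBasic

theorem rowOK_of {C : PC} {chk chk' : List ℕ → List ℕ → Bool} {i : ℕ} (h : C.rowOK chk' i = true)
    (h' : ∀ j, i ≤ j → j < C.K → chk (C.lhs i j) (C.rhs i j) = true) (hi : i < C.K) : C.rowOK chk i = true := by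
  have h3 : i + Nat.sub C.K i ≤ C.K := by show i + (C.K - i) ≤ _; omega
  unfold PC.rowOK at h ⊢
  generalize Nat.sub C.K i = n at h h3
  induction n with
  | zero => rfl
  | succ n ih =>
    have h4 := band_iff.1 ((force_eq _ _).symm.trans h)
    exact (force_eq _ _).trans (band_iff.2 ⟨band_iff.2 ⟨(band_iff.1 h4.1).1, h' (i + n) (by omega) (by omega)⟩,
      ih h4.2 (by omega)⟩)

theorem ro_val (r : Rt chevE6) : ro r.val = r := Fin.ext (Nat.mod_eq_of_lt r.2)
theorem val_ro {n : ℕ} (h : n < 72) : (ro n).val = n := Nat.mod_eq_of_lt h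
theorem pos_ro {n : ℕ} (h1 : 36 ≤ n) (h : n < 72) : Pos (ro n) := show 36 ≤ (ro n).val by rwa [val_ro h]

variable {K Γ : Type*} [Field K] [Group Γ] (A : Sys chevE6 K Γ) (u : Kˣ)

/-- generators of the unipotent group -/
def Y (a : ℕ) : Γ := A.x (ro (36 + a / 2)) (u ^ (a % 2))
/-- products of root elements -/
def ev (l : List (ℕ × ℕ)) : Γ := (l.map fun p => A.x (ro p.1) (u ^ p.2)).prod
/-- products of monomial elements -/
def N (l : List (ℕ × ℕ)) : Γ := (l.map fun p => A.n (sim (nd p.1)) (u ^ p.2)).prod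
/-- generators of the Sylow subgroup -/
noncomputable def Z (a : ℕ) : Γ := ev A u (zl a)

@[simp] theorem ev_nil : ev A u [] = 1 := rfl
@[simp] theorem ev_cons (p : ℕ × ℕ) (l : List (ℕ × ℕ)) : ev A u (p :: l) = A.x (ro p.1) (u ^ p.2) * ev A u l := by
  simp [ev]
theorem ev_append (l l' : List (ℕ × ℕ)) : ev A u (l ++ l') = ev A u l * ev A u l' := by simp [ev]
theorem N_cons (p : ℕ × ℕ) (l : List (ℕ × ℕ)) : N A u (p :: l) = A.n (sim (nd p.1)) (u ^ p.2) * N A u l := by
  simp [N]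

theorem pv_Z (w : List ℕ) : pv (Z A u) w = ev A u (fz w) := by
  induction w with
  | nil => rfl
  | cons a w ih => rw [pv_cons, ih, fz, fz, List.flatMap_cons, ev_append]; rfl

theorem ev_mem {l : List (ℕ × ℕ)} (h : ps l = true) : ev A u l ∈ A.U := Subgroup.list_prod_mem _ fun g hg => by
  obtain ⟨p, hp, rfl⟩ := List.mem_map.1 hg
  have := of_decide_eq_true (List.all_eq_true.1 h p hp)
  exact A.x_mem (pos_ro this.1 this.2) _

theorem N_mem (l : List (ℕ × ℕ)) : N A u l ∈ A.N ∧ A.Act (N A u l) (wd (l.map fun p => nd p.1)) := by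
  induction l with
  | nil => exact ⟨one_mem _, Sys0.Act.one⟩
  | cons p l ih => rw [N_cons, List.map_cons, wd_cons]; exact ⟨mul_mem (A.n_mem _ _) ih.1, (A.act_sim _ _).mul ih.2⟩

variable {u} (h2 : (1 : K) + 1 = 0) (hu : (u : K) ^ 2 = 1 + u)
include h2

theorem cast_odd {c : ℤ} (h : c % 2 = 1) : (c : K) = 1 := by
  rw [← Int.emod_add_mul_ediv c 2, h]
  push_cast
  rw [show (2 : K) = 0 from one_add_one_eq_two.symm.trans h2]; simp

include hu

theorem cube : (u : K) ^ 3 = 1 := by linear_combination (u + 1) * hu + u * h2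

theorem x_pw {r : ℕ} (h : 36 ≤ r) (k : ℕ) : A.x (ro r) (u ^ k) = pv (Y A u) (pw r k) := by
  have e1 : 36 + (r - 36) = r := by omega
  have e2 : 36 + (2 * (r - 36) + 1) / 2 = r := by omega
  have e3 : (2 * (r - 36) + 1) % 2 = 1 := by omega
  rw [pow_eq_pow_mod k (cube h2 hu), pw]
  split_ifs with a b
  · simp [Y, a, e1]
  · simp [Y, b, e2, e3]
  · rw [show k % 3 = 2 by omega, hu, A.add]; simp [Y, e1, e2, e3]

theorem ev_wl {l : List (ℕ × ℕ)} (h : ps l = true) : ev A u l = pv (Y A u) (wl l) := by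
  induction l with
  | nil => rfl
  | cons p l ih =>
    rw [ps, List.all_cons, Bool.and_eq_true] at h
    rw [ev_cons, ih h.2, wl, wl, List.flatMap_cons, pv_append, x_pw A h2 hu (of_decide_eq_true h.1).1]

theorem on6 : On c6 (Y A u) id c6.K := by
  intro i j hij hj
  have hj : j < 72 := hj
  have t : c6.tab (c6.idx i j) = if i = j then [] else if sm (i / 2) (j / 2) = 0 then [j] else
      j :: pw (sm (i / 2) (j / 2)) (i % 2 + j % 2) := by
    show c6.tab (i * 72 + j) = _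
    simp only [c6, force_eq, show (i * 72 + j) / 72 = i by omega, show (i * 72 + j) % 72 = j by omega]
  show pv _ (c6.lhs i j) = pv _ (c6.rhs i j)
  rcases hij.eq_or_lt with rfl | hlt
  · rw [c6.lhs_self, c6.rhs_self, t, if_pos rfl, pv_replicate, show c6.l = 2 from rfl, sq, Y, ← A.add, ← one_mul (_ ^ _),
      ← add_mul, h2, zero_mul, A.x_zero]; rfl
  rw [c6.lhs_lt hlt, c6.rhs_lt hlt, t, if_neg hlt.ne, pv_cons, pv_cons, pv_cons, pv_nil, mul_one]
  obtain ⟨k1, k2⟩ := k6 (j / 2) (by omega)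
  rcases (show i / 2 ≤ j / 2 by omega).eq_or_lt with e | e
  · rw [e, if_pos k1, pv_cons, pv_nil, mul_one, Y, Y, e, A.x_comm]
  obtain ⟨k3, k4⟩ := k2 _ e
  have p1 := pos_ro (n := 36 + i / 2) (by omega) (by omega)
  have p2 := pos_ro (n := 36 + j / 2) (by omega) (by omega)
  rw [← val_ro (n := 36 + i / 2) (by omega), ← val_ro (n := 36 + j / 2) (by omega), ← tab_E6, tab_cT, commTerms_eq,
    List.map_map] at k4
  rw [Y, Y, A.comm (fun e' => by
    have := congrArg Fin.val e'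
    rw [val_ro (by omega), val_ro (by omega)] at this; omega) (nil_pos.ne_ng p1 p2), CA.Chev.cw, mul_assoc]
  split_ifs at k4 ⊢ with a
  · rw [List.map_eq_nil_iff.1 k4]; simp [Y]
  · obtain ⟨c, l, e1, e2, e3⟩ := List.map_eq_cons_iff.1 k4
    simp only [Function.comp, Prod.mk.injEq] at e2
    obtain ⟨e4, e5, e6⟩ := e2
    rw [e1, List.map_eq_nil_iff.1 e3, pv_cons, ← x_pw A h2 hu (k3.resolve_left a).1, ← e4, ro_val]
    simp [Y, e6, cast_odd h2 e5, pow_add, show ∀ t : K, -t = t from fun t => by linear_combination (-t) * h2]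

theorem eqL_spec {l l' : List (ℕ × ℕ)} (h : eqL l l' = true) : ev A u l = ev A u l' := by
  obtain ⟨h, e⟩ := band_iff.1 h
  obtain ⟨a, b⟩ := band_iff.1 h
  rw [ev_wl A h2 hu a, ev_wl A h2 hu b]
  exact On.eqw c6_wf (lo := 0) (zero_add _) (by rw [show (0 + ·) = id from funext zero_add]; exact on6 A h2 hu)
    (by simp) e

theorem n_x (m p : ℕ × ℕ) : A.n (sim (nd m.1)) (u ^ m.2) * A.x (ro p.1) (u ^ p.2) =
    A.x (ro (mv m p).1) (u ^ (mv m p).2) * A.n (sim (nd m.1)) (u ^ m.2) := by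
  rw [← mul_inv_eq_iff_eq_mul, A.n_conj, refl_sim, pr_sim_left, wt_eq_tab tab_E6]
  have e1 : ro (mv m p).1 = sR (nd m.1) (ro p.1) := by rw [← ro_val (sR _ _), sR_val, ← tab_rf, tab_E6]; rfl
  have e2 : (et (sim (nd m.1)) (ro p.1) : K) = 1 := by
    have := Sys.et_cast_sq (K := K) (sim (nd m.1)) (ro p.1)
    have : ((et (sim (nd m.1)) (ro p.1) : K) - 1) ^ 2 = 0 := by
      linear_combination this + (1 - (et (sim (nd m.1)) (ro p.1) : K)) * h2
    exact sub_eq_zero.1 (pow_eq_zero_iff two_ne_zero |>.1 this)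
  rw [e1, e2, one_mul, mv]
  generalize -tabE6.wt (ro p.1) (nd m.1) = w
  have e3 : ((u : K) ^ m.2) ^ w = ((u : K) ^ m.2) ^ (w % 3).toNat := by
    rw [← zpow_natCast _ (w % 3).toNat, Int.toNat_of_nonneg (by omega)]
    conv_lhs => rw [← Int.emod_add_mul_ediv w 3]
    rw [zpow_add₀ (by simp), zpow_mul, zpow_ofNat, ← pow_mul, mul_comm m.2, pow_mul, cube h2 hu]; simp
  rw [Units.val_pow_eq_pow_val, e3, pow_add, pow_mul, mul_comm]

theorem N_ev (ms l : List (ℕ × ℕ)) : N A u ms * ev A u l = ev A u (act ms l) * N A u ms := by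
  induction ms with
  | nil => simp [N, act]
  | cons m ms ih =>
    rw [N_cons, mul_assoc, ih, ← mul_assoc, ← mul_assoc, show act (m :: ms) l = (act ms l).map (mv m) from rfl]
    congr 1
    induction act ms l with
    | nil => simp
    | cons p l ih => rw [ev_cons, ← mul_assoc, n_x A h2 hu, mul_assoc, ih, List.map_cons, ev_cons, mul_assoc]

theorem N_Z {g : ℕ} {v w : List ℕ} (h : eqL (act (MS g) (fz v)) (fz w) = true) :
    N A u (MS g) * pv (Z A u) v = pv (Z A u) w * N A u (MS g) := by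
  rw [pv_Z, pv_Z, N_ev A h2 hu, eqL_spec A h2 hu h]

theorem onZ {C : PC} (h : ∀ i < C.K, C.rowOK (fun u v => eqL (fz u) (fz v)) i = true) : On C (Z A u) id C.K :=
  fun i j a b => by rw [pv_Z, pv_Z]; exact eqL_spec A h2 hu (C.rowOK_spec (h i (a.trans_lt b)) a b).2

theorem gnY (h4 : ∀ t : K, t = 0 ∨ ∃ k : ℕ, t = u ^ k) : A.U ≤ gn (Y A u) id c6.K := A.X_le.2 fun r hr t => by
  rcases h4 t with rfl | ⟨k, rfl⟩
  · exact A.x_zero r ▸ one_mem _
  · have h1 : 36 ≤ r.val := hr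
    have h3 : r.val < 72 := r.2
    rw [← ro_val r, x_pw A h2 hu h1]
    refine pv_mem' fun a ha => Subgroup.subset_closure ⟨a, show a < 72 from ?_, rfl⟩
    unfold pw at ha
    split_ifs at ha <;> simp at ha <;> omega

theorem cardZ [Finite Γ] (h4 : ∀ t : K, t = 0 ∨ ∃ k : ℕ, t = u ^ k) (hK : Nat.card K = 2 ^ 2) :
    2 ^ 36 ≤ Nat.card (gn (Z A u) id 36) := by
  refine echelon (y := Y A u) (K := 72) (fun i => (on6 A h2 hu).not_mem c6_wf rfl ?_) (a := ld)
    (fun i j a b => (s2 j b).1 i a) (fun i a => (s2 i a).2.1) fun i a => ?_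
  · refine le_trans ?_ (Subgroup.card_le_of_le (gnY A h2 hu h4))
    rw [A.card_U, hK, ← pow_mul]; exact le_rfl
  · rw [Z, ev_wl A h2 hu (band_iff.1 (band_iff.1 (s1 i a)).1).2, (s2 i a).2.2.1, pv_cons, inv_mul_cancel_left]
    exact pv_mem (s2 i a).2.2.2

end CA.H22E6
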