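import Cfsg.Agent.Lib.Lie.H22E6g

/-! The 2-part of the multiplier of `²E₆(2)`: the twisted group. -/

set_option autoImplicit false
set_option linter.all false

namespace CA.H22E6
open Cfsg CA.SchurPc CA.SchurLow CA.PcEx CA.CNet CA.CWord CA.Chev CA.Chev.Twist Cfsg.Lie CA.BNBasic Subgroup

/-- the fusion element of a node -/
def gi (i : Nd chevE6) : ℕ := [3, 0, 2, 1, 2, 3].getD i.val 0
/-- its image in the Weyl group -/
noncomputable def nl (g : ℕ) : List (Nd chevE6) := (MS g).map fun p => nd p.1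

theorem t1 : ∀ i : Nd chevE6, gi i < 5 ∧ (∀ j, (j = i ∨ j = ιE6 i) ↔ j ∈ nl (gi i)) ∧
    (∀ j ∈ nl (gi i), apW tabE6 ((nl (gi i)).map Fin.val) (tabE6.simple j) < tabE6.n / 2) ∧
    (sk (gi i)).2 = if ιE6 i = i then 1 else 2 := by decide +kernel
theorem t2 : (∀ r : Rt chevE6, apW tabE6 ((nl 4).map Fin.val) r = r) ∧ act (MS 4) [(36, 0)] = [(36, 4)] := by
  decide +kernel

variable {K : Type*} [Field K] [Finite K] {α : K →+* K} (hq : ∀ t, α t = t ^ 2) (hα : ∀ t, α (α t) = t)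
  (hK : Nat.card K = 2 ^ 2) {u : Kˣ} (h2 : (1 : K) + 1 = 0) (hu : (u : K) ^ 2 = 1 + u)
  (h4 : ∀ t : K, t = 0 ∨ ∃ k : ℕ, t = u ^ k)

local notation "𝔸" => adjG chevE6 K

include hq h2 in
theorem σ_ev (l : List (ℕ × ℕ)) : (tE6 α).σ (ev 𝔸 u l) = ev 𝔸 u (l.map sg) := by
  induction l with
  | nil => exact map_one _
  | cons p l ih =>
    rw [ev_cons, map_mul, ih, List.map_cons, ev_cons, σ_x, TE6.f_eq, cast_odd h2 (s3 _), hq, ← pow_mul, one_mul, sg,
      ← TE6.ρ_val (α := α), ro_val, mul_comm p.2]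

theorem Z_one {a : ℕ} (h : 36 ≤ a) : Z 𝔸 u a = 1 := by
  rw [Z, zl, nth_eq_getD, List.getD_eq_default _ _ h]; rfl

include hq h2 hu in
theorem Z_mem (a : ℕ) : Z 𝔸 u a ∈ (𝔸).U ⊓ (tE6 α).G1 := by
  rw [U_inf_G1]
  rcases lt_or_ge a 36 with h | h
  · exact ⟨ev_mem _ _ (band_iff.1 (band_iff.1 (s1 a h)).1).2,
      (tE6 α).mem_F.2 ((σ_ev hq h2 _).trans (eqL_spec _ h2 hu (s1 a h)))⟩
  · exact Z_one (u := u) h ▸ one_mem _

include hq hα in
theorem N_G1 (g : ℕ) : N 𝔸 u (MS g) ∈ (tE6 α).G1 := by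
  have k1 : ∀ i, ιE6 i = i → (𝔸).n (sim i) (u ^ 0) ∈ (tE6 α).G1 := fun i h =>
    (tE6 α).n_mem_G1 ((ρ_sim i).trans (congrArg _ h)) (by simp [f_sim TE6.hc])
  have k2 : ∀ i j, ιE6 i ≠ i → ιE6 i = j → ∀ a, (𝔸).n (sim i) (u ^ a) * (𝔸).n (sim j) (u ^ (2 * a)) ∈ (tE6 α).G1 := by
    rintro i _ h rfl a
    have h := TE6.ty2 hα h
    have a1 := (tE6 α).X1_Op_le i ((h.mem_Op TE6.hc).2 ⟨(u ^ a : Kˣ), rfl⟩)
    have b := (tE6 α).X1_On_le i ((h.mem_On TE6.hc).2 ⟨-((u ^ a : Kˣ) : K)⁻¹, rfl⟩)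
    rw [map_neg, map_inv₀] at b
    have e : ((u ^ (2 * a) : Kˣ) : K) = (tE6 α).T.α (sim i) (u ^ a : Kˣ) := by
      rw [TE6.α_eq, hq, mul_comm, pow_mul]; rfl
    have := h.orth.n_mul (u ^ a) (u ^ (2 * a))
    rw [e] at this
    exact this ▸ mul_mem (mul_mem a1 b) a1
  match g with
  | 0 => exact mul_mem (k1 (nd 1) (by decide)) (one_mem _)
  | 1 => exact mul_mem (k1 (nd 3) (by decide)) (one_mem _)
  | 2 => exact (by simpa only [mul_one] using k2 (nd 2) (nd 4) (by decide) (by decide) 0 :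
      (𝔸).n (sim (nd 2)) (u ^ 0) * ((𝔸).n (sim (nd 4)) (u ^ (2 * 0)) * 1) ∈ _)
  | 3 => exact (by simpa only [mul_one] using k2 (nd 0) (nd 5) (by decide) (by decide) 0 :
      (𝔸).n (sim (nd 0)) (u ^ 0) * ((𝔸).n (sim (nd 5)) (u ^ (2 * 0)) * 1) ∈ _)
  | 4 => exact (by
      simpa only [mul_one, mul_assoc] using mul_mem (k2 (nd 0) (nd 5) (by decide) (by decide) 1)
        (k2 (nd 0) (nd 5) (by decide) (by decide) 0) :
      (𝔸).n (sim (nd 0)) (u ^ 1) * ((𝔸).n (sim (nd 5)) (u ^ (2 * 1)) *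
      ((𝔸).n (sim (nd 0)) (u ^ 0) * ((𝔸).n (sim (nd 5)) (u ^ (2 * 0)) * 1))) ∈ _)
  | g + 5 => exact one_mem _

include hq hα hK h2 hu in
theorem H_eq : (𝔸).H ⊓ (tE6 α).G1 = zpowers (N 𝔸 u (MS 4)) := by
  have c : Nat.card ↥((𝔸).H ⊓ (tE6 α).G1) = 3 := by
    have : 3 * _ = 9 := TE6.card_H hq hα le_rfl hK
    omega
  have a : wd (nl 4) = 1 := Equiv.ext fun r => Fin.ext (by rw [← apW_eq, tab_E6]; exact t2.1 r)
  have l : zpowers (N 𝔸 u (MS 4)) ≤ (𝔸).H ⊓ (tE6 α).G1 := zpowers_le.2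
    ⟨(𝔸).mem_H_of_act (N_mem _ _ _).1 (a ▸ (N_mem _ _ _).2), N_G1 hq hα 4⟩
  haveI : Finite ↥((𝔸).H ⊓ (tE6 α).G1) := Nat.finite_of_card_ne_zero (by omega)
  refine (eq_of_le_of_card_ge l (c.trans_le ?_)).symm
  rcases (Nat.dvd_prime Nat.prime_three).1 (c ▸ card_dvd_of_le l) with e | e
  · have := N_ev 𝔸 h2 hu (MS 4) [(36, 0)]
    rw [t2.2, zpowers_eq_bot.1 (card_eq_one.1 e), one_mul, mul_one, ev_cons, ev_cons, mul_left_inj] at this
    have := (𝔸).x_injective _ this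
    exact absurd (by linear_combination -hu - u * (this + u * cube h2 hu) :
      (1 : K) = 0) one_ne_zero
  · exact e.ge

variable {G : Type*} [Group G] [Finite G] {e : G →* chevE6.group K} (he : Function.Injective e)
  (hr : e.range = (tE6 α).G1) (hn : ¬ 2 ^ 37 ∣ Nat.card G)

include hr in
theorem eL {g : chevE6.group K} (h : g ∈ (tE6 α).G1) : e (Function.invFun e g) = g :=
  Function.invFun_eq (exists_of_range hr h)

include hr in
theorem e_pv {z : ℕ → chevE6.group K} (h : ∀ a, z a ∈ (tE6 α).G1) (w : List ℕ) :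
    e (pv (Function.invFun e ∘ z) w) = pv z w := by
  rw [map_pv]; exact pv_congr fun a _ => eL hr (h a)

include hq hα hK h2 hu h4 he hr

theorem gn_eq {z : ℕ → chevE6.group K} (h : ∀ a < 36, z a = Z 𝔸 u a) :
    2 ^ 36 ≤ Nat.card (gn (Function.invFun e ∘ z) id 36) ∧
    ∀ g, g ∈ gn (Function.invFun e ∘ z) id 36 ↔ e g ∈ (𝔸).U := by
  have e1 : (gn (Function.invFun e ∘ z) id 36).map e = gn (Z 𝔸 u) id 36 := by
    rw [MonoidHom.map_closure, Set.image_image]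
    exact congrArg _ (Set.image_congr fun a ha => (congrArg (fun x => e (Function.invFun e x)) (h a ha)).trans
      (eL hr (Z_mem hq h2 hu a).2))
  haveI : Finite (chevE6.group K) := inferInstance
  have e2 := cardZ 𝔸 h2 hu h4 hK
  have e3 : gn (Z 𝔸 u) id 36 = (𝔸).U ⊓ (tE6 α).G1 := eq_of_le_of_card_ge ((closure_le _).2 (by
    rintro _ ⟨a, -, rfl⟩; exact Z_mem hq h2 hu a)) (TE6.card_U hq hα le_rfl hK ▸ e2)
  refine ⟨by rwa [← e1, card_map_of_injective he] at e2, fun g => ?_⟩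
  rw [← mem_map_iff_mem he, e1, e3]
  exact and_iff_left (mem_of_range hr g)

include hn

theorem grp : Grp c2 G := by
  classical
  let z : ℕ → chevE6.group K := fun a => if a < 36 then Z 𝔸 u a else N 𝔸 u (MS (a - 36))
  have z1 : ∀ a, z a ∈ (tE6 α).G1 := fun a => by
    simp only [z]; split_ifs
    exacts [(Z_mem hq h2 hu a).2, N_G1 hq hα _]
  have z2 : ∀ w : List ℕ, (∀ a ∈ w, a < 36) → pv z w = pv (Z 𝔸 u) w := fun w h => pv_congr fun a ha => if_pos (h a ha)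
  refine ⟨Nat.prime_two, hn, Function.invFun e ∘ z, fun v w => decide (pv (Function.invFun e ∘ z) v =
    pv (Function.invFun e ∘ z) w), fun _ _ => of_decide_eq_true, fun i hi => rowOK_of (q2 i hi) (fun j a b =>
      decide_eq_true (he ?_)) hi, lall_iff.2 fun f hf => decide_eq_true (he ?_), ?_⟩
  rotate_left 2
  · have := (gn_eq hq hα hK h2 hu h4 he hr (z := z) fun a ha => if_pos ha).1
    generalize Function.invFun e ∘ z = y at this ⊢
    exact this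
  · have := mem_rule c2_wf a b
    have hb : j < 36 := b
    rw [e_pv hr z1, e_pv hr z1, z2 _ fun c hc => by have := this.1 c hc; omega, z2 _ fun c hc => (this.2.1 c hc).2]
    exact onZ _ h2 hu q2 i j a b
  · have o := band_iff.1 (lall_iff.1 (band_iff.1 (band_iff.1 (band_iff.1 c2_wf).1).2).2 f hf)
    have : z (Nat.add c2.K f.1) = N 𝔸 u (MS f.1) := by
      show z (36 + f.1) = _
      simp only [z]; rw [if_neg (by omega), Nat.add_sub_cancel_left]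
    rw [e_pv hr z1, e_pv hr z1, lapp_eq, pv_cons, pv_append, pv_cons, pv_nil, mul_one, this, z2 _ (c2.ok_iff.1 o.1),
      z2 _ (c2.ok_iff.1 o.2)]
    exact N_Z _ h2 hu (f2 f hf)

theorem st : St G (Multiplicative (ZMod 2 × ZMod 2)) := by
  obtain ⟨c, m⟩ := gn_eq hq hα hK h2 hu h4 he hr (z := Z 𝔸 u) fun _ _ => rfl
  have z1 := fun a => (Z_mem hq h2 hu a).2
  have n1 := fun g => eL hr (N_G1 (u := u) hq hα g)
  have ok := ok_of_node (TE6.node hα)
  refine st_of_pc (K0 := 36) (a0 := 2) c3_wf rfl c3_l rfl c3_cen _ c3_ab (X := Function.invFun e ∘ Z 𝔸 u)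
    (fun i j a b => he (by rw [e_pv hr z1, e_pv hr z1]; exact onZ _ h2 hu q3 i j a b))
    (fun a ha => he ((eL hr (z1 a)).trans ((Z_one ha).trans (map_one e).symm))) c hn (ok.bn he hr)
    (fun g hg => (𝔸).U_le_B ((m g).1 hg))
    (fun n d => ∃ g < 5, n = Function.invFun e (N 𝔸 u (MS g)) ∧ d = (sk g).2) ?_ (fun b hb => ?_) ?_ fun Z _ h h' => ?_
  · rintro _ _ ⟨g, hg, rfl, rfl⟩
    refine ⟨(sk g).1, _, (f3 g hg).2.1, c3_f g hg, (f3 g hg).1, fun c hc h => he ?_⟩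
    have := N_Z 𝔸 h2 hu ((f3 g hg).2.2 c hc h)
    rw [map_mul, map_mul, n1, e_pv hr z1, Function.comp, eL hr (z1 c)]
    rw [pv_cons, pv_nil, mul_one] at this
    exact this.symm
  · obtain ⟨v, hv, h, hh, e1⟩ := (tE6 α).mem_B1 ⟨hb, mem_of_range hr b⟩
    obtain ⟨v, rfl⟩ := exists_of_range hr ((tE6 α).mem_G1_of_U hv.1 hv.2)
    obtain ⟨k, rfl⟩ := mem_zpowers_iff.1 (H_eq hq hα hK h2 hu ▸ hh)
    rw [← n1 4, ← map_zpow, ← map_mul] at e1
    exact he e1 ▸ mul_mem (mem_sup_left ((m v).2 hv.1)) (mem_sup_right (zpow_mem (Subgroup.subset_closure (by exact ⟨4, by omega, rfl, rfl⟩)) k))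
  · rintro ⟨s, i, hi⟩
    obtain ⟨a1, a2, a3, a4⟩ := t1 i
    have o : ∀ j, j ∈ orb (tE6 α).ν i ↔ j ∈ nl (gi i) := fun j => by
      rw [← a2]
      by_cases h : ιE6 i = i
      · rw [orb1 h, h]; simp
      · rw [(TE6.ty2 hα h).orb_eq]; rfl
    have ac : (𝔸).Act (N 𝔸 u (MS (gi i))) (wJ (orb (tE6 α).ν i)) := wJ_eq_wd tab_E6 o a3 ▸ (N_mem _ _ _).2
    refine ⟨_, _, ?_, ⟨gi i, a1, rfl, rfl⟩, ?_⟩
    · have := (inCell_sr (P := ok.bn he hr) ⟨s, i, hi⟩).mul_right (b := s⁻¹ * Function.invFun e (N 𝔸 u (MS (gi i))))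
        (show e _ ∈ (𝔸).B by
          rw [map_mul, map_inv, hi, n1]
          exact (𝔸).H_le_B ((𝔸).mem_H_of_act_eq (ok.nO_spec i).1.1 (N_mem _ _ _).1 (ok.nO_spec i).2 ac))
      rwa [mul_inv_cancel_left] at this
    set V := (gn (Function.invFun e ∘ Z 𝔸 u) id 36).comap
      (MulAut.conj (Function.invFun e (N 𝔸 u (MS (gi i))))⁻¹).toMonoidHom
    set Q := ((tE6 α).X1 ((tE6 α).Op i)).comap e
    have q1 : Q ≤ gn (Function.invFun e ∘ Z 𝔸 u) id 36 := fun g hg => (m g).2 ((𝔸).X_mono (fun _ h => h.1) hg.1)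
    have q2 : V ⊓ Q = ⊥ := eq_bot_iff.2 fun g hg => by
      have b1 := (m _).1 (mem_comap.1 hg.1)
      have b2 := ac.conj_X' (T := {r | ¬ Pos r}) (fun r h => by rw [wJ_inv]; exact wJ_neg h.1 h.2) hg.2.1
      have b3 := (𝔸).U_inf_V (by simpa [n1] using b1) b2
      exact he (by simpa [mul_assoc] using congrArg (fun x => N 𝔸 u (MS (gi i)) * x * (N 𝔸 u (MS (gi i)))⁻¹) b3)
    have q3 : Nat.card Q = 2 ^ (sk (gi i)).2 := by
      rw [← card_map_of_injective he, map_comap_eq_self (hr ▸ (tE6 α).X1_Op_le i), TE6.card_Op hq hα le_rfl hK, a4]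
      split_ifs with h
      exacts [by rw [lg1 h], by rw [(TE6.ty2 hα h).lg]]
    rw [← q3, ← relIndex_bot_left, ← q2, inf_relIndex_right]
    exact relIndex_le_of_le_right q1 index_ne_zero_of_finite
  · haveI : Finite Z := Nat.finite_of_card_ne_zero (by omega)
    haveI : Nontrivial Z := Finite.one_lt_card_iff_nontrivial.1 (by omega)
    haveI : IsKleinFour Z := ⟨h, (Monoid.exponent_eq_prime_iff Nat.prime_two).2 fun g hg =>
      haveI := Fact.mk Nat.prime_two; orderOf_eq_prime (by rw [sq, h']) hg⟩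
    exact IsKleinFour.nonempty_mulEquiv

end CA.H22E6
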