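/-
The Chevalley group of type `B₂` and the five-dimensional orthogonal group over an arbitrary field.
-/
import Cfsg.Agent.Lib.Lie.H23Iso

set_option autoImplicit false

namespace CA.Chev.B2O

open Matrix Cfsg.Lie Cfsg.Lie.ChevalleyDatum Subgroup CA.CForm CA.CForm.Form
open scoped commutatorElement

variable {K : Type*} [Field K]

/-- the index set -/
abbrev I := Unit ⊕ (Fin 2 ⊕ Fin 2)

/-- vectors -/
def mk (z a b c d : K) : I → K := Sum.elim (fun _ => z) (Sum.elim ![a, b] ![c, d])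

theorem mk_inj {z a b c d z' a' b' c' d' : K} :
    mk z a b c d = mk z' a' b' c' d' ↔ z = z' ∧ a = a' ∧ b = b' ∧ c = c' ∧ d = d' :=
  ⟨fun h => ⟨congrFun h (.inl ()), congrFun h (.inr (.inl 0)), congrFun h (.inr (.inl 1)), congrFun h (.inr (.inr 0)),
    congrFun h (.inr (.inr 1))⟩, by rintro ⟨rfl, rfl, rfl, rfl, rfl⟩; rfl⟩

theorem exists_mk (v : I → K) : ∃ z a b c d, v = mk z a b c d :=
  ⟨v (.inl ()), v (.inr (.inl 0)), v (.inr (.inl 1)), v (.inr (.inr 0)), v (.inr (.inr 1)), by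
    ext (i | i | i)
    · rfl
    all_goals fin_cases i <;> rfl⟩

theorem Q_mk (z a b c d : K) : Cfsg.quadFormOdd 2 K (mk z a b c d) = z ^ 2 + (a * c + b * d) := by
  simp [Cfsg.quadFormOdd, mk]

theorem mk_add (z a b c d z' a' b' c' d' : K) :
    mk z a b c d + mk z' a' b' c' d' = mk (z + z') (a + a') (b + b') (c + c') (d + d') := by
  ext (i | i | i)
  · rfl
  all_goals fin_cases i <;> rfl

theorem diag_mk (z a b c d z' a' b' c' d' : K) :
    diagonal (mk z a b c d) *ᵥ mk z' a' b' c' d' = mk (z * z') (a * a') (b * b') (c * c') (d * d') := by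
  ext (i | i | i) <;> rw [mulVec_diagonal]
  · rfl
  all_goals fin_cases i <;> rfl

/-- the root elements -/
def T (r : ℕ) (t z a b c d : K) : I → K :=
  match r with
  | 0 => mk z a b (c + t * b) (d - t * a)
  | 1 => mk (z + t * a) a b (c - 2 * t * z - t ^ 2 * a) d
  | 2 => mk (z + t * b) a b c (d - 2 * t * z - t ^ 2 * b)
  | 3 => mk z a (b + t * a) (c - t * d) d
  | 4 => mk z (a + t * b) b c (d - t * c)
  | 5 => mk (z - t * d) a (b + 2 * t * z - t ^ 2 * d) c d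
  | 6 => mk (z - t * c) (a + 2 * t * z - t ^ 2 * c) b c d
  | _ => mk z (a - t * d) (b + t * c) c d

/-- numbering of the index set -/
def ix (n : ℕ) : I := match n with
  | 0 => .inl ()
  | 1 => .inr (.inl 0)
  | 2 => .inr (.inl 1)
  | 3 => .inr (.inr 0)
  | _ => .inr (.inr 1)

/-- integer matrices from lists -/
def ml (L : List (ℕ × ℕ × ℤ)) : Matrix I I ℤ := (L.map fun x => single (ix x.1) (ix x.2.1) x.2.2).sum

theorem e_eq : ∀ r : Fin 8, (clB 2 le_rfl).model.e (isoV2 r) = ml ([[(3, 2, 1), (4, 1, -1)], [(0, 1, 1), (3, 0, -2)],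
    [(0, 2, 1), (4, 0, -2)], [(2, 1, 1), (3, 4, -1)], [(1, 2, 1), (4, 3, -1)], [(0, 4, -1), (2, 0, 2)],
    [(0, 3, -1), (1, 0, 2)], [(1, 4, -1), (2, 3, 1)]].getD r []) ∧ (clB 2 le_rfl).model.q (isoV2 r) =
    ml ([[], [(3, 1, -1)], [(4, 2, -1)], [], [], [(2, 4, -1)], [(1, 3, -1)], []].getD r []) := by decide +kernel

theorem x_mk (r : Fin 8) (t z a b c d : K) :
    (clB 2 le_rfl).model.x (isoV2 r) t *ᵥ mk z a b c d = T r t z a b c d := by
  have e3 : ∀ (a d : I) (c : ℤ) (u : I → K), Model.cm K (single a d c) *ᵥ u = (c * u d) • Pi.single a (1 : K) :=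
    fun a d c u => by
      rw [show Model.cm K (single a d c) = single a d (c : K) from map_single _ _ _ (Int.castRingHom K), single_mulVec]
      ext x; by_cases e : x = a <;> simp [e]
  rw [Model.x, (e_eq r).1, (e_eq r).2]
  fin_cases r <;> simp only [ml, add_mulVec, one_mulVec, smul_mulVec, List.getD_cons_succ, List.getD_cons_zero,
    List.map_cons, List.map_nil, List.sum_cons, List.sum_nil, map_add, map_zero, e3, zero_mulVec] <;>
    ext (i | i | i) <;> (try fin_cases i) <;> simp [T, mk, ix] <;> ring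

theorem Q_T (r : ℕ) (t z a b c d : K) :
    Cfsg.quadFormOdd 2 K (T r t z a b c d) = Cfsg.quadFormOdd 2 K (mk z a b c d) := by
  unfold T; split <;> simp only [Q_mk] <;> ring

variable (K) in
/-- the orthogonal group -/
abbrev O := Cfsg.isometryGroup K (Cfsg.quadFormOdd 2 K)

theorem polar (g : O K) {z a b c d z' a' b' c' d' y e f h k y' e' f' h' k' : K}
    (h1 : g.1.1 *ᵥ mk z a b c d = mk y e f h k) (h2 : g.1.1 *ᵥ mk z' a' b' c' d' = mk y' e' f' h' k') :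
    y ^ 2 + (e * h + f * k) = z ^ 2 + (a * c + b * d) ∧
    2 * y * y' + e * h' + e' * h + f * k' + f' * k = 2 * z * z' + a * c' + a' * c + b * d' + b' * d := by
  have e1 := mem_isometryGroup.1 g.2 (mk z a b c d)
  have e2 := mem_isometryGroup.1 g.2 (mk z' a' b' c' d')
  have e3 := mem_isometryGroup.1 g.2 (mk z a b c d + mk z' a' b' c' d')
  rw [mulVec_add, h1, h2, mk_add, mk_add] at e3
  rw [h1] at e1
  rw [h2] at e2
  simp only [Q_mk] at e1 e2 e3
  exact ⟨e1, by linear_combination e3 - e1 - e2⟩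

section
variable {G : Subgroup (O K)} (hG : ∀ (r : Fin 8) t, ∃ x ∈ G, ∀ z a b c d, x.1.1 *ᵥ mk z a b c d = T r t z a b c d)

variable (G) in
/-- diagonal modulo `G` -/
def R (g : O K) : Prop := ∃ h ∈ G, ∃ d, (h * g).1.1 = diagonal d

include hG
theorem red (r : Fin 8) (t : K) {g : O K} (h : ∀ g' : O K, (∀ {v z a b c d}, g.1.1 *ᵥ v = mk z a b c d →
    g'.1.1 *ᵥ v = T r t z a b c d) → R G g') : R G g := by
  obtain ⟨x, hx, e⟩ := hG r t
  obtain ⟨y, hy, d, e'⟩ := h (x * g) fun h => by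
    rw [coe_mul, Units.val_mul, ← mulVec_mulVec, h, e]
  exact ⟨y * x, mul_mem hy hx, d, by rwa [mul_assoc]⟩

omit hG in
theorem l5 {g : O K} {a a' b b' z : K} (h1 : g.1.1 *ᵥ mk 0 1 0 0 0 = mk 0 a 0 0 0)
    (h2 : g.1.1 *ᵥ mk 0 0 0 1 0 = mk 0 0 0 a' 0) (h3 : g.1.1 *ᵥ mk 0 0 1 0 0 = mk 0 0 b 0 0)
    (h4 : g.1.1 *ᵥ mk 0 0 0 0 1 = mk 0 0 z 0 b') : R G g := by
  obtain ⟨y, e, f, h, k, h5⟩ := exists_mk (g.1.1 *ᵥ mk 1 0 0 0 0)
  have e1 := (polar g h1 h2).2
  have e2 := (polar g h3 h4).2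
  have e3 := (polar g h4 h3).1
  have := (polar g h1 h5).2
  have := (polar g h2 h5).2
  have := (polar g h3 h5).2
  have := (polar g h4 h5).2
  obtain ⟨rfl, rfl, rfl, rfl, rfl⟩ : z = 0 ∧ e = 0 ∧ f = 0 ∧ h = 0 ∧ k = 0 := by grind
  refine ⟨1, one_mem _, mk y a b a' b', ext_of_mulVec_single fun i => ?_⟩
  have : ∀ i, Pi.single i (1 : K) = mk (if i = ix 0 then 1 else 0) (if i = ix 1 then 1 else 0) (if i = ix 2 then 1 else 0)
      (if i = ix 3 then 1 else 0) (if i = ix 4 then 1 else 0) := fun i => by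
    ext (j | j | j) <;> (try fin_cases j) <;> simp [mk, ix, Pi.single_apply, eq_comm]
  rw [this, diag_mk, one_mul]
  rcases i with i | i | i <;> (try fin_cases i) <;> simp [ix, *]

theorem l4 {g : O K} {a a' b z : K} (h1 : g.1.1 *ᵥ mk 0 1 0 0 0 = mk 0 a 0 0 0)
    (h2 : g.1.1 *ᵥ mk 0 0 0 1 0 = mk 0 0 0 a' 0) (h3 : g.1.1 *ᵥ mk 0 0 1 0 0 = mk 0 0 b 0 z) (hb : b ≠ 0) : R G g := by
  obtain ⟨y, e, f, h, k, h5⟩ := exists_mk (g.1.1 *ᵥ mk 0 0 0 0 1)
  have e1 := (polar g h1 h2).2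
  have := (polar g h1 h5).2
  have := (polar g h2 h5).2
  have e2 := polar g h3 h5
  obtain ⟨rfl, rfl, rfl, e3⟩ : z = 0 ∧ e = 0 ∧ h = 0 ∧ y - y * b * k = 0 := by grind
  exact red hG 5 (y * b) fun g' e => l5 (by simpa [T] using e h1) (by simpa [T] using e h2) (by simpa [T] using e h3)
    (by simpa [T, e3] using e h5)

theorem l3 {g : O K} {a a' z : K} (h1 : g.1.1 *ᵥ mk 0 1 0 0 0 = mk 0 a 0 0 0)
    (h2 : g.1.1 *ᵥ mk 0 0 0 1 0 = mk 0 z 0 a' 0) : R G g := by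
  have e0 := polar g h2 h1
  obtain rfl : z = 0 := by grind
  have key : ∀ {g : O K} {y f k}, g.1.1 *ᵥ mk 0 1 0 0 0 = mk 0 a 0 0 0 → g.1.1 *ᵥ mk 0 0 0 1 0 = mk 0 0 0 a' 0 →
      g.1.1 *ᵥ mk 0 0 1 0 0 = mk y 0 f 0 k → f ≠ 0 → R G g := fun {g y f k} h1 h2 h3 hf =>
    red hG 2 (-y / f) fun g' e => l4 hG (by simpa [T] using e h1) (by simpa [T] using e h2)
      (by simpa [T, hf] using e h3) hf
  obtain ⟨y, e, f, h, k, h5⟩ := exists_mk (g.1.1 *ᵥ mk 0 0 1 0 0)
  obtain ⟨y', e', f', h', k', h6⟩ := exists_mk (g.1.1 *ᵥ mk 0 0 0 0 1)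
  have := (polar g h1 h5).2
  have := (polar g h2 h5).2
  obtain ⟨rfl, rfl⟩ : e = 0 ∧ h = 0 := by grind
  by_cases hf : f = 0
  · have := polar g h5 h6
    obtain ⟨rfl, hk⟩ : y = 0 ∧ -k ≠ 0 := by grind
    exact red hG 5 1 fun g' e => key (by simpa [T] using e h1) (by simpa [T] using e h2) (by simpa [T, hf] using e h5) hk
  · exact key h1 h2 h5 hf

theorem l2 {g : O K} {a z : K} (h1 : g.1.1 *ᵥ mk 0 1 0 0 0 = mk 0 a 0 z 0) (ha : a ≠ 0) : R G g := by
  obtain ⟨y, e, f, h, k, h5⟩ := exists_mk (g.1.1 *ᵥ mk 0 0 0 1 0)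
  have := polar g h1 h5
  obtain ⟨rfl, hh⟩ : z = 0 ∧ h ≠ 0 := by grind
  exact red hG 6 (y / h) fun _ e1 => red hG 4 (k / h) fun _ e2 => red hG 7 (-f / h) fun _ e3 =>
    l3 hG (by simpa [T] using e3 (e2 (e1 h1))) (by simpa [T, hh] using e3 (e2 (e1 h5)))

theorem l1 (g : O K) : R G g := by
  have key : ∀ {g : O K} {y e f h k}, g.1.1 *ᵥ mk 0 1 0 0 0 = mk y e f h k → e ≠ 0 → R G g := fun {g y e f h k} h1 he =>
    red hG 1 (-y / e) fun _ e1 => red hG 3 (-f / e) fun _ e2 => red hG 0 (k / e) fun _ e3 =>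
      l2 hG (by simpa [T, he] using e3 (e2 (e1 h1))) he
  obtain ⟨y, e, f, h, k, h5⟩ := exists_mk (g.1.1 *ᵥ mk 0 1 0 0 0)
  obtain ⟨y', e', f', h', k', h6⟩ := exists_mk (g.1.1 *ᵥ mk 0 0 0 1 0)
  by_cases he : e = 0
  swap
  · exact key h5 he
  by_cases hf : f = 0
  swap
  · exact red hG 4 1 fun _ e1 => key (e1 h5) (by simpa [he])
  by_cases hk : k = 0
  swap
  · exact red hG 7 1 fun _ e1 => key (e1 h5) (by simpa [he])
  have := polar g h5 h6
  exact red hG 6 1 fun _ e1 => key (e1 h5) (by grind)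

end

theorem T_diag (r : Fin 8) {y e f h k : K} (h1 : y ^ 2 = 1) (h2 : e * h = 1) (h3 : f * k = 1) (t : K) :
    ∃ s, ∀ z a b c d, diagonal (mk y e f h k) *ᵥ T r t z a b c d = T r s (y * z) (e * a) (f * b) (h * c) (k * d) := by
  refine ⟨[h * k, y * h, y * k, f * h, e * k, y * f, y * e, e * f].getD r 0 * t, fun z a b c d => ?_⟩
  fin_cases r <;> simp only [T, diag_mk, mk_inj, List.getD_cons_succ, List.getD_cons_zero] <;> grind

theorem ext' {A B : Matrix I I K} (h : ∀ z a b c d, A *ᵥ mk z a b c d = B *ᵥ mk z a b c d) : A = B :=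
  ext_of_mulVec_single fun i => by obtain ⟨z, a, b, c, d, e⟩ := exists_mk (Pi.single i (1 : K)); rw [e, h]

theorem equiv (hK : ∃ a : K, a ≠ 0 ∧ a ≠ 1) : Nonempty (chevB2.group K ≃* Cfsg.POmega K (Cfsg.quadFormOdd 2 K)) := by
  obtain ⟨φ, -, hφ⟩ := exists_B2 (K := K)
  have hp : commutator (chevB2.SteinbergCover K) = ⊤ := perfect_B2 _ stC_G hK
  have hε : ∀ r, (isoE2 r : K) * isoE2 r = 1 := fun r => by
    exact_mod_cast congrArg (Int.cast (R := K)) (show isoE2 r * isoE2 r = 1 by revert r; decide +kernel)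
  obtain ⟨ψ, hψ⟩ : ∃ ψ : chevB2.SteinbergCover K →* GL I K, ∀ (r : Rt chevB2) t z a b c d,
      (ψ ((stC _ K).x r t)).1 *ᵥ mk z a b c d = T r (isoE2 r * t) z a b c d :=
    ⟨((clB 2 le_rfl).model.ρ K).comp φ, fun r t z a b c d => by
      rw [MonoidHom.comp_apply, hφ, Model.ρ_x _ ((clB 2 _).mem_Φ'.2 (by revert r; decide +kernel))]
      exact x_mk r ..⟩
  have h1 : ∀ g, ψ g ∈ O K := fun g => (stC_G.symm.trans_le ((stC chevB2 K).X_le.2 fun r _ t => mem_comap.2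
    (mem_isometryGroup.2 fun v => by obtain ⟨z, a, b, c, d, rfl⟩ := exists_mk v; rw [hψ, Q_T])) :
      ⊤ ≤ (O K).comap ψ) (mem_top g)
  let π := ψ.codRestrict _ h1
  have hG : ∀ (r : Fin 8) t, ∃ x ∈ π.range, ∀ z a b c d, x.1.1 *ᵥ mk z a b c d = T r t z a b c d := fun (r : Rt chevB2) t =>
    ⟨_, ⟨(stC _ K).x r (isoE2 r * t), rfl⟩, fun z a b c d => (hψ ..).trans (by rw [← mul_assoc, hε, one_mul])⟩
  have h2 : ∀ (g : O K) d, g.1.1 = diagonal d → ∀ x ∈ π.range, g * x * g⁻¹ ∈ π.range := fun g d hd x ⟨x, hx⟩ => by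
    obtain ⟨y, e, f, h, k, rfl⟩ := exists_mk d
    have e1 := polar g (hd ▸ diag_mk y e f h k 1 0 0 0 0) (hd ▸ diag_mk y e f h k 0 1 0 0 0)
    have e2 := polar g (hd ▸ diag_mk y e f h k 0 0 0 1 0) (hd ▸ diag_mk y e f h k 0 1 0 0 0)
    have e3 := polar g (hd ▸ diag_mk y e f h k 0 0 0 0 1) (hd ▸ diag_mk y e f h k 0 0 1 0 0)
    have : (stC chevB2 K).G ≤ π.range.comap ((MulAut.conj g).toMonoidHom.comp π) := (stC _ K).X_le.2 fun r _ t => by
      obtain ⟨s, hs⟩ := T_diag r (y := y) (e := e) (f := f) (h := h) (k := k) (by grind) (by grind) (by grind) (isoE2 r * t)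
      obtain ⟨x, hx, e⟩ := hG r s
      have : g * π ((stC _ K).x r t) = x * g := Subtype.ext (Units.ext (ext' fun z a b c d => by
        simp only [coe_mul, Units.val_mul, ← mulVec_mulVec, hd, diag_mk, e, ← hs]
        exact congrArg _ (hψ ..)))
      change g * π ((stC _ K).x r t) * g⁻¹ ∈ π.range
      rwa [this, mul_inv_cancel_right]
    exact hx ▸ this (stC_G.ge (mem_top x))
  have hN : π.range.Normal := ⟨fun x hx g => by
    obtain ⟨y, hy, d, e⟩ := l1 hG g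
    have := mul_mem (mul_mem (inv_mem hy) (h2 _ d e x hx)) hy
    simpa [mul_assoc] using this⟩
  have h3 : commutator (O K) = π.range := by
    refine le_antisymm (commutator_le.2 fun g _ g' _ => ?_) ?_
    · obtain ⟨y, hy, d, e⟩ := l1 hG g
      obtain ⟨y', hy', d', e'⟩ := l1 hG g'
      have h4 : Commute (y * g) (y' * g') := Subtype.ext (Units.ext (by
        change (y * g).1.1 * (y' * g').1.1 = (y' * g').1.1 * (y * g).1.1
        rw [e, e', diagonal_mul_diagonal, diagonal_mul_diagonal]; simp [mul_comm]))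
      have := h4.map (QuotientGroup.mk' π.range)
      rw [map_mul, map_mul, QuotientGroup.mk'_apply _ y, QuotientGroup.mk'_apply _ y', (QuotientGroup.eq_one_iff y).2 hy,
        (QuotientGroup.eq_one_iff y').2 hy', one_mul, one_mul] at this
      rw [← QuotientGroup.eq_one_iff, ← QuotientGroup.mk'_apply, map_commutatorElement]
      exact commutatorElement_eq_one_iff_commute.2 this
    · rw [MonoidHom.range_eq_map, ← hp, _root_.commutator_def, map_commutator]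
      exact commutator_mono le_top le_top
  obtain ⟨e⟩ := equiv_quot hp π.rangeRestrict π.rangeRestrict_surjective fun e => by
    obtain ⟨x, hx, e1⟩ := hG 3 1
    obtain ⟨y, hy, e2⟩ := hG 4 1
    have := congrArg (fun g : π.range => g.1.1.1 *ᵥ mk 0 1 0 0 0) (mem_center_iff.1 (e.ge (mem_top ⟨x, hx⟩)) ⟨y, hy⟩)
    replace e1 : ∀ z a b c d, x.1.1 *ᵥ mk z a b c d = mk z a (b + 1 * a) (c - 1 * d) d := e1
    replace e2 : ∀ z a b c d, y.1.1 *ᵥ mk z a b c d = mk z (a + 1 * b) b c (d - 1 * c) := e2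
    simp only [coe_mul, Units.val_mul, ← mulVec_mulVec, e1, e2, mk_inj] at this
    simp at this
  exact ⟨e.trans (quotCenterCongr (MulEquiv.subgroupCongr h3)).symm⟩

end CA.Chev.B2O
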