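/-
Steinberg characters of the classical groups, including the small cases.
-/
import Cfsg.Agent.Lib.Lie.H23Uni7
import Cfsg.Agent.Lib.Char.CharProd
import Cfsg.Agent.Lib.Char.CharMisc
import Cfsg.Agent.S0244
import Cfsg.Agent.S0827
import Cfsg.Agent.S2566
import Cfsg.Agent.S0281
import Cfsg.Agent.S0298
import Cfsg.Agent.S0300
import Cfsg.Agent.S0301
import Cfsg.Agent.S0303
import Cfsg.Agent.S0305
import Cfsg.Agent.S0306

set_option autoImplicit false

namespace CA.Chev

open Matrix Cfsg Subgroup CChar.CharFun CA.FieldIso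

section
variable {p : ℕ} [hp : Fact p.Prime] {G H : Type*} [Group G] [Group H] [Finite G]

theorem hasSt_iff : HasSt p G ↔ ∃ χ, IsIrrCharacter G χ ∧ χ 1 = (p ^ (Nat.card G).factorization p : ℕ) := by
  obtain ⟨P⟩ : Nonempty (Sylow p G) := inferInstance
  exact ⟨fun ⟨χ, h1, h2⟩ => ⟨χ, h1, P.card_eq_multiplicity ▸ (h2 P).1⟩,
    fun ⟨χ, h1, h2⟩ => hasSt_of h1 P.2 P.not_dvd_index (P.card_eq_multiplicity ▸ h2)⟩

theorem HasSt.congr (h : HasSt p G) (e : H ≃* G) : HasSt p H := by
  have := Finite.of_equiv _ e.symm.toEquiv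
  obtain ⟨χ, h1, h2⟩ := hasSt_iff.1 h
  exact hasSt_iff.2 ⟨_, irr_comp_mulEquiv h1 e, by rw [map_one, h2, Nat.card_congr e.toEquiv]⟩

theorem HasSt.prod [Finite H] (h : HasSt p G) (h' : HasSt p H) : HasSt p (G × H) := by
  obtain ⟨χ, h1, h2⟩ := hasSt_iff.1 h
  obtain ⟨ψ, h3, h4⟩ := hasSt_iff.1 h'
  refine hasSt_iff.2 ⟨_, CChar.CharProd.irr_prod_mul h1 h3, ?_⟩
  rw [Nat.card_prod, Nat.factorization_mul Nat.card_pos.ne' Nat.card_pos.ne', Finsupp.add_apply, pow_add, Nat.cast_mul,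
    ← h2, ← h4]; rfl

theorem hasSt_of_not_dvd (h : ¬ p ∣ Nat.card G) : HasSt p G :=
  hasSt_iff.2 ⟨_, irr_one, by simp [Nat.factorization_eq_zero_of_not_dvd h]⟩

theorem hasSt_of_comm (h : ∀ a b : G, a * b = b * a) : HasSt p (G ⧸ center G) := hasSt_of_not_dvd (by
  rw [← index_eq_card, show center G = ⊤ from top_unique fun a _ => mem_center_iff.2 fun b => h b a, index_top]
  exact hp.out.not_dvd_one)

omit [Finite G] in
theorem comm_of_dihedral {n : ℕ} (e : G ≃* DihedralGroup n) (a b : commutator G) : a * b = b * a := by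
  have : commutator G ≤ (zpowers (DihedralGroup.r 1)).comap e.toMonoidHom := commutator_le.2 fun a _ b _ => by
    have k : ∀ i : ZMod n, DihedralGroup.r i ∈ zpowers (DihedralGroup.r (1 : ZMod n)) := fun i =>
      ⟨i.cast, by simp [DihedralGroup.r_one_zpow]⟩
    rw [mem_comap, map_commutatorElement, commutatorElement_def]
    generalize e.toMonoidHom a = a, e.toMonoidHom b = b
    rcases a with a | a <;> rcases b with b | b <;> exact k _
  exact Subtype.ext (e.injective (by
    rw [coe_mul, coe_mul, map_mul, map_mul]; exact setLike_mul_comm (mem_comap.1 (this a.2)) (mem_comap.1 (this b.2))))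

theorem hasSt_two {T : Subgroup G} (hT : ∀ a ∈ T, ∀ b ∈ T, a * b = b * a) (ho : Odd (Nat.card T)) (hi : T.index ∣ 2) :
    HasSt 2 (G ⧸ center G) := by
  by_cases h : ∀ a b : G, a * b = b * a
  · exact hasSt_of_comm h
  have h2 : T.index = 2 := ((Nat.dvd_prime Nat.prime_two).1 hi).resolve_left fun e =>
    h fun a b => hT a ((index_eq_one.1 e).ge trivial) b ((index_eq_one.1 e).ge trivial)
  have h3 : ¬ ∀ a b : G ⧸ center G, a * b = b * a := fun hh => by
    have := normal_of_index_eq_two h2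
    have k : ∀ t ∈ T, ∀ s, s ∉ T → t * s = s * t := fun t ht s hs => by
      obtain ⟨z, hz, e⟩ := (QuotientGroup.mk'_eq_mk' _).1 (show QuotientGroup.mk' (center G) (s * t) =
        QuotientGroup.mk' (center G) (t * s) by rw [map_mul, map_mul, hh])
      have z1 : z ∈ T := by
        rw [show z = t⁻¹ * (s⁻¹ * t * s⁻¹⁻¹) by rw [eq_inv_mul_iff_mul_eq, inv_inv, mul_assoc, ← e]; group]
        exact mul_mem (inv_mem ht) (this.conj_mem t ht _)
      have z2 : z ^ 2 = 1 := mul_left_cancel (a := s * s * t) (by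
        calc _ = s * (s * t * z) * z := by simp [sq, mul_assoc]
          _ = s * t * (s * z) := by rw [e]; group
          _ = _ := by rw [mem_center_iff.1 hz s, ← mul_assoc, e, mul_assoc, hT t ht _ (mul_self_mem_of_index_two h2 s), mul_one])
      rw [← e, orderOf_eq_one_iff.1 (Nat.eq_one_of_dvd_coprimes (Nat.coprime_two_left.2 ho) (orderOf_dvd_of_pow_eq_one z2)
        (T.orderOf_dvd_natCard z1)), mul_one]
    refine h fun a b => ?_
    by_cases ha : a ∈ T <;> by_cases hb : b ∈ T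
    exacts [hT a ha b hb, k a ha b hb, (k b hb a ha).symm, mul_left_cancel (a := b) (by
      rw [← mul_assoc, k _ ((mul_mem_iff_of_index_two h2).2 (iff_of_false hb ha)) b hb])]
  obtain ⟨χ, h4, h5⟩ : ∃ χ, IsIrrCharacter (G ⧸ center G) χ ∧ χ 1 ≠ 1 := by
    by_contra! hh; exact h3 (CChar.CharKer.comm_iff_irr_apply_one.2 hh)
  obtain ⟨n, n0, hn⟩ := irr_apply_one h4
  have h6 := (CChar.CharMisc.degree_le_index_of_comm h4 (T.map (QuotientGroup.mk' _)) (by
    rintro _ ⟨a, ha, rfl⟩ _ ⟨b, hb, rfl⟩; rw [← map_mul, hT a ha b hb, map_mul]) hn).trans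
    (Nat.le_of_dvd two_pos (h2 ▸ index_map_dvd T (QuotientGroup.mk'_surjective _)))
  obtain rfl : n = 2 := by have : n ≠ 1 := fun e => h5 (by simp [hn, e]); omega
  have h7 : 2 ∣ Nat.card (G ⧸ center G) := CChar.CharInt.degree_dvd_card h4 hn
  have h8 : ¬ 2 ^ 2 ∣ Nat.card (G ⧸ center G) := fun e => by
    have := e.trans (card_quotient_dvd_card _)
    rw [← T.index_mul_card, h2, sq, Nat.mul_dvd_mul_iff_left two_pos] at this
    exact ho.not_two_dvd_nat this
  exact hasSt_iff.2 ⟨χ, h4, by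
    rw [hn, show (Nat.card (G ⧸ center G)).factorization 2 = 1 from le_antisymm (Nat.lt_succ_iff.1 (not_le.1 (mt
      (Nat.prime_two.pow_dvd_iff_le_factorization Nat.card_pos.ne').2 h8)))
      ((Nat.prime_two.dvd_iff_one_le_factorization Nat.card_pos.ne').1 h7), pow_one]⟩

theorem hasSt_wr (hG : Nat.card G = 72) {A B : Subgroup G} (e : A ≃* Equiv.Perm (Fin 3)) (e' : B ≃* Equiv.Perm (Fin 3))
    (hc : ∀ a ∈ A, ∀ b ∈ B, a * b = b * a) (hi : (A ⊔ B).index = 2) : HasSt 2 (commutator G ⧸ center (commutator G)) := by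
  let Φ := (A.subtype.comp e.symm.toMonoidHom).noncommCoprod (B.subtype.comp e'.symm.toMonoidHom)
    fun a b => hc _ (e.symm a).2 _ (e'.symm b).2
  have hr : Φ.range = A ⊔ B := by
    rw [show Φ.range = _ from MonoidHom.noncommCoprod_range _ _ _, MonoidHom.range_comp, MonoidHom.range_comp, MonoidHom.range_eq_top.2 e.symm.surjective,
      MonoidHom.range_eq_top.2 e'.symm.surjective, ← MonoidHom.range_eq_map, ← MonoidHom.range_eq_map, range_subtype, range_subtype]
  have hΦ : Function.Injective Φ := by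
    have := Φ.range.index_mul_card
    rw [hr, hi, hG, ← hr] at this
    exact Subtype.val_injective.comp ((Nat.bijective_iff_surjective_and_card _).2 ⟨Φ.rangeRestrict_surjective, by
      simp only [Nat.card_prod, Nat.card_perm, Nat.card_fin, Nat.factorial]; omega⟩).1
  let K := (alternatingGroup (Fin 3)).prod (alternatingGroup (Fin 3))
  have k1 : ∀ y, y ∈ K ↔ y ^ 3 = 1 := by simp only [K, mem_prod, Equiv.Perm.mem_alternatingGroup]; decide
  have k2 : ∀ y ∈ K, ∀ z ∈ K, y * z = z * y := by simp only [k1]; decide +kernel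
  have hn := normal_of_index_eq_two (hr ▸ hi)
  have : (K.map Φ).Normal := ⟨by
    rintro _ ⟨y, hy, rfl⟩ g
    obtain ⟨z, hz⟩ := hn.conj_mem _ ⟨y, rfl⟩ g
    exact ⟨z, (k1 z).2 (hΦ (by rw [map_pow, hz, conj_pow, ← map_pow, (k1 y).1 hy]; simp)), hz⟩⟩
  have h8 : (K.map Φ).index = 2 ^ 3 := by
    rw [index_map_of_injective _ hΦ, hr, hi, index_prod, alternatingGroup.index_eq_two]; rfl
  have h9 := (K.map Φ).index_mul_card
  rw [h8, hG] at h9
  have : Nontrivial (G ⧸ K.map Φ) := Finite.one_lt_card_iff_nontrivial.1 (by rw [← index_eq_card, h8]; decide)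
  have := (IsPGroup.of_card (G := G ⧸ K.map Φ) h8).center_nontrivial
  obtain ⟨Z, hZ⟩ := Sylow.exists_subgroup_card_pow_prime (G := center (G ⧸ K.map Φ)) 2 (n := 1) (by
    obtain ⟨n, hn⟩ := ((IsPGroup.of_card (G := G ⧸ K.map Φ) h8).to_subgroup (center _)).nontrivial_iff_card.1 inferInstance
    rw [hn.2]; exact pow_dvd_pow _ hn.1)
  have : (Z.map (center _).subtype).Normal := ⟨fun x hx g => by rwa [mem_center_iff.1 (map_subtype_le _ hx) g, mul_inv_cancel_right]⟩
  have h4 := (Z.map (center _).subtype).index_mul_card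
  rw [card_subtype, hZ, ← index_eq_card, h8] at h4
  have := IsPGroup.isMulCommutative_of_card_eq_prime_sq (G := (G ⧸ K.map Φ) ⧸ Z.map (center _).subtype) (p := 2)
    (by rw [← index_eq_card]; omega)
  refine hasSt_two (T := (K.map Φ).subgroupOf _) (fun a ha b hb => Subtype.ext ?_) (Odd.of_dvd_nat (n := 9) (by decide) ?_) ?_
  · obtain ⟨y, hy, e1⟩ := ha
    obtain ⟨z, hz, e2⟩ := hb
    change a.1 * b.1 = b.1 * a.1
    rw [show a.1 = _ from e1.symm, show b.1 = _ from e2.symm, ← map_mul, k2 y hy z hz, map_mul]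
  · rw [show 9 = Nat.card (K.map Φ) by omega]; exact card_comap_dvd_of_injective _ _ Subtype.val_injective
  · rw [← relIndex, ← QuotientGroup.ker_mk' (K.map Φ), relIndex_ker, show 2 = Nat.card (Z.map (center _).subtype) by
      rw [card_subtype, hZ, pow_one], map_commutator_eq, QuotientGroup.range_mk']
    exact card_dvd_of_le (Normal.quotient_commutative_iff_commutator_le.1 this)

theorem hasSt_U32 (hG : Nat.card G = 72) (ν : Multiplicative (ZMod 3 × ZMod 3) →* G) (φ : QuaternionGroup 2 →* G)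
    (hν : Function.Injective ν) (hφ : Function.Injective φ) (h : ∀ q x, φ q * ν x * (φ q)⁻¹ ∈ ν.range)
    (h' : ∀ x ≠ 1, IsConj (ν (Multiplicative.ofAdd (1, 0))) (ν x)) : HasSt 2 G := by
  have h9 : Nat.card ν.range = 9 := by rw [← Nat.card_congr (MonoidHom.ofInjective hν).toEquiv]; simp
  have h8 : Nat.card φ.range = 2 ^ 3 := by
    rw [← Nat.card_congr (MonoidHom.ofInjective hφ).toEquiv, Nat.card_eq_fintype_card, QuaternionGroup.card]; rfl
  have hi := φ.range.index_mul_card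
  rw [h8, hG] at hi
  have hd : Disjoint ν.range φ.range := disjoint_of_coprime_natCard (by rw [h9, h8]; decide)
  have hc := isComplement'_of_card_mul_and_disjoint (by rw [h9, h8, hG]; rfl) hd
  have hC : ∀ x ≠ 1, centralizer {ν x} = ν.range := fun x hx => by
    refine (eq_of_le_of_card_ge (by rintro _ ⟨y, rfl⟩; rw [mem_centralizer_singleton_iff, ← map_mul, mul_comm, map_mul]) ?_).symm
    have h1 := Nat.card_le_card_of_injective (α := {y : Multiplicative (ZMod 3 × ZMod 3) // y ≠ 1})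
      (β := MulAction.orbit (ConjAct G) (ν x)) (fun y => ⟨ν y, ConjAct.mem_orbit_conjAct.2 ((h' y y.2).symm.trans (h' x hx))⟩)
      fun y z e => Subtype.ext (hν (congrArg Subtype.val e))
    have h2 := (centralizer {ν x}).index_mul_card
    rw [Nat.card_coe_set_eq, ← MulAction.index_stabilizer, Nat.card_eq_fintype_card, Fintype.card_subtype_compl,
      ← (MulAction.stabilizer (ConjAct G) (ν x)).index_comap_of_surjective (f := (ConjAct.toConjAct (G := G)).toMonoidHom)
        ConjAct.toConjAct.surjective] at h1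
    erw [← centralizer_eq_comap_stabilizer] at h1
    simp only [Fintype.card_multiplicative, Fintype.card_prod, ZMod.card, Fintype.card_unique] at h1
    nlinarith
  obtain ⟨b, hb⟩ : ∃ b : G ⧸ φ.range, b ≠ (1 : G) := by
    have := Finite.one_lt_card_iff_nontrivial.1 (show 1 < Nat.card (G ⧸ φ.range) by rw [← index_eq_card]; omega)
    exact exists_ne _
  refine hasSt_of_split (split_of_TI le_rfl (fun b hb u hu => mul_mem (mul_mem hb hu) (inv_mem hb)) (fun u hu h1 x hx => ?_)
    (by omega)) hb (IsPGroup.of_card h8) (by omega)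
  obtain ⟨⟨⟨_, y, rfl⟩, q, hq⟩, rfl⟩ := hc.2 x
  refine mul_mem (by_contra fun hy => h1 (disjoint_def.1 hd ((hC y (by rintro rfl; simp at hy)).le ?_) hu)) hq
  obtain ⟨u, rfl⟩ := hu
  have := disjoint_def.1 hd (mul_mem (inv_mem ⟨y, rfl⟩) (h u y)) (by
    simpa [mul_assoc] using mul_mem (mul_mem (mul_mem hq hx) (inv_mem hq)) (inv_mem ⟨u, rfl⟩))
  rw [mem_centralizer_singleton_iff, ← mul_inv_eq_iff_eq_mul, ← inv_mul_eq_one.1 this]

end

section
universe u
variable {p : ℕ} [hp : Fact p.Prime] {F : Type u} [Field F] [Fintype F] [CharP F p]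

theorem exists_gf {q : ℕ} {d e : ℕ} (hF : Fintype.card F ^ e = q ^ d) (he : e ≠ 0) (hd : d ≠ 0) :
    ∃ (K : Type) (_ : Field K) (_ : Fintype K) (_ : CharP K p), Fintype.card K = q := by
  obtain ⟨n, -, hn⟩ := FiniteField.card F p
  rw [hn, ← pow_mul] at hF
  obtain ⟨k, -, rfl⟩ := (Nat.dvd_prime_pow hp.out).1 (hF ▸ dvd_pow_self q hd)
  have : k ≠ 0 := by rintro rfl; simp [hp.out.ne_one, he] at hF
  letI := Fintype.ofFinite (GaloisField p k)
  exact ⟨GaloisField p k, inferInstance, this, inferInstance, by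
    rw [← Nat.card_eq_fintype_card, GaloisField.card p k ‹_›]⟩

theorem hasSt_PSL {n : ℕ} (hn : 2 ≤ n) : HasSt p (ProjectiveSpecialLinearGroup (Fin n) F) := by
  rcases hn.eq_or_lt with rfl | hn
  exacts [hasSt_PSL2 F p, (hasM_PSL hn).hasSt]

/-- `Sp₂ = SL₂` -/
def sp1 (R : Type*) [CommRing R] : symplecticGroup (Fin 1) R ≃* SpecialLinearGroup (Fin 2) R where
  toFun g := ⟨reindex finSumFinEquiv finSumFinEquiv g.1, by rw [det_reindex_self, (Cfsg.Agent.S0244.result _).1 g.2]⟩
  invFun g := ⟨reindex finSumFinEquiv.symm finSumFinEquiv.symm g.1, (Cfsg.Agent.S0244.result _).2 (by rw [det_reindex_self, g.2])⟩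
  left_inv g := Subtype.ext (by simp)
  right_inv g := Subtype.ext (by simp)
  map_mul' g h := Subtype.ext (submatrix_mul_equiv g.1 h.1 _ finSumFinEquiv.symm _).symm

theorem hasSt_PSp {m : ℕ} (hm : 1 ≤ m) : HasSt p (PSp m F) := by
  rcases hm.eq_or_lt with rfl | hm
  exacts [(hasSt_PSL2 F p).congr (quotCenter (sp1 F)), (hasM_PSp hm).hasSt]

theorem hasSt_PSU {n q : ℕ} (hn : 2 ≤ n) (hF : Fintype.card F = q ^ 2) : HasSt p (PSU n F q) := by
  rcases hn.eq_or_lt with rfl | hn
  · obtain ⟨K, _, _, _, hK⟩ := exists_gf (p := p) ((pow_one _).trans hF) one_ne_zero two_ne_zero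
    exact (hasSt_PSL2 K p).congr (quotCenter (Cfsg.Agent.S0281.result hF hK).some)
  by_cases h : n = 3 ∧ q = 2
  · obtain ⟨rfl, rfl⟩ := h
    obtain ⟨e⟩ := CA.SmallF.nonempty_F4 hF
    obtain ⟨ν, φ, h1, h2, h3, h4⟩ := CA.U32.exists_PSU
    obtain rfl : p = 2 := (Nat.prime_dvd_prime_iff_eq hp.out Nat.prime_two).1 (hp.out.dvd_of_dvd_pow (n := 2)
      (hF ▸ (prime_dvd_char_iff_dvd_card p).1 (by rw [ringChar.eq F p])))
    have := Cfsg.Agent.S0827.card72 (F := SmallF.F4) rfl
    have : Finite (PSU 3 SmallF.F4 2) := Nat.finite_of_card_ne_zero (by omega)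
    exact (hasSt_U32 ‹_› ν φ h1 h2 h3 h4).congr (psuEquiv e 3 2)
  · exact (hasM_PSU hF hn h).hasSt

theorem hasSt_B (h : Odd (Fintype.card F)) {m : ℕ} (hm : 1 ≤ m) : HasSt p (POmega F (quadFormOdd m F)) := by
  rcases hm.eq_or_lt with rfl | hm
  · exact (hasSt_PSL2 F p).congr (Cfsg.Agent.S0298.result h).some
  rcases (Nat.succ_le_of_lt hm).eq_or_lt with rfl | hm
  exacts [(hasSt_PSp one_le_two).congr (Cfsg.Agent.S0301.result h).some, (hasM_B hm h).hasSt]

theorem hasSt_D {m : ℕ} (hm : 1 ≤ m) : HasSt p (POmega F (quadFormPlus m F)) := by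
  rcases hm.eq_or_lt with rfl | hm
  · exact hasSt_of_comm (comm_of_dihedral (Cfsg.Agent.S0305.result rfl).some)
  rcases (Nat.succ_le_of_lt hm).eq_or_lt with rfl | hm
  · rcases (Nat.succ_le_of_lt (Fintype.one_lt_card (α := F))).eq_or_lt with h | h
    · obtain ⟨e⟩ := nonempty_ringEquiv (F := F) (K := ZMod 2) (by rw [Nat.card_eq_fintype_card, ← h, Nat.card_zmod])
      obtain rfl : p = 2 := (Nat.prime_dvd_prime_iff_eq hp.out Nat.prime_two).1
        (((prime_dvd_char_iff_dvd_card p).1 (by rw [ringChar.eq F p])).trans h.symm.dvd)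
      obtain ⟨h1, A, B, ⟨a⟩, ⟨b⟩, -, h2, h3, -⟩ := Cfsg.Agent.S2566.result
      exact (hasSt_wr h1 a b h2 h3).congr (pomegaEquiv e _ _ (quadFormPlus_map e 2))
    · exact ((hasSt_PSL2 F p).prod (hasSt_PSL2 F p)).congr (Cfsg.Agent.S0299.result h).some
  · exact (hasM_D hm).hasSt

theorem hasSt_Dm (m : ℕ) {a b : F} (h : ∀ z₁ z₂ : F, z₁ ^ 2 + a * z₁ * z₂ + b * z₂ ^ 2 = 0 → z₁ = 0 ∧ z₂ = 0) :
    HasSt p (POmega F (quadFormMinus m F a b)) := by
  obtain ⟨K, _, _, _, hK⟩ := exists_gf (p := p) (F := F) (pow_one _).symm two_ne_zero one_ne_zero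
  rcases m with _ | _ | _ | m
  · exact hasSt_of_comm (comm_of_dihedral (Cfsg.Agent.S0306.result rfl a b h).some)
  · exact (hasSt_PSL2 K p).congr (Cfsg.Agent.S0300.result rfl hK a b h).some
  · exact (hasSt_PSU (by omega) hK).congr (Cfsg.Agent.S0303.result rfl hK a b h).some
  · exact (hasM_Dm (by omega) h).hasSt

end

end CA.Chev
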