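import Cfsg.Agent.Lib.Lie.ChevTwF4
import Cfsg.Agent.Lib.Lie.ChevCol

/-! Two generators for twisted groups: the general argument. -/

set_option autoImplicit false

namespace CA.Chev.Twist

open Equiv Cfsg.Lie Subgroup Sys0 Sys

variable {D : ChevalleyDatum} [Good D] {K : Type*} [Field K] {Γ : Type*} [Group Γ]
  {A : Sys D K Γ} (τ : Twist A)

/-- `g` lies in the root group of the node `i` and has leading coefficient `t` -/
def Co25 (i : Nd D) (t : K) (g : Γ) : Prop :=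
  g ∈ τ.X1 (τ.Op i) ∧ ∃ a ∈ A.X {s | Pos s ∧ s ≠ sim i}, g = A.x (sim i) t * a

/-- the word `L` is realised in `M` -/
def Rz25 (M : Subgroup Γ) (L : List (Nd D)) : Prop := ∃ m ∈ M, m ∈ τ.F ∧ A.Act m (wd L)

variable {τ}

theorem up_conj25 (i : Nd D) (t : K) {a : Γ} (ha : a ∈ A.X {s | Pos s ∧ s ≠ sim i}) :
    A.x (sim i) t * a * (A.x (sim i) t)⁻¹ ∈ A.X {s | Pos s ∧ s ≠ sim i} :=
  A.x_conj_mem (nil_Up i _ (Or.inl (pos_sim i))) t ha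

theorem Co25.mul {i : Nd D} {t t' : K} {g g' : Γ} (h : τ.Co25 i t g) (h' : τ.Co25 i t' g') :
    τ.Co25 i (t + t') (g * g') := by
  obtain ⟨h1, a, ha, rfl⟩ := h
  obtain ⟨h2, b, hb, rfl⟩ := h'
  refine ⟨mul_mem h1 h2, _, mul_mem (up_conj25 i (-t') ha) hb, ?_⟩
  rw [A.add, A.x_neg]; group

theorem Co25.inv {i : Nd D} {t : K} {g : Γ} (h : τ.Co25 i t g) : τ.Co25 i (-t) g⁻¹ := by
  obtain ⟨h1, a, ha, rfl⟩ := h
  refine ⟨inv_mem h1, _, up_conj25 i t (inv_mem ha), ?_⟩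
  rw [A.x_neg]; group

theorem Co25.conj {i : Nd D} {t b : K} {g h : Γ} (hg : τ.Co25 i t g) (hH : h ∈ A.H) (hF : h ∈ τ.F)
    (hb : ∀ u, h * A.x (sim i) u * h⁻¹ = A.x (sim i) (b * u)) : τ.Co25 i (b * t) (h * g * h⁻¹) := by
  obtain ⟨h1, a, ha, rfl⟩ := hg
  refine ⟨τ.conj_X1 hF (A.act_H hH) (fun _ h => h) h1, _, A.H_conj_X hH ha, ?_⟩
  rw [← hb]; group

theorem Co25.unique {i : Nd D} {t t' : K} {g : Γ} (h : τ.Co25 i t g) (h' : τ.Co25 i t' g) : t = t' := by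
  obtain ⟨-, a, ha, e⟩ := h
  obtain ⟨-, b, hb, e'⟩ := h'
  exact A.x_mul_inj i (e.symm.trans e') ha hb

theorem Rz25.append {M : Subgroup Γ} {L L' : List (Nd D)} (h : τ.Rz25 M L) (h' : τ.Rz25 M L') :
    τ.Rz25 M (L ++ L') := by
  obtain ⟨m, h1, h2, h3⟩ := h
  obtain ⟨m', h1', h2', h3'⟩ := h'
  exact ⟨_, mul_mem h1 h1', mul_mem h2 h2', wd_append L L' ▸ h3.mul h3'⟩

theorem Rz25.word {M : Subgroup Γ} {L L' : List (Nd D)} (h : τ.Rz25 M L) (h' : τ.Rz25 M L')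
    (w : List Bool) : τ.Rz25 M (w.flatMap fun b => if b then L else L') := by
  induction w with
  | nil => exact ⟨1, one_mem _, one_mem _, Act.one⟩
  | cons b w ih =>
    rw [List.flatMap_cons]
    cases b
    exacts [h'.append ih, h.append ih]

theorem Rz25.le {M : Subgroup Γ} {L : List (Nd D)} (h : τ.Rz25 M L) {T : Tab} (hT : tab D = T)
    {S S' : List ℕ} (hS : τ.X1 (RL D S) ≤ M) (chk : ∀ k ∈ S', apW T (L.map Fin.val) k ∈ S) :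
    τ.X1 (RL D S') ≤ M := by
  subst hT
  obtain ⟨m, h1, h2, h3⟩ := h
  intro y hy
  have := hS (τ.conj_X1 h2 h3 (T := RL D S) (fun s hs => by
    change (wd L s).val ∈ S
    rw [← apW_eq]; exact chk _ hs) hy)
  simpa [mul_assoc] using mul_mem (mul_mem (inv_mem h1) this) h1

theorem OK.rz25 (ok : τ.OK) {M : Subgroup Γ} {i : Nd D} (h1 : τ.X1 (τ.Op i) ≤ M)
    (h2 : τ.X1 (τ.On i) ≤ M) {L : List (Nd D)} (hL : wJ (orb τ.ν i) = wd L) : τ.Rz25 M L := by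
  obtain ⟨v, hv, hv1⟩ := ok.neg i
  obtain ⟨u, hu, m, hm, ha, u', hu', e⟩ := τ.rank_one hv hv1
  refine ⟨m, ?_, hm.2, hL ▸ ha⟩
  have := mul_mem (mul_mem (inv_mem (h1 hu)) (h2 hv)) (inv_mem (h1 hu'))
  simpa [e, mul_assoc] using this

theorem wd_mem_W1_25 {T : Tab} (hT : tab D = T) {φ : ℕ → ℕ} (hφ : ∀ r, (τ.ρ r).val = φ r)
    (L : List (Nd D)) (chk : ∀ r : Rt D, φ (apW T (L.map Fin.val) r) = apW T (L.map Fin.val) (φ r)) :
    wd L ∈ W1 τ.ρ := by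
  subst hT
  refine mem_W1.2 ⟨wd_mem L, mul_inv_eq_iff_eq_mul.2 (Equiv.ext fun r => Fin.ext ?_)⟩
  rw [Perm.mul_apply, Perm.mul_apply, hφ, ← apW_eq, ← apW_eq, hφ, chk]

theorem OK.two_gen25 (ok : τ.OK) (h3 : A.R3) (hH : ∀ a ∈ A.H, ∀ b ∈ A.H, a * b = b * a) {i : Nd D}
    {c : Nd D → Kˣ} (hc : h3.torH c ∈ τ.G1) {L : List (Nd D)} (hL : wd L ∈ W1 τ.ρ) {x : Γ}
    (hx : τ.Co25 i 1 x) {b : K} (hb : tor c (rt (CA.Chev.sim i)) = b) (gen : ∀ t : K, t ≠ 0 → ∃ k : ℕ, b ^ k = t)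
    (h1 : b ≠ 1) (h2 : (tor c (rt (wd L (CA.Chev.sim i))) : K) ≠ 1)
    (fin : ∀ M : Subgroup Γ, (∀ t, ∃ g ∈ M, τ.Co25 i t g) → τ.X1 (τ.Op i) ≤ M)
    (rest : ∀ M : Subgroup Γ, τ.X1 (τ.Op i) ≤ M → τ.Rz25 M L → τ.G1 ≤ M) :
    ∃ a ∈ τ.G1, ∃ b ∈ τ.G1, τ.G1 ≤ closure {a, b} := by
  obtain ⟨n, ⟨nN, nG⟩, hn⟩ := ok.exists_N1 hL
  set h := h3.torH c with hh
  have hH1 : h ∈ A.H := h3.torH_range.le ⟨_, rfl⟩
  have hF := τ.G1_le_F hc
  have nF := τ.G1_le_F nG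
  refine ⟨h, hc, n * x, mul_mem nG (τ.X1_Op_le i hx.1), ?_⟩
  set M := closure ({h, n * x} : Set Γ)
  have m1 : h ∈ M := subset_closure (by simp)
  have m2 : n * x ∈ M := subset_closure (by simp)
  have ch : ∀ u, h * A.x (CA.Chev.sim i) u * h⁻¹ = A.x (CA.Chev.sim i) (b * u) := fun u => by
    rw [hh, h3.torH_conj, hb]
  set b' : K := tor c (rt (wd L (CA.Chev.sim i)))
  obtain ⟨e, he⟩ := hn.conj_x (CA.Chev.sim i)
  have hH2 : n⁻¹ * h * n ∈ A.H := A.conj_H' nN hH1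
  have hF2 : n⁻¹ * h * n ∈ τ.F := mul_mem (mul_mem (inv_mem nF) hF) nF
  have ch' : ∀ u, n⁻¹ * h * n * A.x (CA.Chev.sim i) u * (n⁻¹ * h * n)⁻¹ = A.x (CA.Chev.sim i) (b' * u) := fun u => by
    have e1 : n⁻¹ * h * n * A.x (CA.Chev.sim i) u * (n⁻¹ * h * n)⁻¹ =
        n⁻¹ * (h * (n * A.x (CA.Chev.sim i) u * n⁻¹) * h⁻¹) * n := by group
    rw [e1, he, hh, h3.torH_conj, mul_left_comm, ← he]
    simp only [mul_assoc, inv_mul_cancel, mul_one, inv_mul_cancel_left]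
    rfl
  set h' := n⁻¹ * h * n with hh'
  have m3 : x⁻¹ * h' * x ∈ M := by
    have := mul_mem (mul_mem (inv_mem m2) m1) m2
    rwa [show (n * x)⁻¹ * h * (n * x) = x⁻¹ * h' * x by rw [hh']; group] at this
  have z := (((hx.inv.conj hH1 hF ch).mul ((hx.conj hH2 hF2 ch').conj hH1 hF ch)).mul
    (hx.inv.conj hH2 hF2 ch')).mul hx
  have zM : h * x⁻¹ * h⁻¹ * (h * (h' * x * h'⁻¹) * h⁻¹) * (h' * x⁻¹ * h'⁻¹) * x ∈ M := by
    have := mul_mem (mul_mem (mul_mem m1 m3) (inv_mem m1)) (inv_mem m3)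
    have e2 : h'⁻¹ * h⁻¹ * h' = h⁻¹ := by
      rw [mul_assoc, hH _ (inv_mem hH1) _ hH2, inv_mul_cancel_left]
    convert this using 1
    calc _ = h * x⁻¹ * h' * x * (h'⁻¹ * h⁻¹ * h') * x⁻¹ * h'⁻¹ * x := by group
      _ = _ := by rw [e2]; group
  have z0 : b * -1 + b * (b' * 1) + b' * -1 + 1 ≠ 0 := by
    rw [show b * -1 + b * (b' * 1) + b' * -1 + 1 = (1 - b) * (1 - b') by ring]
    exact mul_ne_zero (sub_ne_zero.2 h1.symm) (sub_ne_zero.2 h2.symm)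
  generalize b * -1 + b * (b' * 1) + b' * -1 + 1 = s at z z0
  have it : ∀ k : ℕ, ∃ g ∈ M, τ.Co25 i (b ^ k * s) g := fun k => by
    induction k with
    | zero => exact ⟨_, zM, by rwa [pow_zero, one_mul]⟩
    | succ k ih =>
      obtain ⟨g, g1, g2⟩ := ih
      exact ⟨_, mul_mem (mul_mem m1 g1) (inv_mem m1), by
        rw [pow_succ', mul_assoc]; exact g2.conj hH1 hF ch⟩
  have hX := fin M fun t => by
    by_cases ht : t = 0
    · exact ⟨1, one_mem _, one_mem _, 1, one_mem _, by simp [ht]⟩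
    obtain ⟨k, hk⟩ := gen (t / s) (div_ne_zero ht z0)
    have := it k
    rwa [hk, div_mul_cancel₀ _ z0] at this
  exact rest M hX ⟨n, by simpa using mul_mem m2 (inv_mem (hX hx.1)), nF, hn⟩

theorem Real.two_gen25 {τ : Twist (adjG D K)} {Gt : Subgroup (GL D.Idx K)} (h : Real τ Gt)
    (H : ∃ a ∈ τ.G1, ∃ b ∈ τ.G1, τ.G1 ≤ closure {a, b}) :
    ∃ a b : Gt, closure ({a, b} : Set Gt) = ⊤ := by
  obtain ⟨a, ha, b, hb, H⟩ := H
  rw [← h.e_range] at ha hb H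
  obtain ⟨a, rfl⟩ := ha
  obtain ⟨b, rfl⟩ := hb
  refine ⟨a, b, top_le_iff.1 ((map_le_map_iff_of_injective h.e_inj).1 ?_)⟩
  rwa [MonoidHom.map_closure, Set.image_pair, ← MonoidHom.range_eq_map]

theorem OK.G1_le25 (ok : τ.OK) {M : Subgroup Γ} {ι : Type*} {rep : ι → Nd D}
    (hr : ∀ i, ∃ a, i ∈ orb τ.ν (rep a)) (h : ∀ a, τ.X1 (τ.Op (rep a)) ≤ M ∧ τ.X1 (τ.On (rep a)) ≤ M) :
    τ.G1 ≤ M :=
  ok.G1_le (fun i => by obtain ⟨a, ha⟩ := hr i; rw [Op_congr ha]; exact (h a).1)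
    (fun i => by obtain ⟨a, ha⟩ := hr i; rw [On_congr ha]; exact (h a).2)

theorem RL_one25 (a : Rt D) : ({a} : Set (Rt D)) = RL D [a.val] := by
  ext; simp [RL, Fin.ext_iff]

theorem RL_two25 (a b : Rt D) : ({a, b} : Set (Rt D)) = RL D [a.val, b.val] := by
  ext; simp [RL, Fin.ext_iff]

theorem RL_three25 (a b c : Rt D) : ({a, b, c} : Set (Rt D)) = RL D [a.val, b.val, c.val] := by
  ext; simp [RL, Fin.ext_iff]

theorem exists_gen25 (K : Type*) [Field K] [Finite K] (h : 2 < Nat.card K) :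
    ∃ b : Kˣ, (b : K) ≠ 1 ∧ ∀ t : K, t ≠ 0 → ∃ k : ℕ, (b : K) ^ k = t := by
  obtain ⟨b, hb⟩ := IsCyclic.exists_monoid_generator (α := Kˣ)
  have H : ∀ t : K, t ≠ 0 → ∃ k : ℕ, (b : K) ^ k = t := fun t ht => by
    obtain ⟨k, hk⟩ := hb (Units.mk0 t ht)
    exact ⟨k, congrArg Units.val hk⟩
  refine ⟨b, fun e => ?_, H⟩
  have : (Set.univ : Set K) ⊆ {0, 1} := fun t _ => by
    by_cases ht : t = 0
    · exact Or.inl ht
    · obtain ⟨k, hk⟩ := H t ht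
      exact Or.inr (by rw [← hk, e, one_pow]; rfl)
  have := (Set.ncard_le_ncard this).trans (Set.ncard_pair zero_ne_one).le
  rw [Set.ncard_univ] at this
  omega

theorem mem_of_comm25 {M : Subgroup Γ} {x y z : Γ} (hx : x ∈ M) (hy : y ∈ M) (e : y * x = x * y * z) :
    z ∈ M := by
  have := mul_mem (inv_mem (mul_mem hx hy)) (mul_mem hy hx)
  rwa [e, inv_mul_cancel_left] at this

end CA.Chev.Twist
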