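import Cfsg.Agent.Lib.Lie.H25Gen1

/-! Two generators for ²E₆(q), ³D₄(q) and ²F₄(q). -/

set_option autoImplicit false

namespace CA.Chev

open Equiv Cfsg.Lie Subgroup Twist Polynomial

variable {K : Type*} [Field K] [Finite K]

theorem exists_tr25 {q d : ℕ} (hq : 2 ≤ q) (hK : Nat.card K = q ^ (d + 1)) :
    ∃ b : K, ∑ i ∈ Finset.range (d + 1), b ^ q ^ i ≠ 0 := by
  have h1 : (∑ i ∈ Finset.range (d + 1), X ^ q ^ i : K[X]).natDegree ≤ q ^ d :=
    natDegree_sum_le_of_forall_le _ _ fun i hi => by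
      rw [natDegree_X_pow]; exact Nat.pow_le_pow_right (by omega) (by simpa [Nat.lt_succ_iff] using hi)
  have h2 : (∑ i ∈ Finset.range (d + 1), X ^ q ^ i : K[X]) ≠ 0 := fun e => by
    have := congrArg (coeff · 1) e
    simp only [finsetSum_coeff, coeff_X_pow, coeff_zero] at this
    rw [Finset.sum_eq_single 0 (fun i _ hi => if_neg (Nat.one_lt_pow hi hq).ne) (by simp)] at this
    simp at this
  obtain ⟨b, hb⟩ := exists_eval_ne_zero_of_natDegree_lt_card _ h2 (by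
    rw [← Nat.cast_card, hK, Nat.cast_lt]
    exact h1.trans_lt (Nat.pow_lt_pow_right hq (by omega)))
  exact ⟨b, by simpa [eval_finsetSum] using hb⟩

namespace TE6
variable {α : K →+* K}

local notation "𝔸" => adjG chevE6 K
local notation "𝕨" => wN (Sys0.x (Sys.toSys0 (adjG chevE6 K)))

theorem two_gen25 {q : ℕ} (hq : ∀ t, α t = t ^ q) (hα : ∀ t, α (α t) = t) (h2 : 2 ≤ q)
    (hK : Nat.card K = q ^ 2) : ∃ a b : twistedE6 K q, closure ({a, b} : Set (twistedE6 K q)) = ⊤ := by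
  have ok := ok_of_node (node hα)
  obtain ⟨b, b1, gen⟩ := exists_gen25 K (by rw [hK]; nlinarith)
  have t0 := ty2 hα (i := nE6 0) (by decide +kernel)
  have t2 := ty2 hα (i := nE6 2) (by decide +kernel)
  have i0 : (tE6 α).ι (nE6 0) = nE6 5 := rfl
  have i2 : (tE6 α).ι (nE6 2) = nE6 4 := rfl
  have co : ∀ t, (tE6 α).Co25 (nE6 0) t _ := fun t => ⟨(t0.mem_Op hc).2 ⟨t, rfl⟩, _,
    (𝔸).x_mem_Up (pos_sim _) (sim_injective.ne t0.ne.symm) _, rfl⟩
  have w := (by decide +kernel : ∀ i : Fin 6, tabE6.wt (sim (nE6 0)).val i = ![2, 0, -1, 0, 0, 0] i ∧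
    tabE6.wt (apW tabE6 ([nE6 1, nE6 2, nE6 4, nE6 3, nE6 0, nE6 5].map Fin.val) (sim (nE6 0)).val) i =
      ![-1, 0, -1, 1, 0, 0] i)
  let c : Fin 6 → Kˣ := ![1, 1, b⁻¹, 1, Units.map (α : K →* K) b⁻¹, 1]
  refine (real hq hα).two_gen25 (ok.two_gen25 adjG_R3 ((𝔸).H_comm_of_inj adjG_θ_injective) (c := c)
    (torH_mem_of_node (node hα) _ _ (mem_T1'.2 ⟨by simp [c, nE6], by simp [c, nE6], rfl,
      by simp [c, nE6], (hα _).symm, by simp [c, nE6]⟩))
    (L := [nE6 1, nE6 2, nE6 4, nE6 3, nE6 0, nE6 5]) (wd_mem_W1_25 tab_E6 ρ_val _ (by decide +kernel))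
    (co 1) (b := b) ?_ gen b1 ?_ (fun M h g hg => ?_) (fun M h hn => ?_))
  · refine (tor_tab tab_E6 _ _).trans ?_
    change ∏ i : Fin 6, (c i : K) ^ tabE6.wt _ i.val = _
    simp only [w]
    simp [Fin.prod_univ_six, c]
  · refine ne_of_eq_of_ne (tor_tab tab_E6 _ _) ?_
    rw [← apW_eq, tab_E6]
    change ∏ i : Fin 6, (c i : K) ^ tabE6.wt _ i.val ≠ _
    simp only [w]
    simpa [Fin.prod_univ_six, c] using b1
  · obtain ⟨t, rfl⟩ := (t0.mem_Op hc).1 hg
    obtain ⟨g, g1, g2⟩ := h t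
    obtain ⟨u, rfl⟩ := (t0.mem_Op hc).1 g2.1
    rwa [g2.unique (co u)]
  have h0 := h
  rw [t0.Op_eq, i0, RL_two25] at h0
  have h0' : (tE6 α).X1 ((tE6 α).On (nE6 0)) ≤ M := by
    rw [t0.On_eq, i0, RL_two25]
    exact (hn.word hn (List.replicate 6 true)).le tab_E6 h0 (by decide +kernel)
  have hs := ok.rz25 h h0' (L := [nE6 0, nE6 5]) (wJ_eq_wd tab_E6
    (fun j => (Set.ext_iff.1 t0.orb_eq j).trans (by simp; rfl)) (by decide +kernel))
  have h2' : (tE6 α).X1 ((tE6 α).On (nE6 2)) ≤ M := by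
    rw [t2.On_eq, i2, RL_two25]
    exact (hn.word hs [false, true, true, false, true, false]).le tab_E6 h0 (by decide +kernel)
  have hY : 𝕨 [(43, 1), (40, -1)] ∈ M := by
    refine hn.le tab_E6 h0 (S' := [43, 40]) (by decide +kernel) ⟨(𝔸).wN_mem (by simp), ?_⟩
    have e := wN_eq_of_colChk (𝔸).toSys0 (p := 0) (by simp) ([] : List K) tab_E6 (by decide +kernel :
      colChk tabE6 0 id 5 [(40, .c (-1)), (43, .c 1)] [(43, .c 1), (40, .c (-1))] = true)
    have s := fun k k' h h' => σ_xN (τ := tE6 α) ρ_val (f := fun k t => ηE6 k * α t) f_eq (k := k) (k' := k') h h'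
    have η : ηE6 43 = -1 ∧ ηE6 40 = -1 := by decide +kernel
    refine (mem_F _).2 ?_
    simp only [wN_cons, wN_nil, map_mul, map_one, s 43 40 (by decide) (by decide +kernel),
      s 40 43 (by decide) (by decide +kernel), η]
    simpa [wN_cons, Ex.ev] using e
  have h3 : (tE6 α).X1 ((tE6 α).Op (nE6 3)) ≤ M := fun g hg => by
    obtain ⟨t, ht, rfl⟩ := (mem_Op1 hc (i := nE6 3) rfl).1 hg
    obtain ⟨a, ha⟩ := exists_tr25 (K := K) (d := 1) h2 hK
    simp only [Finset.sum_range_succ, Finset.sum_range_zero, pow_zero, pow_one, zero_add, ← hq] at ha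
    have hu : t * a / (a + α a) + α (t * a / (a + α a)) = t := by
      rw [map_div₀, map_mul, map_add, hα, show α t = t from ht, add_comm (α a)]; field_simp
    generalize t * a / (a + α a) = u at hu
    have e := wN_eq_of_colChk (𝔸).toSys0 (p := 0) (by simp) [u, α u] tab_E6 (by decide +kernel :
      colChk tabE6 0 id 9 [(43, .c 1), (40, .c (-1)), (29, .v 0), (34, .v 1)]
        [(29, .v 0), (34, .v 1), (43, .c 1), (40, .c (-1)), (39, .v 0 + .v 1)] = true)
    refine mem_of_comm25 (h2' ((t2.mem_On hc).2 ⟨u, rfl⟩)) hY ?_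
    rw [i2, ← xN_eq (𝔸).x (k := 29) _ (by decide +kernel), ← xN_eq (𝔸).x (k := 34) _ (by decide +kernel),
      ← xN_eq (𝔸).x (k := 39) _ (by decide +kernel), ← hu]
    simpa [wN_cons, Ex.ev, mul_assoc, α_eq] using e
  have h3' := h3
  rw [Op1 (i := nE6 3) rfl, RL_one25] at h3'
  refine ok.G1_le25 rep_spec fun a => ?_
  fin_cases a
  · change (tE6 α).X1 ((tE6 α).Op (nE6 1)) ≤ M ∧ (tE6 α).X1 ((tE6 α).On (nE6 1)) ≤ M
    rw [Op1 (i := nE6 1) rfl, On1 (i := nE6 1) rfl, RL_one25, RL_one25]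
    exact ⟨(hn.word hs [true, false, true, true, true]).le tab_E6 h3' (by decide +kernel),
      (hn.word hs [true, false, true, true, true, true, true, false, true]).le tab_E6 h3'
        (by decide +kernel)⟩
  · refine ⟨h3, ?_⟩
    change (tE6 α).X1 ((tE6 α).On (nE6 3)) ≤ M
    rw [On1 (i := nE6 3) rfl, RL_one25]
    exact (hn.word hs [true, false, true, false, true]).le tab_E6 h3' (by decide +kernel)
  · refine ⟨?_, h2'⟩
    change (tE6 α).X1 ((tE6 α).Op (nE6 2)) ≤ M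
    rw [t2.Op_eq, i2, RL_two25]
    exact (hn.word hs [true, true, false, true, false]).le tab_E6 h0 (by decide +kernel)
  · exact ⟨h, h0'⟩

end TE6

namespace TD4
variable {α : K →+* K}

local notation "𝔸" => adjG chevD4 K
local notation "𝕨" => wN (Sys0.x (Sys.toSys0 (adjG chevD4 K)))

theorem exists_lam25 (hα : ∀ t, α (α (α t)) = t) (b : Kˣ) :
    ∃ l : Kˣ, (l : K) * (α l)⁻¹ * (α (α l))⁻¹ = b := by
  let a := Units.map (α : K →* K)
  let φ : Kˣ →* Kˣ := MonoidHom.id _ * a⁻¹ * (a.comp a)⁻¹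
  have hφ : ∀ l, (φ l : K) = l * (α l)⁻¹ * (α (α l))⁻¹ := fun l => by simp [φ, a]
  have : Function.Injective φ := (injective_iff_map_eq_one φ).2 fun l hl => by
    have h1 := (hφ l).symm.trans (congrArg Units.val hl)
    have n0 := l.ne_zero
    have n1 := (map_ne_zero α).2 n0
    have n2 := (map_ne_zero α).2 n1
    have h2 : (l : K) = α l * α (α l) := by
      rw [Units.val_one] at h1; field_simp at h1; linear_combination h1
    have h3 := congrArg α h2
    rw [map_mul, hα] at h3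
    have h4 : α (α l) * α (α l) = 1 := mul_left_cancel₀ n0 (by
      linear_combination -h2 - α (α l) * h3)
    have h5 := congrArg α h4
    rw [map_mul, hα, map_one] at h5
    refine Units.ext ((mul_self_eq_one_iff.1 h5).elim id fun e => ?_)
    rw [e] at h2 ⊢
    simpa using h2
  obtain ⟨l, hl⟩ := Finite.injective_iff_surjective.1 this b
  exact ⟨l, by rw [← hφ, hl]⟩

theorem two_gen25 {q : ℕ} (hq : ∀ t, α t = t ^ q) (hα : ∀ t, α (α (α t)) = t) (h2 : 2 ≤ q)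
    (hK : Nat.card K = q ^ 3) : ∃ a b : twistedD4 K q, closure ({a, b} : Set (twistedD4 K q)) = ⊤ := by
  have ok := ok_of_node (node hα)
  obtain ⟨b, b1, gen⟩ := exists_gen25 K (by rw [hK]; exact (by norm_num : 2 < 2 ^ 3).trans_le (Nat.pow_le_pow_left h2 3))
  obtain ⟨l, hl⟩ := exists_lam25 hα b
  have n0 := l.ne_zero
  have n1 := (map_ne_zero α).2 n0
  have n2 := (map_ne_zero α).2 n1
  have t0 := ty3' hα
  have co : ∀ t, (tD4 α).Co25 (nD4 0) t _ := fun t => ⟨(t0.mem_Op hc).2 ⟨t, rfl⟩, _,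
    t0.mem_Up _ _, mul_assoc _ _ _⟩
  have w := (by decide +kernel : ∀ i : Fin 4, tabD4.wt (sim (nD4 0)).val i = ![2, -1, 0, 0] i ∧
    tabD4.wt (apW tabD4 ([nD4 0, nD4 2, nD4 3, nD4 1].map Fin.val) (sim (nD4 0)).val) i =
      ![-1, 0, 1, 1] i)
  let a := Units.map (α : K →* K)
  let c : Fin 4 → Kˣ := ![l, l * a l * a (a l), a l, a (a l)]
  refine (real hq hα).two_gen25 (ok.two_gen25 adjG_R3 ((𝔸).H_comm_of_inj adjG_θ_injective) (c := c)
    (torH_mem_of_node (node hα) _ _ (mem_T1'.2 ⟨rfl, by simp [c, a, nD4, hα]; ring, rfl, (hα _).symm⟩))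
    (L := [nD4 0, nD4 2, nD4 3, nD4 1]) (wd_mem_W1_25 tab_D4 ρ_val _ (by decide +kernel))
    (co 1) (b := b) ?_ gen b1 ?_ (fun M h g hg => ?_) (fun M h hn => ?_))
  · refine (tor_tab tab_D4 _ _).trans ?_
    rw [← hl]
    change ∏ i : Fin 4, (c i : K) ^ tabD4.wt _ i.val = _
    simp only [w]
    simp [Fin.prod_univ_four, c, a]
    field_simp
  · refine ne_of_eq_of_ne (tor_tab tab_D4 _ _) ?_
    rw [← apW_eq, tab_D4]
    change ∏ i : Fin 4, (c i : K) ^ tabD4.wt _ i.val ≠ _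
    simp only [w, Fin.prod_univ_four]
    intro e
    apply b1
    rw [← hl]
    simp [c, a] at e
    field_simp at e ⊢
    linear_combination -e
  · obtain ⟨t, rfl⟩ := (t0.mem_Op hc).1 hg
    obtain ⟨g, g1, g2⟩ := h t
    obtain ⟨u, rfl⟩ := (t0.mem_Op hc).1 g2.1
    rwa [g2.unique (co u)]
  have h0 := h
  rw [t0.Op_eq, RL_three25] at h0
  have h0' : (tD4 α).X1 ((tD4 α).On (nD4 0)) ≤ M := by
    rw [t0.On_eq, RL_three25]
    exact (hn.word hn (List.replicate 3 true)).le tab_D4 h0 (by decide +kernel)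
  have hY : 𝕨 [(19, 1), (16, -1), (15, -1)] ∈ M := by
    refine (hn.word hn (List.replicate 4 true)).le tab_D4 h0 (S' := [19, 16, 15]) (by decide +kernel)
      ⟨(𝔸).wN_mem (by simp), ?_⟩
    have e := wN_eq_of_colChk (𝔸).toSys0 (p := 0) (by simp) ([] : List K) tab_D4 (by decide +kernel :
      colChk tabD4 0 id 5 [(16, .c (-1)), (15, .c (-1)), (19, .c 1)]
        [(19, .c 1), (16, .c (-1)), (15, .c (-1))] = true)
    have s := fun k k' h h' => σ_xN (τ := tD4 α) ρ_val (f := fun k t => ηD4a k * α t) f_eq (k := k) (k' := k') h h'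
    have η : ηD4a 19 = -1 ∧ ηD4a 16 = 1 ∧ ηD4a 15 = -1 := by decide +kernel
    refine (mem_F _).2 ?_
    simp only [wN_cons, wN_nil, map_mul, map_one, s 19 16 (by decide) (by decide +kernel),
      s 16 15 (by decide) (by decide +kernel), s 15 19 (by decide) (by decide +kernel), η]
    simpa [wN_cons, Ex.ev] using e
  have h3 : (tD4 α).X1 ((tD4 α).Op (nD4 1)) ≤ M := fun g hg => by
    obtain ⟨t, ht, rfl⟩ := (mem_Op1 hc (i := nD4 1) rfl).1 hg
    obtain ⟨a, ha⟩ := exists_tr25 (K := K) (d := 2) h2 hK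
    simp only [Finset.sum_range_succ, Finset.sum_range_zero, pow_zero, pow_one, zero_add, sq, pow_mul,
      ← hq] at ha
    have hu : t * a / (a + α a + α (α a)) + α (t * a / (a + α a + α (α a))) +
        α (α (t * a / (a + α a + α (α a)))) = t := by
      have e : α (a + α a + α (α a)) = a + α a + α (α a) := by rw [map_add, map_add, hα]; ring
      simp only [map_div₀, map_mul, e, show α t = t from ht]; field_simp
    generalize t * a / (a + α a + α (α a)) = u at hu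
    have e := wN_eq_of_colChk (𝔸).toSys0 (p := 0) (by simp) [u, α u, α (α u)] tab_D4 (by decide +kernel :
      colChk tabD4 0 id 12 [(19, .c 1), (16, .c (-1)), (15, .c (-1)), (5, .v 0), (10, .v 1), (11, .v 2)]
        [(5, .v 0), (10, .v 1), (11, .v 2), (19, .c 1), (16, .c (-1)), (15, .c (-1)),
          (14, .v 0 + .v 1 + .v 2)] = true)
    refine mem_of_comm25 (h0' ((t0.mem_On hc).2 ⟨u, rfl⟩)) hY ?_
    rw [← xN_eq (𝔸).x (k := 5) _ (by decide +kernel), ← xN_eq (𝔸).x (k := 10) _ (by decide +kernel),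
      ← xN_eq (𝔸).x (k := 11) _ (by decide +kernel), ← xN_eq (𝔸).x (k := 14) _ (by decide +kernel), ← hu]
    simpa [wN_cons, Ex.ev, mul_assoc, α_eq] using e
  have h3' := h3
  rw [Op1 (i := nD4 1) rfl, RL_one25] at h3'
  refine ok.G1_le25 rep_spec fun a => ?_
  fin_cases a
  · exact ⟨h, h0'⟩
  · refine ⟨h3, ?_⟩
    change (tD4 α).X1 ((tD4 α).On (nD4 1)) ≤ M
    rw [On1 (i := nD4 1) rfl, RL_one25]
    exact (hn.word hn (List.replicate 3 true)).le tab_D4 h3' (by decide +kernel)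

end TD4

namespace TF4
variable [CharP K 2] {θ : K →+* K}

local notation "𝔸" => adjG chevF4 K
local notation "𝕨" => wN (Sys0.x (Sys.toSys0 (adjG chevF4 K)))

theorem exists_nm25 (hθ : ∀ t, θ (θ t) ^ 2 = t) (u : K) : ∃ b, θ b * b = u := by
  refine Finite.injective_iff_surjective.1 (fun b b' (e : θ b * b = θ b' * b') => ?_) u
  by_cases b0 : b' = 0
  · simpa [b0] using e
  have e1 : θ (b / b') * (b / b') = 1 := by
    rw [map_div₀, div_mul_div_comm, e, div_self (mul_ne_zero ((map_ne_zero θ).2 b0) b0)]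
  have e2 := hθ (b / b')
  rw [eq_inv_of_mul_eq_one_left e1, map_inv₀, eq_inv_of_mul_eq_one_left e1, inv_inv, sq] at e2
  exact (div_eq_one_iff_eq b0).1 (mul_left_cancel₀ (right_ne_zero_of_mul_eq_one e1)
    (e2.trans (mul_one _).symm))

omit [Finite K] in
theorem S_mul25 (hθ : ∀ t, θ (θ t) ^ 2 = t) (t u t' u' : K) :
    𝕨 [(27, θ t), (25, t), (28, θ t * t + u), (30, θ u ^ 2)] *
      𝕨 [(27, θ t'), (25, t'), (28, θ t' * t' + u'), (30, θ u' ^ 2)] =
    𝕨 [(27, θ (t + t')), (25, t + t'), (28, θ (t + t') * (t + t') + (u + u' + θ t * t')),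
      (30, θ (u + u' + θ t * t') ^ 2)] := by
  have := wN_eq_of_colChk (𝔸).toSys0 two_eq [θ t, t, u, θ u, θ t', t', u', θ u'] tab_F4 (by decide +kernel :
    colChk tabF4 2 (κ0 tabF4) 12 [(27, .v 0), (25, .v 1), (28, .v 0 * .v 1 + .v 2), (30, .v 3 ^ 2),
      (27, .v 4), (25, .v 5), (28, .v 4 * .v 5 + .v 6), (30, .v 7 ^ 2)]
      [(27, .v 0 + .v 4), (25, .v 1 + .v 5), (28, (.v 0 + .v 4) * (.v 1 + .v 5) + (.v 2 + .v 6 + .v 0 * .v 5)),
        (30, .v 3 ^ 2 + .v 7 ^ 2 + .v 1 * .v 4 ^ 2)] = true)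
  rw [← wN_append]
  simp only [map_add, map_mul, CharTwo.add_sq, mul_pow, hθ]
  exact this

theorem two_gen25 {e : ℕ} (he : ∀ t, θ t = t ^ e) (hθ : ∀ t, θ (θ t) ^ 2 = t) (hK : 2 < Nat.card K) :
    ∃ a b : twistedF4 K e, closure ({a, b} : Set (twistedF4 K e)) = ⊤ := by
  obtain ⟨b, b1, gen⟩ := exists_gen25 K hK
  obtain ⟨l, hl⟩ := Finite.injective_iff_surjective.1 (Units.map_injective (f := (θ : K →* K)) θ.injective) b⁻¹
  have t3 := ty2 hθ (Or.inr rfl)
  have i3 : (tF4 θ).ι (nF4 3) = nF4 0 := rfl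
  have co : ∀ t u, (tF4 θ).Co25 (nF4 1) (θ t) (𝕨 [(27, θ t), (25, t), (28, θ t * t + u), (30, θ u ^ 2)]) :=
    fun t u => ⟨(mem_Opb hθ).2 ⟨t, u, rfl⟩, _, (𝔸).X_mono (S := RL chevF4 [25, 28, 30])
      (show ∀ r : Rt chevF4, r.val ∈ [25, 28, 30] → Pos r ∧ r ≠ sim (nF4 1) by decide +kernel)
      ((𝔸).wN_mem (w := [(25, t), (28, θ t * t + u), (30, θ u ^ 2)]) (by simp)),
      by rw [wN_cons, xN_eq (𝔸).x (k := 27) (sim (nF4 1)) (by decide +kernel)]⟩
  have w := (by decide +kernel : ∀ i : Fin 4, tabF4.wt (sim (nF4 1)).val i = ![-1, 2, -1, 0] i ∧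
    tabF4.wt (apW tabF4 ([nF4 3, nF4 0, nF4 1, nF4 2, nF4 1, nF4 2].map Fin.val) (sim (nF4 1)).val) i =
      ![-1, -1, 1, 0] i)
  let c : Fin 4 → Kˣ := ![Units.map (θ : K →* K) l, 1, 1, l]
  refine (real he hθ).two_gen25 ((ok hθ).two_gen25 adjG_R3 ((𝔸).H_comm_of_inj adjG_θ_injective) (c := c)
    (torH_mem hθ _ (mem_T1'.2 ⟨(hθ _).symm, by simp [nF4, c], by simp [nF4, c], rfl⟩))
    (L := [nF4 3, nF4 0, nF4 1, nF4 2, nF4 1, nF4 2]) (wd_mem_W1_25 tab_F4 ρ_val _ (by decide +kernel))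
    (by simpa only [map_one] using co 1 0) (b := b) ?_ gen b1 ?_ (fun M h g hg => ?_) (fun M h hn => ?_))
  · refine (tor_tab tab_F4 _ _).trans ?_
    change ∏ i : Fin 4, (c i : K) ^ tabF4.wt _ i.val = _
    simp only [w]
    simp [Fin.prod_univ_four, c, hl]
  · refine ne_of_eq_of_ne (tor_tab tab_F4 _ _) ?_
    rw [← apW_eq, tab_F4]
    change ∏ i : Fin 4, (c i : K) ^ tabF4.wt _ i.val ≠ _
    simp only [w]
    simpa [Fin.prod_univ_four, c, hl] using b1
  · have h1 : ∀ t, ∃ u, 𝕨 [(27, θ t), (25, t), (28, θ t * t + u), (30, θ u ^ 2)] ∈ M := fun t => by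
      obtain ⟨g, g1, g2⟩ := h (θ t)
      obtain ⟨t', u, rfl⟩ := (mem_Opb hθ).1 g2.1
      rw [θ.injective (g2.unique (co t' u))]
      exact ⟨u, g1⟩
    obtain ⟨t, u, rfl⟩ := (mem_Opb hθ).1 hg
    obtain ⟨u', h2⟩ := h1 t
    obtain ⟨s, hs⟩ := exists_nm25 hθ (u - u')
    obtain ⟨v, h3⟩ := h1 s
    have := mul_mem h2 (mul_mem h3 h3)
    rwa [S_mul25 hθ, S_mul25 hθ, CharTwo.add_self_eq_zero s, CharTwo.add_self_eq_zero v, hs, add_zero t,
      show u' + (0 + (u - u')) + θ t * 0 = u by ring] at this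
  have h0 := h
  rw [Op1_eq] at h0
  have h0' : (tF4 θ).X1 ((tF4 θ).On (nF4 1)) ≤ M := by
    rw [On1_eq]
    exact (hn.word hn (List.replicate 4 true)).le tab_F4 h0 (by decide +kernel)
  have hY : 𝕨 [(34, 1), (26, 1), (36, 1)] ∈ M := by
    refine (hn.word hn (List.replicate 3 true)).le tab_F4 h0 (S' := [34, 26, 36, 42]) (by decide +kernel)
      ⟨(𝔸).wN_mem (by simp), ?_⟩
    have e := wN_eq_of_colChk (𝔸).toSys0 two_eq ([] : List K) tab_F4 (by decide +kernel :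
      colChk tabF4 2 id 9 [(26, .c 1), (34, .c 1), (42, .c 1)] [(34, .c 1), (26, .c 1), (36, .c 1)] = true)
    refine (mem_F _).2 ?_
    simp only [wN_cons, wN_nil, map_mul, map_one, σx 34 26 2 (by decide +kernel),
      σx 26 34 1 (by decide +kernel), σx 36 42 2 (by decide +kernel)]
    simpa [wN_cons, Ex.ev] using e
  have h3 : (tF4 θ).X1 ((tF4 θ).Op (nF4 3)) ≤ M := fun g hg => by
    obtain ⟨t, rfl⟩ := (t3.mem_Op fun _ => hc _).1 hg
    have e := wN_eq_of_colChk (𝔸).toSys0 two_eq [θ t, t] tab_F4 (by decide +kernel :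
      colChk tabF4 2 id 16 [(34, .c 1), (26, .c 1), (36, .c 1), (20, .v 0), (22, .v 1), (19, .v 0 * .v 1)]
        [(20, .v 0), (22, .v 1), (19, .v 0 * .v 1), (34, .c 1), (26, .c 1), (36, .c 1),
          (24, .v 1), (33, .v 0)] = true)
    refine mem_of_comm25 (h0' ((mem_Onb hθ).2 ⟨t, 0, rfl⟩)) hY ?_
    rw [i3, ← xN_eq (𝔸).x (k := 24) _ (by decide +kernel), ← xN_eq (𝔸).x (k := 33) _ (by decide +kernel),
      α_eq, e_sim]
    simpa [wN_cons, Ex.ev, mul_assoc, xN_zero] using e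
  have h3' := h3
  rw [t3.Op_eq, i3, RL_two25] at h3'
  refine (ok hθ).G1_le25 rep_spec fun a => ?_
  fin_cases a
  · refine ⟨h3, ?_⟩
    change (tF4 θ).X1 ((tF4 θ).On (nF4 3)) ≤ M
    rw [t3.On_eq, i3, RL_two25]
    exact (hn.word hn (List.replicate 4 true)).le tab_F4 h3' (by decide +kernel)
  · exact ⟨h, h0'⟩

end TF4

end CA.Chev
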