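import Cfsg.Agent.Lib.Lie.HigLin

/-!
Linear algebra for Suzuki 2-groups with a cyclic group of automorphisms of large order.
-/

set_option autoImplicit false

namespace CA.H4Hig

open CA.HigLin

/-- the arithmetic conditions on the order `o` of an element of the field with `2 ^ n` elements -/
def NT (n o : ℕ) : Prop :=
  1 < o ∧ o ∣ 2 ^ n - 1 ∧ (∀ a < n, 2 ^ a ≡ 1 [MOD o] → a = 0) ∧
  (∀ a < n, ∀ b < n, 2 ^ a + 2 ^ b ≡ 1 [MOD o] → a = b) ∧
  ∀ a < n, ∀ j < n, ∀ a' < n, ∀ j' < n, ∀ m < o, m.Coprime o → m * 2 ^ a + 2 ^ j ≡ 1 [MOD o] →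
    m * 2 ^ a' + 2 ^ j' ≡ 1 [MOD o] → a = a' ∧ j = j'

set_option synthInstance.maxSize 2000 in
set_option synthInstance.maxHeartbeats 400000 in
theorem NT_six : NT 6 21 := by
  refine ⟨by decide, by decide, by decide, by decide, ?_⟩
  decide +kernel

theorem two_pow_add_inj {a b c e : ℕ} (h : 2 ^ a + 2 ^ b = 2 ^ c + 2 ^ e) :
    (a = c ∧ b = e) ∨ (a = e ∧ b = c) := by
  have key : ∀ {a b c e : ℕ}, a ≤ b → c ≤ e → a ≤ c → 2 ^ a + 2 ^ b = 2 ^ c + 2 ^ e → a = c ∧ b = e := by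
    intro a b c e h1 h2 h3 h
    obtain ⟨b, rfl⟩ := Nat.exists_eq_add_of_le h1
    obtain ⟨c, rfl⟩ := Nat.exists_eq_add_of_le h3
    obtain ⟨e, rfl⟩ := Nat.exists_eq_add_of_le h2
    have h4 : 1 + 2 ^ b = 2 ^ c * (1 + 2 ^ e) :=
      Nat.eq_of_mul_eq_mul_left (Nat.two_pow_pos a) (by
        simp only [pow_add] at h; linarith)
    rcases c with _ | c
    · rw [pow_zero, one_mul, Nat.add_left_cancel_iff] at h4
      rw [Nat.pow_right_injective le_rfl h4]; simp
    · exfalso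
      rcases b with _ | b
      · have := Nat.two_pow_pos c
        have := Nat.two_pow_pos e
        rw [pow_succ] at h4; nlinarith
      · rw [pow_succ, pow_succ, mul_right_comm] at h4; omega
  rcases le_total a b with h1 | h1 <;> rcases le_total c e with h2 | h2
  · rcases le_total a c with h3 | h3
    · exact Or.inl (key h1 h2 h3 h)
    · have := key h2 h1 h3 h.symm; omega
  · rcases le_total a e with h3 | h3
    · exact Or.inr (key h1 h2 h3 (h.trans (add_comm _ _)))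
    · have := key h2 h1 h3 ((add_comm _ _).trans h.symm); omega
  · rcases le_total b c with h3 | h3
    · have := key h1 h2 h3 ((add_comm _ _).trans h); omega
    · have := key h2 h1 h3 (h.symm.trans (add_comm _ _)); omega
  · rcases le_total b e with h3 | h3
    · have := key h1 h2 h3 ((add_comm _ _).trans (h.trans (add_comm _ _))); omega
    · have := key h2 h1 h3 ((add_comm _ _).trans (h.symm.trans (add_comm _ _))); omega

theorem sidon {n o d : ℕ} (hod : o * d + 1 = 2 ^ n) (hd : d ≤ 2 ^ ((n + 3) / 4 - 1))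
    {a b c e : ℕ} (ha : a < n) (hb : b < n) (hc : c < n) (he : e < n)
    (h : 2 ^ a + 2 ^ b ≡ 2 ^ c + 2 ^ e [MOD o]) : (a = c ∧ b = e) ∨ (a = e ∧ b = c) := by
  obtain ⟨g, hg⟩ : ∃ g, (n + 3) / 4 = g + 1 := ⟨(n + 3) / 4 - 1, by omega⟩
  rw [hg, Nat.add_sub_cancel] at hd
  have hn : 2 ^ n ≡ 1 [MOD o] := by rw [← hod]; simpa using (Nat.modEq_zero_iff_dvd.2 (dvd_mul_right o d)).add_right 1
  obtain ⟨s, hs, h1⟩ : ∃ s, s < n ∧ ∀ x, (x = a ∨ x = b ∨ x = c ∨ x = e) →
      (s ≤ x ∧ x + g < n + s) ∨ x + g < s := by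
    have : ((a ≤ b ∧ b + g < n + a ∨ b + g < a) ∧ (a ≤ c ∧ c + g < n + a ∨ c + g < a) ∧
        (a ≤ e ∧ e + g < n + a ∨ e + g < a)) ∨
      ((b ≤ a ∧ a + g < n + b ∨ a + g < b) ∧ (b ≤ c ∧ c + g < n + b ∨ c + g < b) ∧
        (b ≤ e ∧ e + g < n + b ∨ e + g < b)) ∨
      ((c ≤ a ∧ a + g < n + c ∨ a + g < c) ∧ (c ≤ b ∧ b + g < n + c ∨ b + g < c) ∧
        (c ≤ e ∧ e + g < n + c ∨ e + g < c)) ∨
      ((e ≤ a ∧ a + g < n + e ∨ a + g < e) ∧ (e ≤ b ∧ b + g < n + e ∨ b + g < e) ∧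
        (e ≤ c ∧ c + g < n + e ∨ c + g < e)) := by omega
    rcases this with h1 | h1 | h1 | h1
    · exact ⟨a, ha, by rintro x (rfl | rfl | rfl | rfl) <;> omega⟩
    · exact ⟨b, hb, by rintro x (rfl | rfl | rfl | rfl) <;> omega⟩
    · exact ⟨c, hc, by rintro x (rfl | rfl | rfl | rfl) <;> omega⟩
    · exact ⟨e, he, by rintro x (rfl | rfl | rfl | rfl) <;> omega⟩
  have h2 : ∀ x, (x = a ∨ x = b ∨ x = c ∨ x = e) → ∃ y, y + g < n ∧ 2 ^ x * 2 ^ (n - s) ≡ 2 ^ y [MOD o] ∧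
      ((s ≤ x ∧ y + s = x) ∨ (x < s ∧ y + s = x + n)) := by
    intro x hx
    rcases h1 x hx with h3 | h3
    · refine ⟨x - s, by omega, ?_, by omega⟩
      rw [← pow_add, show x + (n - s) = x - s + n by omega, pow_add]
      simpa using hn.mul_left (2 ^ (x - s))
    · exact ⟨x + (n - s), by omega, by rw [pow_add], by omega⟩
  obtain ⟨a', a1, a2, a3⟩ := h2 a (by simp)
  obtain ⟨b', b1, b2, b3⟩ := h2 b (by simp)
  obtain ⟨c', c1, c2, c3⟩ := h2 c (by simp)
  obtain ⟨e', e1, e2, e3⟩ := h2 e (by simp)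
  have h3 := h.mul_right (2 ^ (n - s))
  rw [add_mul, add_mul] at h3
  have h4 := (a2.add b2).symm.trans (h3.trans (c2.add e2))
  obtain ⟨k, rfl⟩ : ∃ k, n = k + 1 + g := ⟨n - 1 - g, by omega⟩
  have h5 : ∀ y, y + g < k + 1 + g → 1 ≤ 2 ^ y ∧ 2 ^ y ≤ 2 ^ k := fun y hy =>
    ⟨Nat.one_le_two_pow, Nat.pow_le_pow_right two_pos (by omega)⟩
  have h6 : 2 * 2 ^ k ≤ o + 1 := by
    have h7 := Nat.two_pow_pos g
    refine Nat.le_of_mul_le_mul_right (c := 2 ^ g) ?_ h7
    have : o * d ≤ o * 2 ^ g := Nat.mul_le_mul_left _ hd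
    rw [pow_add, pow_succ] at hod
    nlinarith
  have h7 := h5 _ a1
  have h8 := h5 _ b1
  have h9 := h5 _ c1
  have h10 := h5 _ e1
  have h11 := two_pow_add_inj (h4.eq_of_abs_lt (by
    rw [abs_lt]; push_cast
    have : ∀ y : ℕ, (2 : ℤ) ^ y = ((2 ^ y : ℕ) : ℤ) := fun y => by push_cast; rfl
    simp only [this]
    omega))
  omega

theorem NT_of_le {n o d : ℕ} (hn : 2 ≤ n) (hod : o * d + 1 = 2 ^ n) (hd : d ≤ 2 ^ ((n + 3) / 4 - 1)) :
    NT n o := by
  have hn' : 2 ^ n ≡ 1 [MOD o] := by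
    rw [← hod]; simpa using (Nat.modEq_zero_iff_dvd.2 (dvd_mul_right o d)).add_right 1
  have h1 : 1 < o := by
    by_contra h
    have := sidon hod hd (a := 0) (b := 0) (c := 1) (e := 1) (by omega) (by omega) (by omega) (by omega) (by
      have : o = 0 ∨ o = 1 := by omega
      rcases this with rfl | rfl
      · have := Nat.one_lt_two_pow (n := n) (by omega); omega
      · exact Nat.modEq_one)
    omega
  have hmod : ∀ x, 2 ^ x ≡ 2 ^ (x % n) [MOD o] := fun x => by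
    conv_lhs => rw [← Nat.mod_add_div x n, pow_add, pow_mul]
    simpa using (hn'.pow (x / n)).mul_left (2 ^ (x % n))
  refine ⟨h1, ⟨d, by omega⟩, fun a ha h => ?_, fun a ha b hb h => ?_,
    fun a ha j hj a' ha' j' hj' m _ hm h h' => ?_⟩
  · have := sidon hod hd (a := a) (b := 0) (c := 0) (e := 0) ha (by omega) (by omega) (by omega)
      (h.add_right _)
    omega
  · obtain ⟨k, rfl⟩ : ∃ k, n = k + 1 := ⟨n - 1, by omega⟩
    have := sidon hod hd (c := k) (e := k) ha hb (by omega) (by omega)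
      (h.trans (by rw [← two_mul, ← pow_succ']; exact hn'.symm))
    omega
  · have h2 : 2 ^ a' + 2 ^ ((a + j') % n) ≡ 2 ^ a + 2 ^ ((a' + j) % n) [MOD o] := by
      refine ((hmod _).symm.add_left _).trans (Nat.ModEq.trans ?_ ((hmod _).add_left _))
      refine Nat.ModEq.add_left_cancel' (m * 2 ^ a * 2 ^ a') ?_
      have e1 := h.mul_right (2 ^ a')
      have e2 := h'.mul_right (2 ^ a)
      have e3 := e1.symm.add e2
      convert e3 using 1 <;> ring
    have hpos : 0 < n := by omega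
    rcases sidon hod hd ha' (Nat.mod_lt _ hpos) ha (Nat.mod_lt _ hpos) h2 with ⟨rfl, h3⟩ | ⟨h3, -⟩
    · exact ⟨rfl, (Nat.ModEq.eq_of_lt_of_lt (Nat.ModEq.add_left_cancel' a' h3) hj' hj).symm⟩
    · exfalso
      have h4 : j = 0 := by
        have : a' + 0 ≡ a' + j [MOD n] := by
          rw [Nat.ModEq, add_zero, Nat.mod_eq_of_lt ha']; exact h3
        exact ((Nat.ModEq.add_left_cancel' a' this).eq_of_lt_of_lt hpos hj).symm
      subst h4
      have h5 : o ∣ m * 2 ^ a := Nat.modEq_zero_iff_dvd.1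
        (Nat.ModEq.add_right_cancel' 1 (by simpa using h))
      have h6 : o.Coprime 2 := by
        have : Nat.Coprime (o * d) (2 ^ n) := by rw [← hod]; simp
        exact (Nat.coprime_pow_right_iff hpos _ _).1 this.coprime_mul_right
      have := Nat.Coprime.eq_one_of_dvd (Nat.Coprime.mul_right hm.symm (h6.pow_right a)) h5
      omega

set_option synthInstance.maxSize 2000 in
set_option synthInstance.maxHeartbeats 400000 in
theorem NT_of_dvd {n o d : ℕ} (hn : 2 ≤ n) (hod : o * d + 1 = 2 ^ n) (hd : d ∣ n) : NT n o := by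
  by_cases h : n ≤ 20
  · have key : ∀ n ≤ 20, ∀ d ≤ n, d ∣ n → d ∣ 2 ^ n - 1 →
        d ≤ 2 ^ ((n + 3) / 4 - 1) ∨ (n = 6 ∧ d = 3) := by decide +kernel
    rcases key n h d (Nat.le_of_dvd (by omega) hd) hd ⟨o, by rw [mul_comm]; omega⟩ with h1 | ⟨rfl, rfl⟩
    · exact NT_of_le hn hod h1
    · obtain rfl : o = 21 := by omega
      exact NT_six
  · refine NT_of_le hn hod ((Nat.le_of_dvd (by omega) hd).trans ?_)
    obtain ⟨k, hk⟩ : ∃ k, (n + 3) / 4 - 1 = k + 5 := ⟨(n + 3) / 4 - 6, by omega⟩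
    have := Nat.lt_two_pow_self (n := k)
    rw [hk, pow_add]
    omega

section Field

variable {F : Type*} [Field F] [Fintype F]

/-- `μ` is an element of large order `o` -/
def Gen (o : ℕ) (μ : F) : Prop :=
  μ ≠ 0 ∧ orderOf μ = o ∧ Subring.closure {μ} = ⊤ ∧ ∃ n, Fintype.card F = 2 ^ n ∧ NT n o

theorem Gen.surj {o : ℕ} {l : F} (h : Gen o l) (S : AddSubgroup F) (hS : ∀ w ∈ S, l * w ∈ S)
    {w : F} (hw : w ∈ S) (hw0 : w ≠ 0) (z : F) : z ∈ S := by
  have key : ∀ c, ∀ w ∈ S, c * w ∈ S := by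
    intro c
    have hc : c ∈ Subring.closure {l} := h.2.2.1 ▸ Subring.mem_top c
    induction hc using Subring.closure_induction with
    | mem c hc => rw [hc]; exact hS
    | zero => exact fun w _ => by rw [zero_mul]; exact S.zero_mem
    | one => exact fun w hw => by rwa [one_mul]
    | add a b _ _ h1 h2 => exact fun w hw => by rw [add_mul]; exact S.add_mem (h1 w hw) (h2 w hw)
    | neg a _ h1 => exact fun w hw => by rw [neg_mul]; exact S.neg_mem (h1 w hw)
    | mul a b _ _ h1 h2 => exact fun w hw => by rw [mul_assoc]; exact h1 _ (h2 w hw)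
  simpa [hw0] using key (z / w) w hw

theorem Gen.aut_eq {o : ℕ} {l : F} (h : Gen o l) {σ τ : F ≃+* F} (e : σ l = τ l) : σ = τ := by
  have := RingHom.eq_of_eqOn_set_dense h.2.2.1 (f := (σ : F →+* F)) (g := (τ : F →+* F))
    (by rintro _ rfl; exact e)
  exact RingEquiv.ext fun x => DFunLike.congr_fun this x

variable [CharP F 2]

theorem aut_pow {n : ℕ} (hn : Fintype.card F = 2 ^ n) (σ : F ≃+* F) :
    ∃ a < n, ∀ x, σ x = x ^ 2 ^ a := by
  let _ := ZMod.algebra F 2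
  obtain ⟨i, hi⟩ := FiniteField.exists_forall_apply_eq_pow (ZMod 2) 2 F (CA.FieldAut.toAlg F 2 σ)
  have h0 : 0 < n := Nat.pos_of_ne_zero (by
    rintro rfl; exact Fintype.one_lt_card.ne' hn)
  refine ⟨i % n, Nat.mod_lt _ h0, fun x => (hi x).trans ?_⟩
  rw [Nat.card_zmod]
  conv_lhs => rw [← Nat.div_add_mod i n, pow_add, pow_mul, pow_mul, ← hn, FiniteField.pow_card_pow]

omit [CharP F 2] in
theorem Gen.modEq {o : ℕ} {l : F} (h : Gen o l) {a : ℕ} (e : l ^ a = l) : a ≡ 1 [MOD o] := by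
  have : Units.mk0 l h.1 ^ a = Units.mk0 l h.1 ^ 1 := Units.ext (by simpa using e)
  rwa [pow_eq_pow_iff_modEq, ← orderOf_units, Units.val_mk0, h.2.1] at this

omit [CharP F 2] in
theorem Gen.exists_pow {o : ℕ} {l μ : F} (h : Gen o l) (h' : Gen o μ) :
    ∃ m < o, m.Coprime o ∧ μ = l ^ m := by
  classical
  obtain ⟨n, -, h1, -⟩ := h.2.2.2
  have e1 : orderOf (Units.mk0 l h.1) = o := by rw [← orderOf_units, Units.val_mk0, h.2.1]
  have e2 : orderOf (Units.mk0 μ h'.1) = o := by rw [← orderOf_units, Units.val_mk0, h'.2.1]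
  have e3 : Subgroup.zpowers (Units.mk0 l h.1) = (powMonoidHom o : Fˣ →* Fˣ).ker := by
    refine Subgroup.eq_of_le_of_card_ge (Subgroup.zpowers_le.2
      (orderOf_dvd_iff_pow_eq_one.1 e1.dvd)) ?_
    rw [IsCyclic.card_powMonoidHom_ker, Nat.card_zpowers, e1]
    exact Nat.gcd_le_right _ (by omega)
  have e4 : Units.mk0 μ h'.1 ∈ Subgroup.zpowers (Units.mk0 l h.1) := by
    rw [e3]; exact orderOf_dvd_iff_pow_eq_one.1 e2.dvd
  rw [mem_zpowers_iff_mem_range_orderOf, Finset.mem_image] at e4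
  obtain ⟨m, hm, e5⟩ := e4
  rw [Finset.mem_range, e1] at hm
  refine ⟨m, hm, ?_, by simpa using (congrArg Units.val e5).symm⟩
  rw [← e5, orderOf_pow, e1] at e2
  exact (Nat.div_eq_self.1 e2).resolve_left (by omega) |> Nat.Coprime.symm

theorem nondeg (B : F →+ F →+ F) {o : ℕ} {μ l : F} (hμ : Gen o μ) (hl : Gen o l)
    (h : ∀ x y, B (μ * x) (l * y) = l * B x y)
    {x0 y0 : F} (h0 : B x0 y0 ≠ 0) {x y : F} (hx : x ≠ 0) (hy : y ≠ 0) : B x y ≠ 0 := by
  classical
  have := CA.FieldAut.finite_aut F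
  let _ := Fintype.ofFinite (F ≃+* F)
  obtain ⟨c, hc, h1⟩ := exists_sum_equivariant B h
  obtain ⟨s, -, hs⟩ := Finset.exists_ne_zero_of_sum_ne_zero (hc x0 y0 ▸ h0)
  have hs1 := left_ne_zero_of_mul hs
  have h2 : ∀ s', s' ≠ s → c s' = 0 := by
    intro s' hne
    by_contra h3
    have h4 := h1 s hs1
    have h5 := h1 s' h3
    obtain ⟨m, hm, hm', rfl⟩ := hl.exists_pow hμ
    obtain ⟨n, hn, -, -, -, -, hN⟩ := hl.2.2.2
    obtain ⟨a, ha, ea⟩ := aut_pow hn s.1
    obtain ⟨j, hj, ej⟩ := aut_pow hn s.2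
    obtain ⟨a', ha', ea'⟩ := aut_pow hn s'.1
    obtain ⟨j', hj', ej'⟩ := aut_pow hn s'.2
    rw [ea, ej, ← pow_mul, ← pow_add] at h4
    rw [ea', ej', ← pow_mul, ← pow_add] at h5
    obtain ⟨rfl, rfl⟩ := hN a ha j hj a' ha' j' hj' m hm hm' (hl.modEq h4) (hl.modEq h5)
    exact hne (Prod.ext (RingEquiv.ext fun z => by rw [ea, ea']) (RingEquiv.ext fun z => by rw [ej, ej']))
  rw [hc, Finset.sum_eq_single s (fun s' _ hne => by rw [h2 s' hne, zero_mul]) (by simp)]
  exact mul_ne_zero hs1 (mul_ne_zero (by simpa using hx) (by simpa using hy))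

theorem alt_zero (B : F →+ F →+ F) {o : ℕ} {l : F} (hl : Gen o l)
    (h : ∀ x y, B (l * x) (l * y) = l * B x y) (h0 : B 1 1 = 0) (x y : F) : B x y = 0 := by
  classical
  have := CA.FieldAut.finite_aut F
  let _ := Fintype.ofFinite (F ≃+* F)
  obtain ⟨c, hc, h1⟩ := exists_sum_equivariant B h
  let ρ := (frobeniusEquiv F 2).symm
  have h2 : ∀ s, s ≠ (ρ, ρ) → c s = 0 := by
    intro s hne
    by_contra h3
    have h4 : ρ l * ρ l = l := by rw [← pow_two]; exact frobenius_apply_frobeniusEquiv_symm F 2 l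
    have h5 := h1 s h3
    obtain ⟨n, hn, -, -, -, hN, -⟩ := hl.2.2.2
    obtain ⟨a, ha, ea⟩ := aut_pow hn s.1
    obtain ⟨j, hj, ej⟩ := aut_pow hn s.2
    have h6 := h5
    rw [ea, ej, ← pow_add] at h6
    obtain rfl := hN a ha j hj (hl.modEq h6)
    have h7 : s.2 l = s.1 l := by rw [ea, ej]
    have h8 : s.1 l = ρ l := by
      have h9 : s.1 l * s.1 l = ρ l * ρ l := by rw [h4]; exact h7 ▸ h1 s h3
      grind
    exact hne (Prod.ext (hl.aut_eq h8) (hl.aut_eq (h7.trans h8)))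
  have h3 : ∀ x y, B x y = c (ρ, ρ) * (ρ x * ρ y) := fun x y => by
    rw [hc, Finset.sum_eq_single (ρ, ρ) (fun s' _ hne => by rw [h2 s' hne, zero_mul]) (by simp)]
  rw [h3] at h0 ⊢
  simp only [map_one, mul_one] at h0
  rw [h0, zero_mul]

omit [CharP F 2] in
theorem card_eq_of_closure {E : Type*} [Field E] [Fintype E] [CharP E 2] {μ : E} {n o : ℕ}
    (hn : Fintype.card F = 2 ^ n) (hN : NT n o)
    (h4 : Subring.closure {μ} = ⊤) (ho : orderOf μ = o) : Fintype.card E = Fintype.card F := by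
  classical
  have h1 := Fintype.one_lt_card (α := F)
  have h5 : ∀ x : E, x ^ Fintype.card F = x := fun x => by
    have : x ∈ RingHom.eqLocus (iterateFrobenius E 2 n) (RingHom.id E) := by
      have hx := Subring.mem_top x
      rw [← h4] at hx
      refine Subring.closure_le.2 ?_ hx
      rintro c rfl
      show iterateFrobenius E 2 n c = c
      rw [iterateFrobenius_def, ← Nat.sub_add_cancel (Nat.one_le_two_pow (n := n)), pow_succ,
        orderOf_dvd_iff_pow_eq_one.1 (ho ▸ hN.2.1), one_mul]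
    rw [hn]; exact (iterateFrobenius_def ..).symm.trans this
  have h7 := Fintype.one_lt_card (α := E)
  obtain ⟨g, hg⟩ := IsCyclic.exists_ofOrder_eq_natCard (α := Eˣ)
  rw [Nat.card_units, Nat.card_eq_fintype_card] at hg
  have h8 : orderOf g ∣ Fintype.card F - 1 := orderOf_dvd_of_pow_eq_one (Units.ext (by
    rw [Units.val_pow_eq_pow_val, Units.val_one]
    exact mul_right_cancel₀ g.ne_zero (by rw [← pow_succ, Nat.sub_add_cancel h1.le, h5, one_mul])))
  have h9 : μ ≠ 0 := by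
    rintro rfl
    have := pow_orderOf_eq_one (0 : E)
    rw [ho, zero_pow (by have := hN.1; omega)] at this
    exact zero_ne_one this
  have h10 : orderOf μ ∣ Fintype.card E - 1 := orderOf_dvd_of_pow_eq_one (FiniteField.pow_card_sub_one_eq_one μ h9)
  have h11 := Nat.le_of_dvd (by omega) h8
  obtain ⟨m, -, hm⟩ := FiniteField.card E 2
  refine le_antisymm (by omega) ?_
  rw [hm, hn]
  refine Nat.pow_le_pow_right two_pos (not_lt.1 fun hlt => m.ne_zero (hN.2.2.1 m hlt ?_))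
  rw [ho, hm] at h10
  exact ((Nat.modEq_iff_dvd' Nat.one_le_two_pow).2 h10).symm

omit [CharP F 2] in
theorem exists_coord {V : Type*} [AddCommGroup V] [Finite V] (h2 : ∀ v : V, v + v = 0) [Nontrivial V]
    (α : AddMonoid.End V) (hirr : ∀ W : AddSubgroup V, (∀ v ∈ W, α v ∈ W) → W = ⊥ ∨ W = ⊤) {n o : ℕ}
    (hn : Fintype.card F = 2 ^ n) (hN : NT n o) (hα : orderOf α = o) :
    ∃ (e : V ≃+ F) (μ : F), Gen o μ ∧ ∀ v, e (α v) = μ * e v := by
  obtain ⟨v0, hv0⟩ := exists_ne (0 : V)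
  obtain ⟨E, _, _, e, he, h3, h4⟩ := exists_field {α} (by rintro _ rfl _ rfl; rfl)
    (fun W hW => hirr W (hW α rfl)) hv0
  obtain ⟨μ, hμ⟩ := h3 α rfl
  have hp : ∀ (n : ℕ) v, e ((α ^ n) v) = μ ^ n * e v := fun n => by
    induction n with
    | zero => simp
    | succ n ih => intro v; rw [pow_succ', pow_succ', mul_assoc, ← ih, ← hμ]; rfl
  have ho : orderOf μ = o := by
    rw [← hα]
    refine orderOf_eq_orderOf_iff.2 fun n => ⟨fun h => ?_, fun h => ?_⟩
    · ext v; apply e.injective; rw [hp, h, one_mul]; rfl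
    · have := hp n v0
      rw [h, he, mul_one] at this
      exact this.symm.trans he
  have : CharP E 2 := CharTwo.of_one_ne_zero_of_two_eq_zero one_ne_zero
    (by rw [← one_add_one_eq_two, ← he, ← map_add, h2, map_zero])
  have h5 : {c | ∃ f ∈ ({α} : Set (AddMonoid.End V)), ∀ v, e (f v) = c * e v} = {μ} := by
    ext c
    refine ⟨?_, by rintro rfl; exact ⟨α, rfl, hμ⟩⟩
    rintro ⟨_, rfl, hc⟩
    have h7 := hc v0
    rw [hμ, he, mul_one, mul_one] at h7
    exact h7.symm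
  rw [h5] at h4
  let r : E ≃+* F := FiniteField.ringEquivOfCardEq (card_eq_of_closure hn hN h4 ho)
  have ho' : orderOf (r μ) = o := by rw [← ho]; exact orderOf_injective r.toMonoidHom r.injective μ
  refine ⟨e.trans r.toAddEquiv, r μ, ⟨?_, ho', ?_, n, hn, hN⟩, fun v => ?_⟩
  · intro h0
    have := pow_orderOf_eq_one (r μ)
    rw [ho', h0, zero_pow (by have := hN.1; omega)] at this
    exact zero_ne_one this
  · have := RingHom.map_closure (r : E →+* F) {μ}
    rw [h4, Set.image_singleton] at this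
    refine this.symm.trans (eq_top_iff.2 fun z _ => ⟨r.symm z, trivial, by simp⟩)
  · show r (e (α v)) = r μ * r (e v)
    rw [hμ, map_mul]

end Field

end CA.H4Hig
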