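import Cfsg.Agent.Lib.Lie.H4HigB

/-!
Higman's theorem on Suzuki 2-groups for a fixed-point-free cyclic group of automorphisms of large order, II.
-/

set_option autoImplicit false

namespace CA.H4Hig

open Subgroup
open CA.HigLin hiding Gen nondeg alt_zero exists_coord card_eq_of_closure
open CA.Higman hiding Hig Crd
open CA.Higman2 (comm_mul_right comm_mul_left sq_mul comm_eq_one conj_eq le_normalizer_of exists_three inv_surj)
open scoped commutatorElement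

universe u

variable {G : Type u} [Group G] {ξ : MulAut G} {P Z A B M : Subgroup G}

variable [Finite G] (h : Hig ξ P Z) {F : Type*} [Field F] [Fintype F] [CharP F 2]
  (hF : Fintype.card F = Nat.card Z)
include h hF

theorem max_ne_bot (hM : Max ξ M P) (hZ : Z ≠ P) : M ≠ ⊥ := by
  rintro rfl
  exact (hM.max Z h.invZ bot_le h.Z_le).elim h.Z_ne_bot hZ

/-- a central maximal invariant subgroup other than `Z` makes `P` abelian -/
theorem ab_central (hM : Max ξ A P) (hc : ∀ a ∈ A, ∀ x ∈ P, a * x = x * a) (h1 : A ≠ ⊥) (hZ : A ≠ Z) :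
    ∀ x ∈ P, ∀ y ∈ P, x * y = y * x := by
  have hA := h.sub hF hM.lt.le hM.inv h1
  have hab : ∀ a ∈ A, ∀ b ∈ A, a * b = b * a := fun a ha b hb => hc a ha b (hM.lt.le hb)
  obtain ⟨cZ, l, hcZ⟩ := h.exists_crd hF h.Z_le h.invZ (h.max_Z hF)
  obtain ⟨c, hc'⟩ := hA.crd_ab hF hab hcZ
  have hsq := hM.sq h.pg h.inv
  have hZA := hA.le_Sq hF hab h.invZ (lt_of_le_of_ne hA.Z_le hZ.symm)
  have hcm : ∀ x ∈ P, ∀ y ∈ P, ⁅x, y⁆ ∈ Z := fun x hx y hy => by
    have h3 : ⁅x, y⁆ ∈ A := comm_mem hsq hx hy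
    refine (h.memZ _).2 ⟨hM.lt.le h3, ?_⟩
    have := comm_mul_right x y y
    rw [comm_eq_one (hc _ (hsq y hy) x hx).symm, conj_eq (hc _ h3 y hy)] at this
    exact this.symm
  obtain ⟨x0, hx0, hx0'⟩ := SetLike.exists_of_lt hM.lt
  have hψ : Crd ξ P A (fun x => c (x * x)) l := crd_of hcZ.gen h.inv (fun x hx y hy => by
      have h3 := hcm _ (inv_mem hx) y hy
      rw [sq_mul, hc'.mul _ (mul_mem (hsq x hx) (hA.Z_le h3)) _ (hsq y hy), hc'.mul _ (hsq x hx) _ (hA.Z_le h3),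
        (hc'.zero _ (hA.Z_le h3)).2 (hZA h3), add_zero]) (fun x hx => by
      rw [hc'.zero _ (hsq x hx), mem_Sq_iff hab]
      refine ⟨?_, fun hx => ⟨x, hx, rfl⟩⟩
      rintro ⟨a, ha, e⟩
      have : x * a⁻¹ ∈ Z := (h.memZ _).2 ⟨mul_mem hx (inv_mem (hM.lt.le ha)), by
        rw [mul_assoc, ← mul_assoc a⁻¹, hc _ (inv_mem ha) x hx, ← mul_assoc, ← mul_assoc, ← e]; group⟩
      simpa using mul_mem (hA.Z_le this) ha)
    (fun x hx => by rw [← map_mul, hc'.act _ (hsq x hx)]) hx0 hx0'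
  obtain ⟨f, hf⟩ := hψ.lift₂ hψ.toAdd (fun x y => cZ ⁅x, y⁆)
    (fun x hx y hy z hz => by
      rw [comm_mul_left, conj_eq (h.cent _ (hcm y hy z hz) x hx), hcZ.mul _ (hcm y hy z hz) _ (hcm x hx z hz), add_comm])
    (fun x hx y hy z hz => by
      rw [comm_mul_right, conj_eq (h.cent _ (hcm x hx z hz) y hy), hcZ.mul _ (hcm x hx y hy) _ (hcm x hx z hz)])
    (fun x hx hA y hy => by rw [comm_eq_one (hc x hA y hy), hcZ.one])
    (fun x hx y hy hA => by rw [comm_eq_one (hc y hA x hx).symm, hcZ.one])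
  intro x hx y hy
  have := alt_zero f hcZ.gen (fun a b => by
      obtain ⟨x, hx, rfl⟩ := hψ.surj a
      obtain ⟨y, hy, rfl⟩ := hψ.surj b
      rw [← hψ.act x hx, ← hψ.act y hy, hf _ (h.inv x hx) _ (h.inv y hy), hf x hx y hy, ← map_commutatorElement,
        hcZ.act _ (hcm x hx y hy)]) (by
      obtain ⟨x, hx, e⟩ := hψ.surj 1
      rw [← e, hf x hx x hx, commutatorElement_self, hcZ.one]) (c (x * x)) (c (y * y))
  rw [hf x hx y hy, hcZ.zero _ (hcm x hx y hy), mem_bot] at this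
  exact commutatorElement_eq_one_iff_mul_comm.1 this

/-- an abelian non-central maximal invariant subgroup -/
theorem ab_nondeg (hM : Max ξ A P) (hab : ∀ a ∈ A, ∀ b ∈ A, a * b = b * a) {a0 x0 : G} (ha0 : a0 ∈ A) (hx0 : x0 ∈ P)
    (h0 : a0 * x0 ≠ x0 * a0) :
    (∀ x ∈ P, x * x ∈ Z) ∧ ∀ x ∈ P, x ∉ A → ∀ a ∈ A, a * x = x * a → a ∈ Z := by
  have h1 : A ≠ ⊥ := by rintro rfl; rw [mem_bot.1 ha0] at h0; simp at h0
  have hA := h.sub hF hM.lt.le hM.inv h1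
  have hsq := hM.sq h.pg h.inv
  have hn : ∀ x ∈ P, ∀ a ∈ A, x * a * x⁻¹ ∈ A := fun x hx a ha => conj_mem_of_sq hsq hM.lt.le hx ha
  have hnil : Group.IsNilpotent P := h.pg.isNilpotent
  have hCA := CA.PGBasic.commutator_lt hnil le_rfl hM.lt.le (le_normalizer_of hn) h1
  have hCi : Inv ξ ⁅A, P⁆ := hM.inv.commutator h.inv
  have hCn : P ≤ normalizer ((⁅A, P⁆ : Subgroup G) : Set G) := by
    rw [commutator_comm]; exact normalizer_commutator_ge_left P A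
  have hcm : ∀ a ∈ A, ∀ x ∈ P, ⁅a, x⁆ ∈ ⁅A, P⁆ := fun a ha x hx => commutator_mem_commutator ha hx
  have hCle : ∀ Y : Subgroup G, (∀ a ∈ A, ∀ x ∈ P, ⁅a, x⁆ ∈ Y) → ⁅A, P⁆ ≤ Y := fun Y hY => commutator_le.2 hY
  generalize ⁅A, P⁆ = C at *
  have hC1 : C ≠ ⊥ := fun e => h0 (commutatorElement_eq_one_iff_mul_comm.1 (mem_bot.1 (e ▸ hcm a0 ha0 x0 hx0)))
  have hCP := hCA.le.trans hM.lt.le
  have hC := h.sub hF hCP hCi hC1
  have hCab : ∀ a ∈ C, ∀ b ∈ C, a * b = b * a := fun a ha b hb => hab a (hCA.le ha) b (hCA.le hb)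
  have hCS := hA.le_Sq hF hab hCi hCA
  have hCC := hC.le_Sq hF hCab (hCi.commutator h.inv) (CA.PGBasic.commutator_lt hnil le_rfl hCP hCn hC1)
  obtain ⟨cZ, l, hcZ⟩ := h.exists_crd hF h.Z_le h.invZ (h.max_Z hF)
  obtain ⟨cA, hcA⟩ := hA.crd_ab hF hab hcZ
  obtain ⟨cC, hcC⟩ := hC.crd_ab hF hCab hcZ
  obtain ⟨c, μ, hc⟩ := h.exists_crd hF le_rfl h.inv hM
  have hcj : ∀ x ∈ P, ∀ y ∈ C, cC (x * y * x⁻¹) = cC y := fun x hx y hy => by
    rw [eq_comm, hcC.eq_iff hy ((mem_normalizer_iff.1 (hCn hx) y).1 hy)]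
    simpa [commutatorElement_def, mul_assoc] using hCC (commutator_mem_commutator (inv_mem hy) hx)
  have hadd : ∀ a ∈ A, ∀ b ∈ A, ∀ x ∈ P, ⁅a * b, x⁆ = ⁅b, x⁆ * ⁅a, x⁆ := fun a ha b hb x hx => by
    rw [comm_mul_left, conj_eq (hab _ (hCA.le (hcm b hb x hx)) a ha)]
  obtain ⟨f, hf⟩ := hc.lift₂ hcA.toAdd (fun x a => cC ⁅a, x⁆)
    (fun x hx y hy a ha => by
      rw [comm_mul_right, hcC.mul _ (hcm a ha x hx) _ ((mem_normalizer_iff.1 (hCn hx) _).1 (hcm a ha y hy)),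
        hcj x hx _ (hcm a ha y hy)])
    (fun x hx a ha b hb => by rw [hadd a ha b hb x hx, hcC.mul _ (hcm b hb x hx) _ (hcm a ha x hx), add_comm])
    (fun x hx hA a ha => by rw [comm_eq_one (hab a ha x hA), hcC.one])
    (fun x hx a ha hS => by
      obtain ⟨b, hb, rfl⟩ := (mem_Sq_iff hab).1 hS
      rw [hadd b hb b hb x hx, hcC.mul _ (hcm b hb x hx) _ (hcm b hb x hx), CharTwo.add_self_eq_zero])
  have h2 : 2 < Fintype.card F := hF ▸ h.two
  have hnd : ∀ x ∈ P, x ∉ A → ∀ a ∈ A, cC ⁅a, x⁆ = 0 → a ∈ Sq A := fun x hx hxA a ha e => by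
    by_contra haS
    have : ∃ a ∈ A, ∃ x ∈ P, cC ⁅a, x⁆ ≠ 0 := by
      by_contra! h3
      exact hC1 (nak hC.pg bot_le ((hCle _ fun a ha x hx => (hcC.zero _ (hcm a ha x hx)).1 (h3 a ha x hx)).trans
        le_sup_right)).symm
    obtain ⟨a1, ha1, x1, hx1, h3⟩ := this
    refine nondeg f hc.gen hcZ.gen (fun u v => ?_) (x0 := c x1) (y0 := cA a1) (by rwa [hf x1 hx1 a1 ha1])
      (fun e => hxA ((hc.zero x hx).1 e)) (fun e => haS ((hcA.zero a ha).1 e)) (by rw [hf x hx a ha, e])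
    obtain ⟨x, hx, rfl⟩ := hc.surj u
    obtain ⟨y, hy, rfl⟩ := hcA.surj v
    rw [← hc.act x hx, ← hcA.act y hy, hf _ (h.inv x hx) _ (hM.inv y hy), hf x hx y hy, ← map_commutatorElement,
      hcC.act _ (hcm y hy x hx)]
  have hx2 : ∀ x ∈ P, x * x ∈ Sq A := fun x hx => by
    by_cases hxA : x ∈ A
    · exact sq_mem_Sq hxA
    · exact hnd x hx hxA _ (hsq x hx) (by rw [comm_eq_one (mul_assoc x x x), hcC.one])
  have hS1 : Sq A ≠ ⊥ := fun e => hC1 (eq_bot_iff.2 (e ▸ hCS))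
  have hS := h.sub hF (Sq_le_self.trans hM.lt.le) hM.inv.Sq hS1
  have hSab : ∀ a ∈ Sq A, ∀ b ∈ Sq A, a * b = b * a := fun a ha b hb => hab a (Sq_le_self ha) b (Sq_le_self hb)
  obtain ⟨x, hx, y, hy, hxA, hyA, hxy⟩ := exists_three h2 hc.toAdd
  have hCe : C = Sq A := by
    by_contra hne
    have h3 := hS.le_Sq hF hSab hCi (lt_of_le_of_ne hCS hne)
    have hj : ∀ b ∈ A, x⁻¹ * b * x ∈ A := fun b hb => by simpa using hn _ (inv_mem hx) b hb
    let φ : A →* G := MonoidHom.mk' (fun b => x⁻¹ * b * x * b) fun b b' => by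
      show x⁻¹ * (b * b') * x * (b * b') = x⁻¹ * b * x * b * (x⁻¹ * b' * x * b')
      rw [mul_assoc (x⁻¹ * b * x) b, ← mul_assoc (b : G) (x⁻¹ * b' * x), hab _ b.2 _ (hj _ b'.2)]; group
    have hφ : ∀ b : A, φ b = b * b * ⁅(b : G)⁻¹, x⁻¹⁆ := fun b => by
      show x⁻¹ * b * x * b = _
      rw [hab _ (hj _ b.2) _ b.2, commutatorElement_def]; group
    have h4 : φ.range = Sq A := nak hS.pg (by
        rintro _ ⟨b, rfl⟩
        rw [hφ]; exact mul_mem (sq_mem_Sq b.2) (hCS (hcm _ (inv_mem b.2) _ (inv_mem hx))))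
      (Sq_le fun b hb => by
        have := mul_mem (mem_sup_left (T := Sq (Sq A)) (show b * b * ⁅b⁻¹, x⁻¹⁆ ∈ φ.range from ⟨⟨b, hb⟩, hφ ⟨b, hb⟩⟩))
          (mem_sup_right (inv_mem (h3 (hcm _ (inv_mem hb) _ (inv_mem hx)))))
        rwa [mul_inv_cancel_right] at this)
    obtain ⟨b, hb⟩ : (x * x)⁻¹ ∈ φ.range := h4 ▸ inv_mem (hx2 x hx)
    have h5 : x * b ∈ Z := (h.memZ _).2 ⟨mul_mem hx (hM.lt.le b.2), by
      rw [← mul_inv_cancel (x * x), ← hb]
      show _ = x * x * (x⁻¹ * b * x * b)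
      group⟩
    exact hxA (by simpa using mul_mem (hA.Z_le h5) (inv_mem b.2))
  subst hCe
  have hSZ : Sq A = Z := by
    by_contra hne
    have h3 := hS.le_Sq hF hSab h.invZ (lt_of_le_of_ne hS.Z_le (Ne.symm hne))
    have key : ∀ x ∈ P, x ∉ A → ∀ a ∈ A, cC ⁅a, x⁆ = cC (a * a) := fun x hx hxA a ha => by
      obtain ⟨b, hb, e⟩ := (mem_Sq_iff hab).1 (hcm a ha x hx)
      have h4 := comm_mul_right a x x
      rw [comm_eq_one (hab a ha _ (hsq x hx)), ← e] at h4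
      have h5 : b * b * ⁅b, x⁆⁻¹ ∈ Z := (h.memZ _).2 ⟨hM.lt.le (mul_mem (mul_mem hb hb) (inv_mem (hCA.le (hcm b hb x hx)))), by
        have e1 : b * b * ⁅b, x⁆⁻¹ = b * (x * b * x⁻¹) := by
          rw [commutatorElement_inv, commutatorElement_def, mul_assoc b b, ← mul_assoc b _ b⁻¹,
            conj_eq (hab _ (hn x hx b hb) b hb)]
        rw [e1, mul_assoc b, ← mul_assoc _ b, hab _ (hn x hx b hb) b hb, h4]; group⟩
      have h6 : cC ⁅b, x⁆ = cC (b * b) := by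
        have := (hcC.zero _ (hS.Z_le h5)).2 (h3 h5)
        rw [hcC.mul _ (sq_mem_Sq hb) _ (inv_mem (hcm b hb x hx)), hcC.inv (hcm b hb x hx)] at this
        exact (add_neg_eq_zero.1 this).symm
      obtain ⟨d, hd, e2⟩ := (mem_Sq_iff hab).1 (hnd x hx hxA _ (mul_mem ha hb) (by
        rw [hadd a ha b hb x hx, hcC.mul _ (hcm b hb x hx) _ (hcm a ha x hx), h6, e, CharTwo.add_self_eq_zero]))
      have h7 := (hcC.zero _ (sq_mem_Sq (mul_mem ha hb))).2 (e2 ▸ sq_mem_Sq (sq_mem_Sq hd))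
      rw [mul_assoc a b, ← mul_assoc b a, hab b hb a ha, mul_assoc a b, ← mul_assoc a a,
        hcC.mul _ (sq_mem_Sq ha) _ (sq_mem_Sq hb), e] at h7
      exact (CharTwo.add_eq_zero.1 h7).symm
    obtain ⟨a, ha, e⟩ := hcA.surj 1
    have h4 := key _ (mul_mem hx hy) hxy a ha
    have h5 := h4
    rw [← hf _ (mul_mem hx hy) a ha, hc.mul x hx y hy, map_add, AddMonoidHom.add_apply, hf x hx a ha, hf y hy a ha,
      key x hx hxA a ha, key y hy hyA a ha, CharTwo.add_self_eq_zero] at h5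
    exact one_ne_zero (e ▸ (hcA.zero a ha).2 (hnd _ (mul_mem hx hy) hxy a ha (h4.trans h5.symm)))
  exact ⟨hSZ ▸ hx2, fun x hx hxA a ha e => hSZ ▸ hnd x hx hxA a ha (by rw [comm_eq_one e, hcC.one])⟩

omit [Finite G] [Fintype F] [CharP F 2] hF in
/-- the squaring map and the commutator form -/
theorem exists_quad (hsq : ∀ x ∈ P, x * x ∈ Z) {V : Type*} [AddCommGroup V] {π : G → V} (hπ : Add P Z π)
    {cZ : G → F} (hcZ : Add Z ⊥ cZ) : ∃ (N : V → F) (f : V →+ V →+ F), (∀ x ∈ P, N (π x) = cZ (x * x)) ∧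
      (∀ x ∈ P, ∀ y ∈ P, f (π x) (π y) = cZ ⁅x, y⁆) ∧ (∀ u v, N (u + v) = N u + N v + f v u) ∧
      ∀ v, N v = 0 ↔ v = 0 := by
  have hcm : ∀ x ∈ P, ∀ y ∈ P, ⁅x, y⁆ ∈ Z := fun x hx y hy => comm_mem hsq hx hy
  obtain ⟨f, hf⟩ := hπ.lift₂ hπ (fun x y => cZ ⁅x, y⁆)
    (fun x hx y hy z hz => by
      rw [comm_mul_left, conj_eq (h.cent _ (hcm y hy z hz) x hx), hcZ.mul _ (hcm y hy z hz) _ (hcm x hx z hz), add_comm])
    (fun x hx y hy z hz => by
      rw [comm_mul_right, conj_eq (h.cent _ (hcm x hx z hz) y hy), hcZ.mul _ (hcm x hx y hy) _ (hcm x hx z hz)])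
    (fun x _ hA y hy => by rw [comm_eq_one (h.cent x hA y hy), hcZ.one])
    (fun x hx y _ hA => by rw [comm_eq_one (h.cent y hA x hx).symm, hcZ.one])
  choose s hs hs' using hπ.surj
  have hN : ∀ x ∈ P, s (π x) * s (π x) = x * x := fun x hx => by
    have h1 := (hπ.eq_iff hx (hs _)).1 (hs' _).symm
    rw [← mul_inv_cancel_left x (s (π x)), mul_assoc x, ← mul_assoc _ x, h.cent _ h1 x hx, mul_assoc x, h.sq h1,
      mul_one]
  refine ⟨fun v => cZ (s v * s v), f, fun x hx => by simp only [hN x hx], hf, fun u v => ?_, fun v => ?_⟩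
  · have h1 := hN _ (mul_mem (hs u) (hs v))
    have h2 := hf _ (hs v) _ (hs u)
    rw [hπ.mul _ (hs u) _ (hs v), hs', hs'] at h1
    rw [hs', hs'] at h2
    have h3 := hcm _ (hs v) _ (hs u)
    have e : s u * s v * (s u * s v) = s u * (⁅s v, s u⁆ * (s u * (s v * s v))) := by
      rw [commutatorElement_def]; group
    simp only [h1, h2]
    rw [e, h.cent _ h3 _ (mul_mem (hs u) (mul_mem (hs v) (hs v))), ← mul_assoc, ← mul_assoc (s u) (s u),
      hcZ.mul _ (mul_mem (hsq _ (hs u)) (hsq _ (hs v))) _ h3, hcZ.mul _ (hsq _ (hs u)) _ (hsq _ (hs v))]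
  · simp only
    rw [hcZ.zero _ (hsq _ (hs v)), mem_bot, ← hs' v, hπ.zero _ (hs v), h.memZ, hs']
    simp [hs v]

theorem card_cases (hsq : ∀ x ∈ P, x * x ∈ Z) (hZ : Z ≠ P) :
    Nat.card P = Nat.card Z ^ 2 ∨ Nat.card P = Nat.card Z ^ 3 := by
  obtain ⟨V, _, π, hπ⟩ := exists_add h.Z_le (fun x hx y hy => comm_mem hsq hx hy)
  have := hπ.finite
  let _ := Fintype.ofFinite V
  obtain ⟨cZ, l, hcZ⟩ := h.exists_crd hF h.Z_le h.invZ (h.max_Z hF)
  obtain ⟨N, f, -, -, h1, h2⟩ := exists_quad h hsq hπ hcZ.toAdd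
  obtain ⟨n, -, hn⟩ := FiniteField.card F 2
  have h3 := card_le_sq (fun w => CharTwo.add_self_eq_zero w) N (fun v => f v) h1 h2 hn
  obtain ⟨k, hk⟩ := h.card_pow hF le_rfl h.inv
  have h4 := hπ.card h.Z_le
  have h5 := CA.PGBasic.card_lt_of_lt (lt_of_le_of_ne h.Z_le hZ)
  have h6 := h.two
  rw [hk] at h4 h5 ⊢
  rcases k with _ | _ | _ | _ | k
  · rw [pow_zero] at h5; omega
  · simp at h5
  · exact Or.inl rfl
  · exact Or.inr rfl
  · rw [pow_succ', Nat.mul_right_inj (by omega), Nat.card_eq_fintype_card (α := V), ← hF, hn, ← pow_mul] at h4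
    exact absurd (h4 ▸ pow_dvd_pow 2 (by have := n.pos; nlinarith)) h3

/-- the case that all maximal invariant subgroups are non-abelian -/
theorem nonab (ih : ∀ M, Max ξ M P → Spec M Z ∧ ∃ x ∈ M, ∃ y ∈ M, x * y ≠ y * x) (hZ : Z ≠ P)
    (hna : ∃ x ∈ P, ∃ y ∈ P, x * y ≠ y * x) : Spec P Z := by
  have hcen : ∀ x ∈ P, (∀ y ∈ P, x * y = y * x) → x ∈ Z := fun x hx e => by
    obtain ⟨x0, hx0, y0, hy0, h0⟩ := hna
    obtain ⟨M, h1, hM⟩ := exists_max (ξ := ξ) (Y := P ⊓ centralizer (P : Set G)) (X := P)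
      (fun y hy => ⟨h.inv y hy.1, fun z hz => by
        obtain ⟨z, hz', rfl⟩ := inv_surj h.inv hz
        rw [← map_mul, ← map_mul, hy.2 _ hz']⟩)
      (lt_of_le_of_ne inf_le_left fun e => h0 ((show y0 ∈ P ⊓ centralizer (P : Set G) from e.symm ▸ hy0).2 x0 hx0))
    exact (ih M hM).1.center x (h1 ⟨hx, fun y hy => (e y hy).symm⟩) fun y hy => e y (hM.lt.le hy)
  refine ⟨?_, hcen⟩
  by_contra hΦ
  have hΦ' : ¬ Sq P ≤ Z := fun e => hΦ fun x hx => e (sq_mem_Sq hx)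
  obtain ⟨M, hZM, hM⟩ := exists_max h.invZ (lt_of_le_of_ne h.Z_le hZ)
  obtain ⟨hs, hMna⟩ := ih M hM
  have hH := h.sub hF hM.lt.le hM.inv (max_ne_bot h hF hM hZ)
  have hΦM : Sq P ≤ M := Sq_le (hM.sq h.pg h.inv)
  have hZΦ := h.Z_le_of_ne_bot hF Sq_le_self h.inv.Sq (fun e => hΦ' (e ▸ bot_le))
  have hn : ∀ x ∈ P, ∀ a ∈ Sq P, x * a * x⁻¹ ∈ Sq P := fun x hx a ha =>
    conj_mem_of_sq (fun _ => sq_mem_Sq) Sq_le_self hx ha
  have hcj : ∀ x ∈ P, ∀ z ∈ Z, x * z * x⁻¹ = z := fun x hx z hz => conj_eq (h.cent z hz x hx)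
  let N : Subgroup G :=
    { carrier := {n | n ∈ Sq P ∧ ∀ x ∈ P, ⁅n, x⁆ ∈ Z}
      one_mem' := ⟨one_mem _, fun x _ => by simp [one_mem]⟩
      mul_mem' := fun {a b} ha hb => ⟨mul_mem ha.1 hb.1, fun x hx => by
        rw [comm_mul_left, hcj _ (Sq_le_self ha.1) _ (hb.2 x hx)]; exact mul_mem (hb.2 x hx) (ha.2 x hx)⟩
      inv_mem' := fun {a} ha => ⟨inv_mem ha.1, fun x hx => by
        have := hcj _ (inv_mem (Sq_le_self ha.1)) _ (inv_mem (ha.2 x hx))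
        rw [show ⁅a⁻¹, x⁆ = a⁻¹ * ⁅a, x⁆⁻¹ * a⁻¹⁻¹ by simp only [commutatorElement_def]; group, this]
        exact inv_mem (ha.2 x hx)⟩ }
  have hNi : Inv ξ N := fun n hn => ⟨h.inv.Sq n hn.1, fun z hz => by
    obtain ⟨z, hz', rfl⟩ := inv_surj h.inv hz
    rw [← map_commutatorElement]; exact h.invZ _ (hn.2 _ hz')⟩
  have hNΦ : N ≤ Sq P := fun n hn => hn.1
  obtain ⟨n0, hn0, hn0Z, hn0'⟩ := CA.PGBasic.exists_layer h.pg.isNilpotent le_rfl Sq_le_self (le_normalizer_of hn) hΦ'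
  have hZN : Z < N := lt_of_le_of_ne (fun z hz => ⟨hZΦ hz, fun x hx => by
    rw [comm_eq_one (h.cent z hz x hx)]; exact one_mem _⟩) fun e => hn0Z (e ▸ (⟨hn0, hn0'⟩ : n0 ∈ N))
  have hNc : ∀ n ∈ N, ∀ y ∈ Sq P, n * y = y * n := fun n hn y hy =>
    (Sq_le (Y := centralizer {n}) (fun x hx => mem_centralizer_singleton_iff.2 (by
      have := comm_mul_right n x x
      rw [hcj x hx _ (hn.2 x hx), h.sq (hn.2 x hx)] at this
      exact (commutatorElement_eq_one_iff_mul_comm.1 this).symm)) hy) n rfl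
  have hΦM' : Sq P < M := lt_of_le_of_ne hΦM fun e => hn0Z (hs.center n0 (hΦM hn0) fun y hy =>
    hNc n0 ⟨hn0, hn0'⟩ y (e ▸ hy))
  have h1 := h.card_mul_le hF (hNΦ.trans Sq_le_self) hNi h.invZ hZN
  have h2 := h.card_mul_le hF hM.lt.le hM.inv h.inv.Sq hΦM'
  have h3 := card_le_of_le hNΦ
  have h4 := h.two
  have h5 : Nat.card M ≤ Nat.card Z * Nat.card Z * Nat.card Z := by
    rcases card_cases hH hF hs.sq (hZN.trans_le (hNΦ.trans hΦM)).ne with e | e <;> rw [e] <;> nlinarith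
  have h6 : Nat.card (Sq P) = Nat.card Z * Nat.card Z := by nlinarith
  have hN : N = Sq P := CA.PGBasic.eq_of_le_of_card_le hNΦ (by omega)
  have hNZ : ∀ n ∈ Sq P, ∀ x ∈ P, ⁅n, x⁆ ∈ Z := fun n hn => (show n ∈ N from hN ▸ hn).2
  rw [hN] at hNc
  clear_value N
  have hmax : Max ξ (Sq P) M := h.max_of_card hF hM.lt.le hM.inv h.inv.Sq hΦM (by nlinarith)
  have hmax' : Max ξ Z (Sq P) := h.max_of_card hF Sq_le_self h.inv.Sq h.invZ hZΦ h6
  have hnd : ∀ x ∈ M, x ∉ Sq P → ∀ a ∈ Sq P, a * x = x * a → a ∈ Z := by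
    by_cases hc : ∀ y ∈ M, n0 * y = y * n0
    · exact absurd (hs.center n0 (hΦM hn0) hc) hn0Z
    push Not at hc
    obtain ⟨y, hy, hc⟩ := hc
    exact (ab_nondeg hH hF hmax hNc hn0 hy hc).2
  have hcm : ∀ x ∈ P, ∀ y ∈ P, ⁅x, y⁆ ∈ Sq P := fun x hx y hy => comm_mem (fun _ => sq_mem_Sq) hx hy
  have hcM : ∀ x ∈ M, ∀ y ∈ M, ⁅x, y⁆ ∈ Z := fun x hx y hy => comm_mem hs.sq hx hy
  obtain ⟨c, μ, hc⟩ := h.exists_crd hF le_rfl h.inv hM
  obtain ⟨cN, ν, hcN⟩ := h.exists_crd hF Sq_le_self h.inv.Sq hmax'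
  obtain ⟨cM, κ, hcM'⟩ := h.exists_crd hF hM.lt.le hM.inv hmax
  have hβ : ∀ z ∈ P, z ∉ M → ∀ x ∈ M, x ∉ Sq P → ⁅z, x⁆ ∉ Z := fun z hz hzM x hx hxN e => by
    have hx' := hM.lt.le hx
    let Y : Subgroup G :=
      { carrier := {z | z ∈ P ∧ ∀ y ∈ M, ⁅z, y⁆ ∈ Z}
        one_mem' := ⟨one_mem _, fun x _ => by simp [one_mem]⟩
        mul_mem' := fun {a b} ha hb => ⟨mul_mem ha.1 hb.1, fun x hx => by
          rw [comm_mul_left, hcj _ ha.1 _ (hb.2 x hx)]; exact mul_mem (hb.2 x hx) (ha.2 x hx)⟩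
        inv_mem' := fun {a} ha => ⟨inv_mem ha.1, fun x hx => by
          have := hcj _ (inv_mem ha.1) _ (inv_mem (ha.2 x hx))
          rw [show ⁅a⁻¹, x⁆ = a⁻¹ * ⁅a, x⁆⁻¹ * a⁻¹⁻¹ by simp only [commutatorElement_def]; group, this]
          exact inv_mem (ha.2 x hx)⟩ }
    have hzY : z ∈ Y := ⟨hz, fun y hy => hnd x hx hxN _ (hcm z hz y (hM.lt.le hy)) (by
      have e1 : ⁅z, x * y⁆ = ⁅z, y * x⁆ := by
        have := h.cent _ (hcM x hx y hy) _ hz
        rw [show x * y = ⁅x, y⁆ * (y * x) by rw [commutatorElement_def]; group, comm_mul_right,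
          comm_eq_one this.symm, one_mul, conj_eq (h.cent _ (hcM x hx y hy) _
            (Sq_le_self (hcm z hz _ (hM.lt.le (mul_mem hy hx))))).symm]
      rw [comm_mul_right, comm_mul_right, hcj y (hM.lt.le hy) _ e,
        ← h.cent _ e _ (Sq_le_self (hcm z hz y (hM.lt.le hy))), mul_right_inj] at e1
      exact (mul_inv_eq_iff_eq_mul.1 e1).symm)⟩
    have hY := (hM.max Y (fun n hn => ⟨h.inv n hn.1, fun z hz => by
      obtain ⟨z, hz', rfl⟩ := inv_surj hM.inv hz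
      rw [← map_commutatorElement]; exact h.invZ _ (hn.2 _ hz')⟩)
      (fun y hy => ⟨hM.lt.le hy, hcM y hy⟩) (fun y hy => hy.1)).resolve_left fun e => hzM (e ▸ hzY)
    refine hΦ fun w hw => hnd x hx hxN _ (sq_mem_Sq hw) ?_
    have h7 : ⁅w⁻¹, x⁆ * (x * x) ∈ Z := mul_mem ((show w⁻¹ ∈ Y from hY ▸ inv_mem hw).2 x hx) (hs.sq x hx)
    have h8 : w * x * (w * x * (w * x)) = w * x * (w * x) * (w * x) := by group
    rw [sq_mul, mul_assoc (w * w), mul_assoc (w * w), h.cent _ h7 _ (mul_mem hw hx')] at h8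
    generalize ⁅w⁻¹, x⁆ * (x * x) = u at h8
    have h9 : w * (w * w * x) * u = w * (x * (w * w)) * u := by
      simpa only [mul_assoc] using h8.symm
    exact mul_left_cancel (mul_right_cancel h9)
  have key : ∀ x ∈ M, x ∉ Sq P → ∀ a ∈ Sq P, ⁅a, x⁆ = a * a := fun x hx hxN a ha => by
    have hx' := hM.lt.le hx
    obtain ⟨f, hf⟩ := hc.lift (fun z => cN ⁅z, x⁆) (fun z hz w hw => by
        have h7 := hcm w hw x hx'
        have : cN (z * ⁅w, x⁆ * z⁻¹) = cN ⁅w, x⁆ := by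
          rw [eq_comm, hcN.eq_iff h7 (hn z hz _ h7)]
          simpa only [commutatorElement_def (⁅w, x⁆⁻¹), inv_inv, mul_assoc] using hNZ _ (inv_mem h7) z hz
        rw [comm_mul_left, hcN.mul _ (hn z hz _ h7) _ (hcm z hz x hx'), this, add_comm])
      (fun z hz hzM => (hcN.zero _ (hcm z hz x hx')).2 (hcM z hzM x hx))
    obtain ⟨v, hv⟩ := Finite.injective_iff_surjective.1 ((injective_iff_map_eq_zero f).2 fun v hv => by
      obtain ⟨z, hz, rfl⟩ := hc.surj v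
      by_contra h7
      rw [hf z hz, hcN.zero _ (hcm z hz x hx')] at hv
      exact hβ z hz (fun e => h7 ((hc.zero z hz).2 e)) x hx hxN hv) (cN a)
    obtain ⟨z, hz, rfl⟩ := hc.surj v
    have h7 := hcm z hz x hx'
    rw [hf z hz, hcN.eq_iff h7 ha] at hv
    have h8 := comm_mul_right z x x
    rw [comm_eq_one (h.cent _ (hs.sq x hx) z hz).symm] at h8
    generalize ⁅z, x⁆ = b at *
    have h9 := h.cent _ hv
    have h10 : ⁅b, x⁆ = b * b := by
      rw [commutatorElement_def, mul_assoc, mul_assoc, mul_right_inj, ← inv_inj]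
      simpa [mul_assoc] using (eq_inv_of_mul_eq_one_right h8.symm)
    rw [← mul_inv_cancel_left b a, comm_mul_left, comm_eq_one (h9 x hx'), h10, mul_assoc b (b⁻¹ * a),
      ← mul_assoc (b⁻¹ * a), h9 b (Sq_le_self h7), mul_assoc b (b⁻¹ * a), h.sq hv]
    group
  obtain ⟨x, hx, y, hy, hxN, hyN, hxy⟩ := exists_three (hF ▸ h4) hcM'.toAdd
  have h7 := key _ (mul_mem hx hy) hxy n0 hn0
  have h8 := hs.sq n0 (hΦM hn0)
  rw [comm_mul_right, key x hx hxN n0 hn0, key y hy hyN n0 hn0, hcj x (hM.lt.le hx) _ h8, h.sq h8] at h7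
  exact hn0Z ((h.memZ _).2 ⟨Sq_le_self hn0, h7.symm⟩)

/-- Higman's theorem -/
theorem spec (hna : ∃ x ∈ P, ∃ y ∈ P, x * y ≠ y * x) : Spec P Z := by
  induction P using WellFoundedLT.induction with
  | ind P ih =>
    obtain ⟨x0, hx0, y0, hy0, h0⟩ := hna
    have hZ : Z ≠ P := by rintro rfl; exact h0 (h.cent _ hx0 _ hy0)
    by_cases hc : ∃ A, Max ξ A P ∧ ∀ a ∈ A, ∀ b ∈ A, a * b = b * a
    · obtain ⟨A, hM, hab⟩ := hc
      by_cases h1 : ∀ a ∈ A, ∀ x ∈ P, a * x = x * a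
      · have hA : A = Z := by
          by_contra e
          exact h0 (ab_central h hF hM h1 (max_ne_bot h hF hM hZ) e _ hx0 _ hy0)
        subst hA
        refine ⟨hM.sq h.pg h.inv, fun x hx e => ?_⟩
        by_contra hxA
        let Y := P ⊓ centralizer (P : Set G)
        rcases hM.max Y (fun y hy => ⟨h.inv y hy.1, fun z hz => by
          obtain ⟨z, hz', rfl⟩ := inv_surj h.inv hz
          rw [← map_mul, ← map_mul, hy.2 _ hz']⟩)
          (fun a ha => ⟨hM.lt.le ha, fun y hy => (h1 a ha y hy).symm⟩) inf_le_left with e' | e'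
        · exact hxA (e' ▸ (⟨hx, fun y hy => (e y hy).symm⟩ : x ∈ Y))
        · exact h0 ((show y0 ∈ Y from e' ▸ hy0).2 x0 hx0)
      · push Not at h1
        obtain ⟨a, ha, x, hx, h1⟩ := h1
        obtain ⟨h2, h3⟩ := ab_nondeg h hF hM hab ha hx h1
        refine ⟨h2, fun y hy e => ?_⟩
        by_cases hyA : y ∈ A
        · exact h3 x hx (fun hxA => h1 (hab a ha x hxA)) y hyA (e x hx)
        · exact absurd (h.cent a (h3 y hy hyA a ha (e a (hM.lt.le ha)).symm) x hx) h1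
    · push Not at hc
      exact nonab h hF (fun M hM => ⟨ih M hM.lt (h.sub hF hM.lt.le hM.inv (max_ne_bot h hF hM hZ)) (hc M hM), hc M hM⟩)
        hZ ⟨x0, hx0, y0, hy0, h0⟩

end CA.H4Hig
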