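import Cfsg.Agent.Lib.Lie.H4HigC
import Cfsg.Agent.Lib.Lie.Higman3
import Cfsg.Agent.Lib.Perm.HupTr
import Cfsg.Agent.Lib.Grp.H1Hall
import Cfsg.Agent.Lib.Lin.AutFld

/-!
Suzuki 2-groups with a solvable group of automorphisms: reduction to a cyclic group.
-/

set_option autoImplicit false

namespace CA.H4Hig

open Subgroup
open CA.HigLin hiding Gen nondeg alt_zero exists_coord card_eq_of_closure
open CA.Higman hiding Hig Crd
open CA.Higman2 (comm_mul_right comm_mul_left sq_mul comm_eq_one conj_eq le_normalizer_of exists_three inv_surj)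
open scoped commutatorElement

universe u

variable {G : Type u} [Group G] {P Z : Subgroup G}

theorem not_dvd_card [Finite G] (hmem : ∀ x, x ∈ Z ↔ x * x = 1) (hcent : ∀ z ∈ Z, ∀ x, z * x = x * z)
    (hZP : Z ≤ P) (hsq : ∀ x ∈ P, x * x ∈ Z) {n : ℕ} (hn : Nat.card Z = 2 ^ n) :
    ¬ 2 ^ (3 * n + 1) ∣ Nat.card P := by
  have hcm : ∀ x ∈ P, ∀ y ∈ P, ⁅x, y⁆ ∈ Z := fun x hx y hy => comm_mem hsq hx hy
  obtain ⟨V, _, π, hπ⟩ := exists_add hZP (fun x hx y hy => comm_mem hsq hx hy)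
  obtain ⟨W, _, cZ, hcZ⟩ := exists_add (A := Z) (B := ⊥) bot_le (fun x hx y hy => by
    rw [hcent x hx y]; simp)
  have := hπ.finite
  have := hcZ.finite
  let _ := Fintype.ofFinite V
  let _ := Fintype.ofFinite W
  obtain ⟨f, hf⟩ := hπ.lift₂ hπ (fun x y => cZ ⁅x, y⁆)
    (fun x hx y hy z hz => by
      rw [comm_mul_left, conj_eq (hcent _ (hcm y hy z hz) x), hcZ.mul _ (hcm y hy z hz) _ (hcm x hx z hz), add_comm])
    (fun x hx y hy z hz => by
      rw [comm_mul_right, conj_eq (hcent _ (hcm x hx z hz) y), hcZ.mul _ (hcm x hx y hy) _ (hcm x hx z hz)])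
    (fun x _ hA y hy => by rw [comm_eq_one (hcent x hA y), hcZ.one])
    (fun x hx y _ hA => by rw [comm_eq_one (hcent y hA x).symm, hcZ.one])
  choose s hs hs' using hπ.surj
  have hN : ∀ x ∈ P, s (π x) * s (π x) = x * x := fun x hx => by
    have h1 := (hπ.eq_iff hx (hs _)).1 (hs' _).symm
    rw [← mul_inv_cancel_left x (s (π x)), mul_assoc x, ← mul_assoc _ x, hcent _ h1 x, mul_assoc x,
      (hmem _).1 h1, mul_one]
  have h3 := card_le_sq (W := W) (fun w => by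
      obtain ⟨x, hx, rfl⟩ := hcZ.surj w
      rw [← hcZ.mul x hx x hx, (hmem x).1 hx, hcZ.one]) (fun v => cZ (s v * s v)) (fun v => f v)
    (fun u v => by
      have h1 := hN _ (mul_mem (hs u) (hs v))
      have h2 := hf _ (hs v) _ (hs u)
      rw [hπ.mul _ (hs u) _ (hs v), hs', hs'] at h1
      rw [hs', hs'] at h2
      have h3 := hcm _ (hs v) _ (hs u)
      have e : s u * s v * (s u * s v) = s u * (⁅s v, s u⁆ * (s u * (s v * s v))) := by
        rw [commutatorElement_def]; group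
      simp only [h1, h2]
      rw [e, hcent _ h3 _, ← mul_assoc, ← mul_assoc (s u) (s u),
        hcZ.mul _ (mul_mem (hsq _ (hs u)) (hsq _ (hs v))) _ h3, hcZ.mul _ (hsq _ (hs u)) _ (hsq _ (hs v))])
    (fun v => by
      rw [hcZ.zero _ (hsq _ (hs v)), mem_bot, ← hs' v, hπ.zero _ (hs v), hmem, hs']) (n := n) (by
      have := hcZ.card bot_le
      rw [card_bot, one_mul, hn] at this
      rw [← Nat.card_eq_fintype_card, this])
  intro h4
  rw [hπ.card hZP, hn, show 3 * n + 1 = n + (2 * n + 1) by ring, pow_add,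
    Nat.mul_dvd_mul_iff_left (by positivity), Nat.card_eq_fintype_card] at h4
  exact h3 h4

theorem card_eq_fib [Finite G] (hmem : ∀ x, x ∈ Z ↔ x * x = 1) (H : Subgroup (MulAut G))
    (htr : ∀ x ∈ Z, ∀ y ∈ Z, x ≠ 1 → y ≠ 1 → ∃ a ∈ H, a x = y) {z : G} (hz : z ∈ Z) (hz1 : z ≠ 1)
    (hZP : Z ≤ P) (hsq : ∀ x ∈ P, x * x ∈ Z) (hi : ∀ a ∈ H, Inv a P) :
    Nat.card P = Nat.card Z + (Nat.card Z - 1) * Nat.card {x // x ∈ P ∧ x * x = z} := by
  classical
  let _ := Fintype.ofFinite G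
  have h1 : ∀ Q : G → Prop, Nat.card {x // Q x} = (Finset.univ.filter Q).card := fun Q => by
    rw [Nat.card_eq_fintype_card, Fintype.card_subtype]
  change Nat.card {x // x ∈ P} = Nat.card {x // x ∈ Z} + (Nat.card {x // x ∈ Z} - 1) * _
  rw [h1, h1, h1, Finset.card_eq_sum_card_fiberwise (f := fun x => x * x) (t := Finset.univ.filter (· ∈ Z))
    (fun x hx => by simpa using hsq x (by simpa using hx)),
    ← Finset.add_sum_erase _ _ (a := 1) (by simp [one_mem])]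
  congr 1
  · congr 1
    ext x
    simp only [Finset.mem_filter, Finset.mem_univ, true_and, hmem, and_iff_right_iff_imp]
    exact fun hx => hZP ((hmem x).2 hx)
  · rw [Finset.sum_const_nat (m := (Finset.univ.filter fun x => x ∈ P ∧ x * x = z).card),
      Finset.card_erase_of_mem (by simp [one_mem])]
    · congr!
    intro y hy
    simp only [Finset.mem_erase, Finset.mem_filter, Finset.mem_univ, true_and] at hy
    obtain ⟨a, ha, rfl⟩ := htr z hz y hy.2 hz1 hy.1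
    refine Finset.card_bij' (fun x _ => a⁻¹ x) (fun x _ => a x) (fun x hx => ?_) (fun x hx => ?_)
      (by simp) (by simp)
    · simp only [Finset.mem_filter, Finset.mem_univ, true_and] at hx ⊢
      exact ⟨hi _ (inv_mem ha) x hx.1, by rw [← map_mul, hx.2]; simp⟩
    · simp only [Finset.mem_filter, Finset.mem_univ, true_and] at hx ⊢
      exact ⟨hi _ ha x hx.1, by rw [← map_mul, hx.2]⟩

theorem faithful [Finite G] (hG : IsPGroup 2 G) (hmem : ∀ x, x ∈ Z ↔ x * x = 1)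
    (hcent : ∀ z ∈ Z, ∀ x, z * x = x * z) (H : Subgroup (MulAut G)) [Group.IsSolvable H]
    (htr : ∀ x ∈ Z, ∀ y ∈ Z, x ≠ 1 → y ≠ 1 → ∃ a ∈ H, a x = y)
    (hH : ∀ p : ℕ, p.Prime → p ∣ Nat.card H → p ∣ Nat.card Z - 1) :
    ∀ a ∈ H, (∀ z ∈ Z, a z = z) → a = 1 := by
  classical
  have hZi : ∀ a : MulAut G, Inv a Z := fun a x hx => by
    rw [hmem] at hx ⊢; rw [← map_mul, hx, map_one]
  let K : Subgroup H :=
    { carrier := {a | ∀ z ∈ Z, (a : MulAut G) z = z}
      one_mem' := fun _ _ => rfl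
      mul_mem' := fun {a b} ha hb z hz => by
        show (a : MulAut G) ((b : MulAut G) z) = z
        rw [hb z hz, ha z hz]
      inv_mem' := fun {a} ha z hz => by
        show (a : MulAut G)⁻¹ z = z
        conv_lhs => rw [← ha z hz]
        simp }
  have : K.Normal := ⟨fun a ha g z hz => by
    show (g : MulAut G) ((a : MulAut G) ((g : MulAut G)⁻¹ z)) = z
    rw [ha _ (hZi _ z hz)]; simp⟩
  suffices hK : K = ⊥ by
    intro a ha e
    have h1 : (⟨a, ha⟩ : H) ∈ K := e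
    rw [hK, mem_bot] at h1
    exact congrArg Subtype.val h1
  by_contra hK
  obtain ⟨r, R, hr, hRn, hRK, hR1, -, hRp⟩ := CA.H1Basic.exists_normal_pgroup K hK
  have := Fact.mk hr
  obtain ⟨n, hn⟩ := IsPGroup.iff_card.1 (hG.to_subgroup Z)
  have hrq : r ∣ 2 ^ n - 1 := by
    rw [← hn]
    refine hH r hr (dvd_trans ?_ (card_subgroup_dvd_card R))
    obtain ⟨k, hk⟩ := IsPGroup.iff_card.1 hRp
    rcases k with _ | k
    · exact absurd (card_eq_one.1 hk) hR1
    · rw [hk]; exact dvd_pow_self r k.succ_ne_zero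
  obtain ⟨A, ⟨hAi, hAc⟩, hmin⟩ := exists_minimal_of_wellFoundedLT
    (fun A : Subgroup G => (∀ a ∈ H, Inv a A) ∧ ¬ ∀ ρ ∈ R, ∀ x ∈ A, (ρ : MulAut G) x = x)
    ⟨⊤, fun _ _ _ _ => trivial, fun h => hR1 (eq_bot_iff.2 fun ρ hρ =>
      Subtype.ext (MulEquiv.ext fun x => h ρ hρ x trivial))⟩
  have hlt : ∀ B, B < A → (∀ a ∈ H, Inv a B) → ∀ ρ ∈ R, ∀ x ∈ B, (ρ : MulAut G) x = x :=
    fun B hB hi => by_contra fun h => hB.not_ge (hmin ⟨hi, h⟩ hB.le)
  have hA1 : A ≠ ⊥ := by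
    rintro rfl
    exact hAc fun ρ _ x hx => by rw [mem_bot.1 hx, map_one]
  obtain ⟨x0, hx0, hx01⟩ := (bot_or_exists_ne_one A).resolve_left hA1
  obtain ⟨m, hz1, hz⟩ := CA.Higman3.exists_inv_pow (hG x0) hx01
  have hzA := pow_mem hx0 m
  generalize x0 ^ m = z at hz1 hz hzA
  rw [← hmem] at hz
  have hn0 : n ≠ 0 := by
    rintro rfl
    exact hz1 (mem_bot.1 (card_eq_one.1 hn ▸ hz))
  have hr2 : r ≠ 2 := by
    rintro rfl
    have := (Nat.dvd_sub_iff_right Nat.one_le_two_pow (dvd_pow_self 2 hn0)).1 hrq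
    omega
  have hZA : Z ≤ A := fun y hy => by
    by_cases h1 : y = 1
    · rw [h1]; exact one_mem _
    obtain ⟨a, ha, rfl⟩ := htr z hz y hy hz1 h1
    exact hAi a ha z hzA
  let C : Subgroup G :=
    { carrier := {x | x ∈ A ∧ ∀ ρ ∈ R, (ρ : MulAut G) x = x}
      one_mem' := ⟨one_mem _, fun _ _ => map_one _⟩
      mul_mem' := fun hx hy => ⟨mul_mem hx.1 hy.1, fun ρ hρ => by rw [map_mul, hx.2 ρ hρ, hy.2 ρ hρ]⟩
      inv_mem' := fun hx => ⟨inv_mem hx.1, fun ρ hρ => by rw [map_inv, hx.2 ρ hρ]⟩ }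
  have hCA : C ≤ A := fun x hx => hx.1
  have hCi : ∀ a ∈ H, Inv a C := fun a ha x hx => ⟨hAi a ha x hx.1, fun ρ hρ => by
    have := hx.2 _ (hRn.conj_mem' ρ hρ ⟨a, ha⟩)
    conv_rhs => rw [← this]
    simp⟩
  have hSC : ∀ x ∈ A, x * x ∈ C := fun x hx => ⟨mul_mem hx hx, fun ρ hρ =>
    hlt (Sq A) (lt_of_le_of_ne Sq_le_self fun e => hA1 (nak (hG.to_subgroup A) bot_le
      (by rw [e]; exact le_sup_right)).symm) (fun a ha => (hAi a ha).Sq) ρ hρ _ (sq_mem_Sq hx)⟩
  have hB : ∀ D, D ≤ A → (∀ a ∈ H, Inv a D) → (∀ x ∈ A, ∀ ρ ∈ R, x⁻¹ * (ρ : MulAut G) x ∈ D) → D = A := by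
    intro D hD hi h
    by_contra hne
    refine hAc fun ρ hρ x hx => ?_
    have h1 := hlt D (lt_of_le_of_ne hD hne) hi ρ hρ _ (h x hx ρ hρ)
    have h2 : ∀ k : ℕ, ((ρ : MulAut G) ^ k) x = x * (x⁻¹ * (ρ : MulAut G) x) ^ k := fun k => by
      induction k with
      | zero => simp
      | succ k ih => rw [pow_succ', MulAut.mul_apply, ih, map_mul, map_pow, h1, pow_succ', ← mul_assoc, mul_inv_cancel_left]
    obtain ⟨i, hi⟩ := hRp ⟨ρ, hρ⟩
    have h3 : (ρ : MulAut G) ^ r ^ i = 1 := congrArg (fun t : R => ((t : H) : MulAut G)) hi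
    have h4 := h2 (r ^ i)
    rw [h3, MulAut.one_apply, left_eq_mul] at h4
    obtain ⟨j, hj⟩ := hG (x⁻¹ * (ρ : MulAut G) x)
    have h5 := orderOf_eq_one_iff.1 (Nat.eq_one_of_dvd_coprimes
      (((Nat.coprime_primes hr Nat.prime_two).2 hr2).pow i j)
      (orderOf_dvd_of_pow_eq_one h4) (orderOf_dvd_of_pow_eq_one hj))
    exact (inv_mul_eq_one.1 h5).symm
  have hCc : ∀ x ∈ A, ∀ c ∈ C, c * x = x * c := by
    have := hB (A ⊓ centralizer C) inf_le_left (fun a ha x hx => ⟨hAi a ha x hx.1, fun c hc => by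
        have := congrArg a (hx.2 _ (hCi _ (inv_mem ha) c hc))
        simpa using this⟩)
      (fun x hx ρ hρ => ⟨A.mul_mem (A.inv_mem hx) (hAi _ ρ.2 x hx), fun c hc => by
        have h1 := (conj_mem_of_sq hSC hCA hx hc).2 ρ hρ
        rw [map_mul, map_mul, map_inv, hc.2 ρ hρ] at h1
        calc c * (x⁻¹ * (ρ : MulAut G) x) = x⁻¹ * (x * c * x⁻¹) * (ρ : MulAut G) x := by group
          _ = _ := by rw [← h1]; group⟩)
    exact fun x hx c hc => (show x ∈ A ⊓ centralizer C from this.symm ▸ hx).2 c hc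
  have hcm : ∀ x ∈ A, ∀ y ∈ A, ⁅x, y⁆ ∈ Z := fun x hx y hy => by
    have h3 : ⁅x, y⁆ ∈ C := comm_mem hSC hx hy
    have := comm_mul_right x y y
    rw [comm_eq_one (hCc x hx _ (hSC y hy)).symm, conj_eq (hCc y hy _ h3)] at this
    exact (hmem _).2 this.symm
  have hsq : ∀ x ∈ A, x * x ∈ Z := by
    let D : Subgroup G :=
      { carrier := {x | x ∈ A ∧ x * x ∈ Z}
        one_mem' := ⟨one_mem _, by simp [one_mem]⟩
        mul_mem' := fun {x y} hx hy => ⟨mul_mem hx.1 hy.1, by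
          rw [sq_mul]; exact mul_mem (mul_mem hx.2 (hcm _ (inv_mem hx.1) _ hy.1)) hy.2⟩
        inv_mem' := fun {x} hx => ⟨inv_mem hx.1, by rw [← mul_inv_rev]; exact inv_mem hx.2⟩ }
    have := hB D (fun x hx => hx.1) (fun a ha x hx => ⟨hAi a ha x hx.1, by
        rw [← map_mul]; exact hZi a _ hx.2⟩)
      (fun x hx ρ hρ => ⟨mul_mem (inv_mem hx) (hAi _ ρ.2 x hx), by
        have h1 := hcm _ (inv_mem (inv_mem hx)) _ (hAi _ ρ.2 x hx)
        rw [sq_mul, ← map_mul, (hSC x hx).2 ρ hρ, mul_assoc, hcent _ h1, ← mul_assoc]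
        simpa [mul_assoc] using h1⟩)
    exact fun x hx => (show x ∈ D from this.symm ▸ hx).2
  have hZC : Z ≤ C := fun y hy => ⟨hZA hy, fun ρ hρ => hRK hρ y hy⟩
  have e1 := card_eq_fib hmem H htr hz hz1 hZA hsq hAi
  have e2 := card_eq_fib hmem H htr hz hz1 hZC (fun x hx => hsq x hx.1) hCi
  let _ : MulAction R {x // x ∈ A ∧ x * x = z} :=
    { smul := fun ρ x => ⟨((ρ : H) : MulAut G) x, hAi _ (ρ : H).2 _ x.2.1, by
        rw [← map_mul, x.2.2, hRK ρ.2 z hz]⟩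
      one_smul := fun _ => rfl
      mul_smul := fun _ _ _ => rfl }
  have e3 := hRp.card_modEq_card_fixedPoints {x // x ∈ A ∧ x * x = z}
  have e4 : Nat.card (MulAction.fixedPoints R {x // x ∈ A ∧ x * x = z}) =
      Nat.card {x // x ∈ C ∧ x * x = z} := Nat.card_congr
    { toFun := fun x => ⟨x.1.1, ⟨x.1.2.1, fun ρ hρ => congrArg Subtype.val (x.2 ⟨ρ, hρ⟩)⟩, x.1.2.2⟩
      invFun := fun x => ⟨⟨x.1, x.2.1.1, x.2.2⟩, fun ρ => Subtype.ext (x.2.1.2 ρ.1 ρ.2)⟩
      left_inv := fun _ => rfl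
      right_inv := fun _ => rfl }
  rw [e4] at e3
  have e5 := not_dvd_card hmem hcent hZA hsq hn
  have e6 := CA.PGBasic.card_lt_of_lt (lt_of_le_of_ne hCA fun e =>
    hAc fun ρ hρ x hx => (show x ∈ C from e.symm ▸ hx).2 ρ hρ)
  have e7 := card_le_of_le hZC
  obtain ⟨i, hi⟩ := IsPGroup.iff_card.1 (hG.to_subgroup A)
  obtain ⟨j, hj⟩ := IsPGroup.iff_card.1 (hG.to_subgroup C)
  rw [hi] at e1 e5 e6
  rw [hj] at e2 e6 e7
  rw [hn] at e1 e2 e7
  rw [Nat.pow_dvd_pow_iff_le_right one_lt_two] at e5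
  rw [Nat.pow_lt_pow_iff_right one_lt_two] at e6
  rw [Nat.pow_le_pow_iff_right one_lt_two] at e7
  obtain ⟨k, rfl⟩ := Nat.exists_eq_add_of_lt e6
  have e8 : (2 ^ n - 1) * r ∣ 2 ^ j * (2 ^ (k + 1) - 1) := by
    rw [Nat.mul_sub, ← pow_add, ← add_assoc, mul_one, e1, e2, Nat.add_sub_add_left, ← Nat.mul_sub]
    exact Nat.mul_dvd_mul_left _ e3.symm.dvd'
  have hodd : (2 ^ n - 1).Coprime 2 := by
    have : Nat.Coprime (2 ^ n - 1) (2 ^ n) := by
      conv_rhs => rw [← Nat.sub_add_cancel (Nat.one_le_two_pow (n := n))]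
      simp
    exact (Nat.coprime_pow_right_iff (Nat.pos_of_ne_zero hn0) _ _).1 this
  have e9 : (2 ^ n - 1) * r ∣ 2 ^ (k + 1) - 1 :=
    (Nat.Coprime.pow_right j (Nat.Coprime.mul_left hodd
      ((Nat.coprime_primes hr Nat.prime_two).2 hr2))).dvd_of_dvd_mul_left e8
  have h3 := Nat.pow_sub_one_gcd_pow_sub_one 2 n (k + 1)
  rw [Nat.gcd_eq_left ((dvd_mul_right _ _).trans e9)] at h3
  have h4 : n = n.gcd (k + 1) := Nat.pow_right_injective le_rfl (by
    have := Nat.one_le_two_pow (n := n); have := Nat.one_le_two_pow (n := n.gcd (k + 1))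
    change 2 ^ n = 2 ^ n.gcd (k + 1); omega)
  obtain ⟨t, ht⟩ : n ∣ k + 1 := h4 ▸ Nat.gcd_dvd_right n (k + 1)
  have hpos : 0 < 2 ^ n - 1 := Nat.sub_pos_of_lt (Nat.one_lt_two_pow hn0)
  rw [ht] at e9
  rcases t with _ | _ | _ | t
  · omega
  · rw [zero_add, mul_one] at e9
    have := Nat.le_of_dvd hpos e9
    nlinarith [hr.two_le]
  · rw [show n * (0 + 1 + 1) = n * 2 by ring, pow_mul, ← Nat.one_pow 2, Nat.sq_sub_sq, mul_comm,
      Nat.mul_dvd_mul_iff_right hpos] at e9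
    have := Nat.dvd_sub e9 hrq
    rw [show 2 ^ n + 1 - (2 ^ n - 1) = 2 by omega] at this
    exact hr2 ((Nat.prime_dvd_prime_iff_eq hr Nat.prime_two).1 this)
  · nlinarith

theorem exists_hig [Finite G] (hG : IsPGroup 2 G) (hmem : ∀ x, x ∈ Z ↔ x * x = 1)
    (hcent : ∀ z ∈ Z, ∀ x, z * x = x * z) (h2 : 2 < Nat.card Z) (Y : Subgroup (MulAut G))
    [Group.IsSolvable Y] (htr : ∀ x ∈ Z, ∀ y ∈ Z, x ≠ 1 → y ≠ 1 → ∃ a ∈ Y, a x = y) :
    ∃ ξ : MulAut G, Hig ξ ⊤ Z := by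
  classical
  have hZi : ∀ a : MulAut G, Inv a Z := fun a x hx => by
    rw [hmem] at hx ⊢; rw [← map_mul, hx, map_one]
  obtain ⟨n, hn⟩ := IsPGroup.iff_card.1 (hG.to_subgroup Z)
  let _ : CommGroup Z := { (inferInstance : Group Z) with
    mul_comm := fun x y => Subtype.ext (hcent _ x.2 _) }
  let _ : DistribMulAction (MulAut G) (Additive Z) :=
    { smul := fun a z => Additive.ofMul ⟨a z.toMul, hZi a _ z.toMul.2⟩
      one_smul := fun _ => rfl
      mul_smul := fun _ _ _ => rfl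
      smul_zero := fun a => Subtype.ext (map_one a)
      smul_add := fun a x y => Subtype.ext (map_mul a _ _) }
  have hs : ∀ (a : MulAut G) (z : Additive Z), ((a • z).toMul : G) = a z.toMul := fun _ _ => rfl
  have hext : ∀ {v w : Additive Z}, (v.toMul : G) = w.toMul → v = w := fun e => Subtype.ext e
  have hV : Nat.card (Additive Z) = Nat.card Z := rfl
  have : Nontrivial (Additive Z) := Finite.one_lt_card_iff_nontrivial.1 (by omega)
  obtain ⟨v0, hv0⟩ := exists_ne (0 : Additive Z)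
  have hY : CA.TrLin.Tr Y (Additive Z) := fun v w hv hw => by
    obtain ⟨a, ha, e⟩ := htr _ v.toMul.2 _ w.toMul.2 (fun e => hv (hext e)) (fun e => hw (hext e))
    exact ⟨⟨a, ha⟩, hext e⟩
  obtain ⟨H0, hH1, hH2⟩ := CA.H1Hall.exists_hall (G := Y) {p | p ∣ Nat.card Z - 1}
  have hH0 : CA.TrLin.Tr H0 (Additive Z) := by
    have h3 : (MulAction.stabilizer Y v0).index = Nat.card Z - 1 :=
      Nat.eq_of_mul_eq_mul_right Nat.card_pos ((index_mul_card _).trans (hY.dvd_card hv0).symm)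
    have h4 : Nat.card Z - 1 ∣ (MulAction.stabilizer Y v0).relIndex H0 := by
      refine Nat.Coprime.dvd_of_dvd_mul_right (n := H0.index) (Nat.coprime_of_dvd fun p hp h5 => hH2 p hp h5) ?_
      rw [← inf_relIndex_right, relIndex_mul_index inf_le_right, ← h3]
      exact index_dvd_of_le inf_le_left
    have h5 : (MulAction.orbit H0 v0).ncard = (MulAction.stabilizer Y v0).relIndex H0 := by
      rw [← MulAction.index_stabilizer]; rfl
    have h6 : MulAction.orbit H0 v0 = {0}ᶜ := by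
      refine Set.eq_of_subset_of_ncard_le ?_ ?_
      · rintro _ ⟨a, rfl⟩ e
        exact hv0 ((smul_eq_zero_iff_eq a).1 e)
      · rw [h5, Set.ncard_compl, Set.ncard_singleton]
        exact Nat.le_of_dvd (Nat.pos_of_ne_zero index_ne_zero_of_finite) h4
    intro v w hv hw
    obtain ⟨a, rfl⟩ : v ∈ MulAction.orbit H0 v0 := h6 ▸ hv
    obtain ⟨b, rfl⟩ : w ∈ MulAction.orbit H0 v0 := h6 ▸ hw
    exact ⟨b * a⁻¹, by simp [mul_smul]⟩
  let H := H0.map Y.subtype
  let eH : H0 ≃* H := H0.equivMapOfInjective _ Y.subtype_injective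
  have : Group.IsSolvable H := Group.isSolvable_of_surjective (f := eH.toMonoidHom) eH.surjective
  have hH : CA.TrLin.Tr H (Additive Z) := fun v w hv hw => by
    obtain ⟨a, ha⟩ := hH0 v w hv hw
    exact ⟨eH a, ha⟩
  have hf := faithful hG hmem hcent H (fun x hx y hy hx1 hy1 => by
    obtain ⟨a, ha⟩ := hH (Additive.ofMul ⟨x, hx⟩) (Additive.ofMul ⟨y, hy⟩)
      (fun e => hx1 (congrArg (fun v : Additive Z => (v.toMul : G)) e))
      (fun e => hy1 (congrArg (fun v : Additive Z => (v.toMul : G)) e))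
    exact ⟨a, a.2, congrArg (fun v : Additive Z => (v.toMul : G)) ha⟩)
    (fun p hp hd => hH1 p hp (by rwa [Nat.card_congr eH.toEquiv]))
  have hf' : ∀ a : H, (∀ v : Additive Z, a • v = v) → a = 1 := fun a e => Subtype.ext (hf a a.2
    fun z hz => congrArg (fun v : Additive Z => (v.toMul : G)) (e (Additive.ofMul ⟨z, hz⟩)))
  have : FaithfulSMul H (Additive Z) := ⟨fun {a b} e => by
    rw [← mul_inv_eq_one]
    exact hf' _ fun v => by rw [mul_smul, e, smul_inv_smul]⟩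
  let _ : Module (ZMod 2) (Additive Z) := AddCommGroup.zmodModule fun v => by
    rw [two_nsmul]; exact hext ((hmem _).1 v.toMul.2)
  have hn2 : 2 ≤ n := by
    by_contra hlt
    have : 2 ^ n ≤ 2 ^ 1 := Nat.pow_le_pow_right two_pos (by omega)
    omega
  rcases CA.HupTr.huppert 2 hH inferInstance with ⟨F, _, _, e, he⟩ | h
  swap
  · have : 2 ∣ 2 ^ n := dvd_pow_self 2 (by omega)
    simp only [Set.mem_insert_iff, Set.mem_singleton_iff] at h
    omega
  choose a σ haσ using he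
  have hF : Fintype.card F = 2 ^ n := by
    rw [← Nat.card_eq_fintype_card, ← Nat.card_congr e.toEquiv, hV, hn]
  have ha0 : ∀ g, a g ≠ 0 := fun g h0 => by
    have := haσ g v0
    rw [h0, zero_mul, map_eq_zero_iff _ e.injective, smul_eq_zero_iff_eq] at this
    exact hv0 this
  have hmul : ∀ g g' x, a (g * g') * σ (g * g') x = a g * σ g (a g' * σ g' x) := fun g g' x => by
    obtain ⟨v, rfl⟩ := e.surjective x
    rw [← haσ, ← haσ, ← haσ, mul_smul]
  have hmul1 : ∀ g g', a (g * g') = a g * σ g (a g') := fun g g' => by simpa using hmul g g' 1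
  let τ : H →* RingAut F := MonoidHom.mk' σ fun g g' => RingEquiv.ext fun x =>
    mul_left_cancel₀ (ha0 (g * g')) (by rw [hmul, map_mul, hmul1, mul_assoc]; rfl)
  let χ : τ.ker →* Fˣ := MonoidHom.mk' (fun g => Units.mk0 (a g) (ha0 g)) fun g g' => Units.ext (by
    show a (g * g') = a g * a g'
    rw [hmul1, show σ g = 1 from g.2]; rfl)
  have hχ : ∀ (g : τ.ker) v, e ((g : H) • v) = χ g * e v := fun g v => by
    rw [haσ, show σ g = 1 from g.2]; rfl
  have hχ1 : ∀ (g : τ.ker) (v : Additive Z), v ≠ 0 → (g : H) • v = v → g = 1 := fun g v hv h => by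
    have h1 := hχ g v
    rw [h, eq_comm, mul_eq_right₀ (by simpa using hv)] at h1
    exact Subtype.ext (hf' _ fun w => e.injective (by rw [hχ, h1, one_mul]))
  have hχi : Function.Injective χ := (injective_iff_map_eq_one χ).2 fun g hg =>
    hχ1 g v0 hv0 (e.injective (by rw [hχ, hg]; simp))
  have : IsCyclic τ.ker := isCyclic_of_injective χ hχi
  obtain ⟨ξ, hξ⟩ := IsCyclic.exists_ofOrder_eq_natCard (α := τ.ker)
  have h3 : Nat.card τ.ker ∣ 2 ^ n - 1 := by
    rw [← hF, ← Nat.card_eq_fintype_card, ← Nat.card_units]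
    exact card_dvd_of_injective χ hχi
  obtain ⟨d, hd⟩ := h3
  have h4 : d ∣ n := by
    have h5 := Dvd.intro _ (hH.dvd_card hv0)
    rw [hV, hn, hd, ← τ.ker.card_mul_index, Nat.mul_dvd_mul_iff_left Nat.card_pos, index_ker] at h5
    exact h5.trans ((card_subgroup_dvd_card _).trans (CA.AutFld.card_ringAut hF).dvd)
  refine ⟨((ξ : H) : MulAut G), hG.to_subgroup ⊤, fun _ _ => trivial, fun x => by simp [hmem],
    fun z hz x _ => hcent z hz x, fun k x _ hx => ?_, ⟨n, hn, NT_of_dvd hn2 ?_ h4⟩, h2⟩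
  · by_contra! h5
    obtain ⟨m, h6, h7⟩ := CA.Higman3.exists_inv_pow (hG x) h5.1
    have := hχ1 (ξ ^ k) (Additive.ofMul ⟨x ^ m, (hmem _).2 h7⟩)
      (fun e => h6 (congrArg (fun v : Additive Z => (v.toMul : G)) e))
      (hext (show (((ξ : H) : MulAut G) ^ k) (x ^ m) = x ^ m by rw [map_pow, hx]))
    exact h5.2 (congrArg (fun t : τ.ker => ((t : H) : MulAut G)) this)
  · rw [Subgroup.orderOf_coe, Subgroup.orderOf_coe, hξ, ← hd]
    exact Nat.sub_add_cancel Nat.one_le_two_pow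

end CA.H4Hig
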