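/-
The small Ree groups: the automorphism group.
-/
import Cfsg.Agent.Lib.Lie.ReeTori
import Cfsg.Prelude.Def_KGroupFacts

set_option autoImplicit false

namespace CA.Ree

open Subgroup MulAction

variable {K G : Type*} [Field K] [Group G] (R : Ree K G)

theorem hom_ext {G' : Type*} [Group G'] {α β : G →* G'} (hX : ∀ t u v, α (R.X t u v) = β (R.X t u v))
    (hD : ∀ κ, α (R.D κ) = β (R.D κ)) (hn : α R.n = β R.n) : α = β := MonoidHom.ext fun g => by
  rcases R.bruhat g with ⟨t, u, v, κ, rfl⟩ | ⟨t, u, v, κ, t', u', v', rfl⟩ <;> simp [hX, hD, hn]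

/-- field endomorphisms -/
noncomputable def φ0 (φ : RingAut K) : G →* G := (R.aut φ.toRingHom).choose

theorem φ0_X (φ : RingAut K) (t u v : K) : R.φ0 φ (R.X t u v) = R.X (φ t) (φ u) (φ v) := (R.aut _).choose_spec.1 t u v
theorem φ0_D (φ : RingAut K) (κ : Kˣ) : R.φ0 φ (R.D κ) = R.D (Units.map (φ : K →* K) κ) := (R.aut _).choose_spec.2.1 κ
theorem φ0_n (φ : RingAut K) : R.φ0 φ R.n = R.n := (R.aut _).choose_spec.2.2
theorem φ0_mul (φ ψ : RingAut K) : R.φ0 (φ * ψ) = (R.φ0 φ).comp (R.φ0 ψ) :=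
  R.hom_ext (by simp [φ0_X]) (fun κ => by simp only [φ0_D, MonoidHom.comp_apply]; rfl) (by simp [φ0_n])
theorem φ0_one : R.φ0 1 = MonoidHom.id G := R.hom_ext (by simp [φ0_X]) (fun κ => R.φ0_D 1 κ) (by simp [φ0_n])

/-- field automorphisms -/
noncomputable def Φ : RingAut K →* MulAut G := MonoidHom.mk' (fun φ => (R.φ0 φ).toMulEquiv (R.φ0 φ⁻¹)
    (by rw [← φ0_mul, inv_mul_cancel, φ0_one]) (by rw [← φ0_mul, mul_inv_cancel, φ0_one]))
  fun φ ψ => MulEquiv.ext fun x => DFunLike.congr_fun (R.φ0_mul φ ψ) x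

theorem Φ_X (φ : RingAut K) (t u v : K) : R.Φ φ (R.X t u v) = R.X (φ t) (φ u) (φ v) := R.φ0_X ..
theorem Φ_D (φ : RingAut K) (κ : Kˣ) : R.Φ φ (R.D κ) = R.D (Units.map (φ : K →* K) κ) := R.φ0_D ..
theorem Φ_n (φ : RingAut K) : R.Φ φ R.n = R.n := R.φ0_n _

variable [Finite K] (hq : 3 < Nat.card K)

theorem exists_norm (α : MulAut G) : ∃ g : G, (∀ x ∈ R.U, (MulAut.conj g * α : MulAut G) x ∈ R.U) ∧
    ∀ x ∈ R.H, (MulAut.conj g * α : MulAut G) x ∈ R.H := by
  obtain ⟨g, e⟩ := R.sylow_conj (α • R.sylU)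
  have hU : ∀ x ∈ R.U, (MulAut.conj g⁻¹ * α : MulAut G) x ∈ R.U := fun x hx => by
    obtain ⟨y, hy, e⟩ := e.le (mem_map_of_mem _ hx : α x ∈ R.U.map _)
    simpa [← e, mul_assoc] using hy
  generalize hβ : MulAut.conj g⁻¹ * α = β at hU
  have hB : ∀ b ∈ R.B, β b • R.inf = R.inf := fun b hb =>
    R.split.fix_of_conj_mem (hU _ (R.X_mem 1 0 0)) (by simp [X_eq_one]) (by simpa using hU _ (R.B_conj_mem hb (R.X_mem 1 0 0)))
  obtain ⟨x, hx, e⟩ := R.exists_U (p := β R.n • R.inf) fun e => R.n_not_mem (by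
    have := R.eq_top_of_le (N := R.B.comap β.toMonoidHom) (fun x h => R.U_le_B (hU x h)) (fun x h => R.fix_inf.1 (hB x (R.H_le_B h)))
      (R.fix_inf.1 e)
    simpa using this.ge (mem_top (β.symm R.n)))
  refine ⟨x⁻¹ * g⁻¹, ?_⟩
  rw [map_mul, mul_assoc, hβ]
  refine ⟨fun y hy => by simpa using mul_mem (mul_mem (inv_mem hx) (hU y hy)) hx, ?_⟩
  rintro _ ⟨κ, rfl⟩
  simp only [MulAut.mul_apply, MulAut.conj_apply, inv_inv, mem_H_iff, mul_smul, R.split.fix hx, hB _ (R.D_mem_B κ), e, inv_smul_eq_iff]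
  rw [← mul_smul, ← map_mul, D_mul_n, map_mul, mul_smul, hB _ (R.D_mem_B _)]
  exact ⟨trivial, rfl⟩

include R hq

theorem eq_one_of_cent {α : MulAut G} (hD : ∀ κ, α (R.D κ) = R.D κ) (hX : ∀ t u v, ∃ u' v', α (R.X t u v) = R.X t u' v') : α = 1 := by
  have c : ∀ κ g, α (R.D κ * g * (R.D κ)⁻¹) = R.D κ * α g * (R.D κ)⁻¹ := by simp [hD]
  have h2 : ∀ v, α (R.X 0 0 v) = R.X 0 0 v := fun v => by
    rcases eq_or_ne v 0 with rfl | hv
    · simp
    obtain ⟨κ, e⟩ := R.exists_v (Units.mk0 (-v) (by simpa))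
    obtain ⟨u', v', e'⟩ := hX κ 0 0
    have := congrArg (· ^ 3) e'
    simpa [← map_pow, X_cube, e] using this
  obtain ⟨a, b, e⟩ := hX 1 0 0
  have h0 : ∀ t, α (R.X t 0 0) = R.X t (t * R.s t * a) (t ^ 2 * R.s t * b) := fun t => by
    rcases eq_or_ne t 0 with rfl | ht
    · simp
    simpa [e, D_X] using c (Units.mk0 t ht) (R.X 1 0 0)
  obtain ⟨u, v, e1⟩ := hX 0 1 0
  obtain rfl : v = 0 := by
    have := c (-1) (R.X 0 1 0)
    rw [e1, ← J, J_X, eq_comm] at this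
    exact (R.J_fix.1 (by simpa [e1] using this)).2
  have := congrArg α (show R.X (-1) 0 0 * R.X 1 0 0 = R.X 0 1 0 * R.X 0 0 1 by
    simp only [X_mul, X_eq_iff, map_one, map_zero]; exact ⟨by ring, by ring, by linear_combination -R.three⟩)
  rw [map_mul, map_mul, h0, h0, h2, e1] at this
  simp only [X_mul, X_eq_iff, map_one, map_zero, map_neg] at this
  obtain rfl : a = 0 := by linear_combination -this.2.2 - R.three
  obtain rfl : u = 1 := by linear_combination -this.2.1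
  have h1 : ∀ u, α (R.X 0 u 0) = R.X 0 u 0 := fun u => by
    rcases eq_or_ne u 0 with rfl | hu
    · simp
    obtain ⟨ν, e⟩ := R.exists_sq (Units.mk0 u hu)
    obtain ⟨κ, e'⟩ := R.exists_u ν
    have := c κ (R.X 0 1 0)
    simp only [e1, D_X, e', mul_zero, mul_one, ← Units.val_pow_eq_pow_val] at this
    rcases e with e | e <;> rw [e] at this
    · exact this
    · simpa [← map_inv, X_inv] using congrArg (·⁻¹) this
  have h3 : ∀ t u v, α (R.X t u v) = R.X t u (v + t ^ 2 * R.s t * b) := fun t u v => by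
    rw [show R.X t u v = R.X t 0 0 * R.X 0 u 0 * R.X 0 0 v by simp [X_mul], map_mul, map_mul, h0, h1, h2]
    simp [X_mul, add_comm]
  obtain rfl : b = 0 := by_contra fun hb => by
    obtain ⟨t, ht⟩ := R.exists_s_ne hq
    have k := fun t' => (R.X_inj ((R.X_mul ..).symm.trans (by simpa only [map_mul, h3] using congrArg α (R.X_mul t 0 0 t' 0 0)))).2.2
    have k1 := k 1
    have k2 := k (-1)
    simp only [map_add, map_one, map_neg] at k1 k2
    exact ht (mul_right_cancel₀ hb (by linear_combination k1 + k2 + (R.s t * b + b * t) * R.three))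
  obtain ⟨ν, hν⟩ := exists_sq_ne hq
  have := congrArg α (R.n_D ν⁻¹)
  simp only [map_mul, map_inv α, hD, ← map_inv R.D, inv_inv] at this
  rcases R.mem_H_or hν this with ⟨κ, e⟩ | ⟨κ, e⟩
  · rw [← e, ← map_inv, ← map_mul, ← map_mul, R.D_injective.eq_iff, mul_inv_cancel_comm, inv_eq_iff_mul_eq_one] at this
    exact absurd (sq ν ▸ this) hν
  have := congrArg α R.rel
  simp only [map_mul, h3, e, mul_zero, add_zero] at this
  obtain ⟨-, h, -⟩ := R.split.canon_unique3 (w := R.n) (by rw [n_inf]; exact R.zero_ne) R.zero_ne (R.D_conj_mem κ (R.X_mem 0 (-1) 0))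
    (R.X_mem 0 (-1) 0) (R.D_inf (κ * κ)) (R.D_zero _) (R.D_inf κ) (R.D_zero κ) (R.D_conj_mem κ (R.X_mem 0 (-1) 0)) (R.X_mem 0 (-1) 0) (by
      rw [mul_assoc _ (R.D κ), ← this]
      calc _ = R.D κ * (R.X 0 (-1) 0 * (R.D κ * R.n * R.D κ) * R.X 0 (-1) 0) * (R.D κ)⁻¹ := by rw [map_mul]; group
        _ = R.D κ * (R.n * R.X 0 1 0 * R.n) * (R.D κ)⁻¹ := by rw [rel, D_mul_n, map_inv, inv_mul_cancel_right]
        _ = _ := by simp only [mul_assoc]; rw [R.D_mul_n κ, map_inv])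
  rw [map_mul, mul_eq_left] at h
  exact MulEquiv.toMonoidHom_injective (R.hom_ext (by simp [h3]) hD (by simp [e, h]))

theorem exists_Φ (α : MulAut G) : ∃ g φ, α = MulAut.conj g * R.Φ φ := by
  obtain ⟨g, hU, hH⟩ := R.exists_norm α
  suffices ∀ β : MulAut G, (∀ x ∈ R.U, β x ∈ R.U) → (∀ x ∈ R.H, β x ∈ R.H) → ∃ g φ, β = MulAut.conj g * R.Φ φ by
    obtain ⟨g', φ, e⟩ := this _ hU hH
    exact ⟨g⁻¹ * g', φ, by rw [map_mul, mul_assoc, ← e, map_inv, inv_mul_cancel_left]⟩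
  intro β hU hH
  choose f f1 f2 hf using fun t u v => hU _ (R.X_mem t u v)
  choose χ hχ using fun κ => hH _ (R.D_mem κ)
  have z : ∀ t u v, f t u v = 0 ↔ t = 0 := fun t u v => by
    rw [← R.X_cube_eq_one (u := f1 t u v) (v := f2 t u v), ← hf, ← map_pow, map_eq_one_iff _ β.injective, X_cube_eq_one]
  have m : ∀ t u v t' u' v', f (t + t') (u + u' - t * R.s t') (v + v' - u * t' - t ^ 2 * R.s t' + t * t' * R.s t') =
      f t u v + f t' u' v' := fun t u v t' u' v' =>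
    (R.X_inj ((R.X_mul ..).symm.trans (by simpa only [map_mul, hf] using congrArg β (R.X_mul t u v t' u' v')))).1.symm
  have r : ∀ t u v, f t u v = f t 0 0 := fun t u v => by simpa [(z 0 u v).2 rfl] using m t 0 0 0 u v
  have d : ∀ (κ : Kˣ) t, f (κ * t) 0 0 = χ κ * f t 0 0 := fun κ t => by
    have := congrArg β (R.D_X κ t 0 0)
    rw [map_mul, map_mul, map_inv, hf, hf, ← hχ, D_X, mul_zero, mul_zero] at this
    exact (R.X_inj this).1.symm
  let c := Units.mk0 _ ((z 1 0 0).not.2 one_ne_zero)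
  have d1 : ∀ κ : Kˣ, f κ 0 0 = χ κ * c := fun κ => by simpa [c] using d κ 1
  let φ : K →+* K :=
    { toFun t := f t 0 0 / c
      map_one' := div_self c.ne_zero
      map_zero' := by simp [z]
      map_add' a b := by rw [← add_div, ← m, r (a + b) (_ - _)]
      map_mul' a b := by
        rcases eq_or_ne a 0 with rfl | ha
        · simp [(z 0 0 0).2 rfl]
        have := d (Units.mk0 a ha) b
        have := d1 (Units.mk0 a ha)
        simp_all [mul_div_assoc] }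
  let ψ : RingAut K := .ofBijective φ (Finite.injective_iff_bijective.1 φ.injective)
  have e : ∀ t, c * ψ t = f t 0 0 := fun t => mul_div_cancel₀ _ c.ne_zero
  refine ⟨R.D c, ψ, eq_of_inv_mul_eq_one (R.eq_one_of_cent hq (fun κ => ?_) fun t u v => ?_) |>.symm⟩ <;>
    simp only [MulAut.mul_apply, MulAut.inv_def, MulEquiv.symm_apply_eq, MulAut.conj_apply, Φ_D, Φ_X]
  · rw [← hχ, D_comm, mul_inv_cancel_right]
    congr 1; ext; exact mul_left_cancel₀ c.ne_zero (by rw [mul_comm, ← d1, ← e]; rfl)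
  · refine ⟨ψ.symm (f1 t u v / (c * R.s c)), ψ.symm (f2 t u v / (c ^ 2 * R.s c)), ?_⟩
    rw [hf, D_X, e, r, ψ.apply_symm_apply, ψ.apply_symm_apply, mul_div_cancel₀ _ (by simp), mul_div_cancel₀ _ (by simp)]

theorem card_out : Nat.card (Cfsg.Out G) = Nat.card (RingAut K) := by
  refine (Nat.card_eq_of_bijective ((QuotientGroup.mk' (Cfsg.Inn G)).comp R.Φ) ⟨(injective_iff_map_eq_one _).2 fun φ h => ?_, fun a => ?_⟩).symm
  · obtain ⟨g, e⟩ := (QuotientGroup.eq_one_iff _).1 h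
    have e : ∀ x, g * x * g⁻¹ = R.Φ φ x := DFunLike.congr_fun e
    have h1 := R.split.fix_of_conj_mem (R.X_mem 1 0 0) (by simp [X_eq_one]) (by rw [e, Φ_X]; exact R.X_mem ..)
    have h2 : g • R.zero = R.zero := by
      rw [← n_inf, ← mul_smul, mul_inv_eq_iff_eq_mul.1 (e R.n), mul_smul, h1, Φ_n]
    obtain ⟨κ, rfl⟩ := R.mem_H_iff.2 ⟨h1, h2⟩
    have k := fun t => (R.X_inj ((R.D_X κ t 0 0).symm.trans ((e _).trans (R.Φ_X ..)))).1
    have := k 1
    exact RingEquiv.ext fun t => by rw [← k, show (κ : K) = 1 by simpa using this, one_mul]; rfl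
  · obtain ⟨α, rfl⟩ := QuotientGroup.mk_surjective a
    obtain ⟨g, φ, rfl⟩ := R.exists_Φ hq α
    exact ⟨φ, by rw [QuotientGroup.mk_mul, (QuotientGroup.eq_one_iff (N := Cfsg.Inn G) _).2 (MonoidHom.mem_range.2 ⟨g, rfl⟩), one_mul]; rfl⟩

end CA.Ree
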