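/-
The small Ree groups: the Schur multiplier is trivial.
-/
import Cfsg.Agent.Lib.Lie.ReeTori2
import Cfsg.Agent.Lib.Grp.SchurFilt
import Mathlib.LinearAlgebra.Projectivization.PSL.PSL2

set_option autoImplicit false

namespace CA.Ree

open Subgroup CA.SchurFilt CA.SchurExt
open scoped MatrixGroups commutatorElement IsMulCommutative

universe w

variable {K G : Type*} [Field K] [Group G] (R : Ree K G)

/-- the central series of `U` -/
def V (k : ℕ) : Subgroup G where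
  carrier := {g | ∃ t u v, g = R.X t u v ∧ (0 < k → t = 0) ∧ (1 < k → u = 0) ∧ (2 < k → v = 0)}
  one_mem' := ⟨0, 0, 0, R.X_zero.symm, by simp⟩
  mul_mem' := by
    rintro _ _ ⟨t, u, v, rfl, h1, h2, h3⟩ ⟨t', u', v', rfl, h4, h5, h6⟩
    exact ⟨_, _, _, R.X_mul .., fun h => by simp [h1 h, h4 h], fun h => by simp [h1 (by omega), h2 h, h5 h],
      fun h => by simp [h1 (by omega), h2 (by omega), h3 h, h6 h]⟩
  inv_mem' := by
    rintro _ ⟨t, u, v, rfl, h1, h2, h3⟩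
    exact ⟨_, _, _, R.X_inv .., fun h => by simp [h1 h], fun h => by simp [h1 (by omega), h2 h],
      fun h => by simp [h1 (by omega), h2 (by omega), h3 h]⟩

theorem X_mem_V {k : ℕ} {t u v : K} : R.X t u v ∈ R.V k ↔ (0 < k → t = 0) ∧ (1 < k → u = 0) ∧ (2 < k → v = 0) :=
  ⟨fun ⟨_, _, _, e, h⟩ => by obtain ⟨rfl, rfl, rfl⟩ := R.X_inj e; exact h, fun h => ⟨t, u, v, rfl, h⟩⟩

theorem V_le (k : ℕ) : R.V k ≤ R.U := fun _ ⟨t, u, v, e, _⟩ => ⟨t, u, v, e⟩
theorem V_zero : R.V 0 = R.U := (R.V_le 0).antisymm fun _ ⟨t, u, v, e⟩ => ⟨t, u, v, e, by simp⟩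
theorem V_three : R.V 3 = ⊥ := eq_bot_iff.2 fun _ ⟨t, u, v, e, h⟩ => by simp_all
theorem V_anti : Antitone R.V := fun _ _ h _ ⟨t, u, v, e, h1, h2, h3⟩ =>
  ⟨t, u, v, e, fun _ => h1 (by omega), fun _ => h2 (by omega), fun _ => h3 (by omega)⟩

theorem X_comm (t u v t' u' v' : K) : ⁅R.X t u v, R.X t' u' v'⁆ =
    R.X 0 (t' * R.s t - t * R.s t') (t * u' - t' * u + t ^ 2 * R.s t' - t' ^ 2 * R.s t) := by
  rw [commutatorElement_def, mul_assoc, ← mul_inv_rev, mul_inv_eq_iff_eq_mul, X_mul, X_mul, X_mul, X_eq_iff]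
  exact ⟨by ring, by ring, by linear_combination (t' ^ 2 * R.s t - t ^ 2 * R.s t') * R.three⟩

theorem comm_mem_V (k : ℕ) : ∀ u ∈ R.V 0, ∀ v ∈ R.V k, ⁅u, v⁆ ∈ R.V (k + 1) := by
  rintro _ ⟨t, u, v, rfl, -⟩ _ ⟨t', u', v', rfl, h1, h2, -⟩
  rw [X_comm, X_mem_V]
  exact ⟨fun _ => rfl, fun _ => by simp [h1 (by omega)], fun _ => by simp [h1 (by omega), h2 (by omega)]⟩

theorem D_conj_V (k : ℕ) : ∀ g ∈ R.H, ∀ u ∈ R.V k, g * u * g⁻¹ ∈ R.V k := by
  rintro _ ⟨κ, rfl⟩ _ ⟨t, u, v, rfl, h1, h2, h3⟩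
  rw [D_X, X_mem_V]
  exact ⟨fun h => by simp [h1 h], fun h => by simp [h2 h], fun h => by simp [h3 h]⟩

/-- the elements of the layers -/
def xl : ℕ → K → G
  | 0, a => R.X a 0 0
  | 1, a => R.X 0 a 0
  | _, a => R.X 0 0 a

/-- the weights of the layers -/
def wt : ℕ → Kˣ → K
  | 0, κ => κ
  | 1, κ => κ * R.s κ
  | _, κ => κ ^ 2 * R.s κ

theorem xl_mem {k : ℕ} (hk : k < 3) (a : K) : R.xl k a ∈ R.V k := by interval_cases k <;> simp [xl, X_mem_V]
theorem xl_add {k : ℕ} (hk : k < 3) (a b : K) : (R.xl k a * R.xl k b)⁻¹ * R.xl k (a + b) ∈ R.V (k + 1) := by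
  interval_cases k <;> simp [xl, X_mem_V, X_mul, X_inv]
theorem exists_xl {k : ℕ} (hk : k < 3) {g : G} (hg : g ∈ R.V k) : ∃ a, (R.xl k a)⁻¹ * g ∈ R.V (k + 1) := by
  obtain ⟨t, u, v, rfl, h⟩ := hg
  interval_cases k
  exacts [⟨t, by simp [xl, X_mem_V, X_mul, X_inv]⟩, ⟨u, by simp_all [xl, X_mem_V, X_mul, X_inv]⟩,
    ⟨v, by simp_all [xl, X_mul, X_inv]⟩]
theorem D_xl {k : ℕ} (hk : k < 3) (κ : Kˣ) (a : K) : R.D κ * R.xl k a * (R.D κ)⁻¹ = R.xl k (R.wt k κ * a) := by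
  interval_cases k <;> simp [xl, wt, D_X]

theorem fpf {κ : Kˣ} (hκ : κ ^ 2 ≠ 1) {k : ℕ} (hk : k < 3) : Fpf R.H (R.V k) (R.V (k + 1)) := by
  have h1 : (κ : K) - 1 ≠ 0 := sub_ne_zero.2 fun e => hκ (by rw [Units.val_eq_one.1 e, one_pow])
  have h2 : (κ : K) * R.s κ - 1 ≠ 0 := sub_ne_zero.2 fun e => hκ (Units.ext (R.sq_eq_one_of e))
  have h3 : (κ : K) ^ 2 * R.s κ - 1 ≠ 0 := sub_ne_zero.2 fun e => h1 (sub_eq_zero.2 (R.eq_one_of e))
  refine ⟨_, R.D_mem κ, ?_, ?_⟩ <;> rintro _ ⟨t, u, v, rfl, h⟩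
  · interval_cases k
    · exact ⟨R.X (t / (κ - 1)) 0 0, by simp [X_mem_V], by
        simp [commutatorElement_def, D_X, X_mem_V, X_mul, X_inv]; field_simp; ring⟩
    · exact ⟨R.X 0 (u / (κ * R.s κ - 1)) 0, by simp [X_mem_V], by
        simp_all [commutatorElement_def, D_X, X_mem_V, X_mul, X_inv]; field_simp; ring⟩
    · exact ⟨R.X 0 0 (v / (κ ^ 2 * R.s κ - 1)), by simp [X_mem_V], by
        simp_all [commutatorElement_def, D_X, X_mem_V, X_mul, X_inv]; field_simp; ring⟩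
  · intro e
    interval_cases k <;> simp_all [commutatorElement_def, D_X, X_mem_V, X_mul, X_inv]
    exacts [(mul_eq_zero.1 (by linear_combination e : (κ - 1) * t = 0)).resolve_left h1,
      (mul_eq_zero.1 (by linear_combination e : (κ * R.s κ - 1) * u = 0)).resolve_left h2,
      (mul_eq_zero.1 (by linear_combination e : (κ ^ 2 * R.s κ - 1) * v = 0)).resolve_left h3]

theorem kill_of {E : Type*} [Group E] {p : E →* G} {L : Subgroup E} {j k : ℕ} (hj : j < 3) (hk : k < 3)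
    (h : ∀ f : K → K → center E, (∀ a b c, f (a + b) c = f a c * f b c) → (∀ a b c, f a (b + c) = f a b * f a c) →
      (∀ κ a b, f (R.wt j κ * a) (R.wt k κ * b) = f a b) → ∀ a b, f a b = 1) :
    Kill p R.H (R.V j) (R.V (j + 1)) (R.V k) (R.V (k + 1)) L := by
  intro β hb u hu v hv
  have m1 := R.xl_mem hj
  have m2 := R.xl_mem hk
  have r := fun {a u b v} => hb.red (a := a) (u := u) (b := b) (v := v) (R.V_anti j.le_succ) (R.V_anti k.le_succ)
  obtain ⟨a, ha⟩ := R.exists_xl hj hu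
  obtain ⟨b, hb'⟩ := R.exists_xl hk hv
  rw [r (m1 a) (m2 b) ha hb']
  refine h (fun a b => β (R.xl j a) (R.xl k b)) (fun a b c => ?_) (fun a b c => ?_) (fun κ a b => ?_) a b
  · rw [← hb.mul_l _ (m1 a) _ (m1 b) _ (m2 c)]
    exact r (mul_mem (m1 a) (m1 b)) (m2 c) (R.xl_add hj a b) (by simp)
  · rw [← hb.mul_r _ (m1 a) _ (m2 b) _ (m2 c)]
    exact r (m1 a) (mul_mem (m2 b) (m2 c)) (by simp) (R.xl_add hk b c)
  · rw [← R.D_xl hj, ← R.D_xl hk, hb.inv _ (R.D_mem κ) _ (m1 a) _ (m2 b)]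

section
variable {Z : Type*} [CommGroup Z] {f : K → K → Z} (h1 : ∀ a b c, f (a + b) c = f a c * f b c)
  (h2 : ∀ a b c, f a (b + c) = f a b * f a c)
include R h1

theorem biadd_neg (a b : K) : f (-a) b = f a b * f a b := by rw [← h1]; congr 1; linear_combination -a * R.three

theorem biadd_sign (h : ∀ a b, f (-a) b = f a b) (a b : K) : f a b = 1 := by
  simpa [h] using R.biadd_neg h1 a b

include h2

theorem biadd_scal [Finite K] (hq : 3 < Nat.card K) (h : ∀ (ν : Kˣ) a b, f (ν ^ 2 * a) (ν ^ 2 * b) = f a b) (a b : K) : f a b = 1 := by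
  have z1 : ∀ b, f 0 b = 1 := fun b => by simpa using h1 0 0 b
  have z2 : ∀ a, f a 0 = 1 := fun a => by simpa using h2 a 0 0
  have k : ∀ μ : K, μ ≠ 0 → ∀ a b, f (μ * a) (μ * b) = f a b := fun μ hμ a b => by
    obtain ⟨ν, e | e⟩ := R.exists_sq (Units.mk0 μ hμ) <;> rw [← h ν a b, ← Units.val_pow_eq_pow_val, e]
    · rfl
    · have e1 := h1 (-μ * a) (μ * a) (-μ * b)
      have e2 := h2 (μ * a) (μ * b) (-μ * b)
      simp only [neg_mul, neg_add_cancel, add_neg_cancel, z1, z2] at e1 e2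
      simpa using mul_right_cancel (e2.symm.trans e1)
  obtain ⟨v, hv⟩ := exists_sq_ne hq
  have e1 : 1 - (v : K) ≠ 0 := fun e => hv (Units.ext (by push_cast; linear_combination -(1 + v) * e))
  refine CA.SchurCov.biadd_eq_one f h1 h2 v.ne_zero e1 (fun e => hv (Units.ext ?_)) (k _ v.ne_zero) (k _ e1) a b
  have : (v : K) + 1 = 0 := pow_eq_zero_iff two_ne_zero |>.1 (by linear_combination e + v * R.three)
  push_cast; linear_combination (v - 1) * this

end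

theorem not_add [Finite K] (hq : 3 < Nat.card K) (h : ∀ x : K, x ^ 3 ≠ x → ∀ e : K, e ^ 2 = 1 →
    ((x + e) ^ 2 * R.s (x + e))⁻¹ = (x ^ 2 * R.s x)⁻¹ + e) : False := by
  have k : ∀ x : K, x ^ 3 ≠ x → ((x ^ 2 * R.s x)⁻¹ - x) * (R.s x - x) = -1 := fun x hx => by
    have x0 : x ≠ 0 := by rintro rfl; simp at hx
    have x1 : x + 1 ≠ 0 := fun e => hx (by linear_combination x * (x - 1) * e)
    have x2 : x + -1 ≠ 0 := fun e => hx (by linear_combination x * (x + 1) * e)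
    have e0 := mul_inv_cancel₀ (mul_ne_zero (pow_ne_zero 2 x0) ((map_ne_zero R.s).2 x0))
    have e1 := mul_inv_cancel₀ (mul_ne_zero (pow_ne_zero 2 x1) ((map_ne_zero R.s).2 x1))
    have e2 := mul_inv_cancel₀ (mul_ne_zero (pow_ne_zero 2 x2) ((map_ne_zero R.s).2 x2))
    rw [h x hx 1 (by simp), map_add, map_one] at e1
    rw [h x hx (-1) (by simp), map_add, map_neg, map_one] at e2
    generalize (x ^ 2 * R.s x)⁻¹ = a at *
    linear_combination -e0 - e1 - e2 + (a * x + a * x ^ 2 * R.s x + a * R.s x + x * R.s x + x ^ 2) * R.three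
  obtain ⟨x, hx⟩ := exists_sq_ne hq
  have h1 : (x : K) ^ 2 ≠ 1 := fun e => hx (Units.ext e)
  have e1 := k x fun e => h1 (mul_left_cancel₀ x.ne_zero (by linear_combination e))
  have e2 := k (x ^ 2) fun e => R.sq_ne x (by
    have : (x : K) ^ 2 * ((x ^ 2 - 1) * (x ^ 2 + 1)) = 0 := by linear_combination e
    simpa [sub_eq_zero, h1, add_eq_zero_iff_eq_neg] using this)
  have e0 := mul_inv_cancel₀ (mul_ne_zero (pow_ne_zero 2 x.ne_zero) (R.s_ne x))
  rw [map_pow, ← mul_pow, ← inv_pow] at e2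
  generalize ((x : K) ^ 2 * R.s x)⁻¹ = a at *
  have e3 : (a + x) * (R.s x + x) = 1 := by linear_combination ((a + x) * (R.s x + x)) * e1 - e2
  exact R.sq_ne (x ^ 2) (by linear_combination x ^ 2 * (x ^ 2 + a * R.s x) * R.three - x ^ 2 * (e1 + e3) - e0)

theorem kill {E : Type*} [Group E] {p : E →* G} {L : Subgroup E} [Finite K] (hq : 3 < Nat.card K) {j k : ℕ} (hk : k < 3) (hj : j ≤ k) :
    Kill p R.H (R.V j) (R.V (j + 1)) (R.V k) (R.V (k + 1)) L := by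
  refine R.kill_of (by omega) hk fun f h1 h2 h3 => ?_
  interval_cases k <;> interval_cases j <;> simp only [wt] at h3
  · exact R.biadd_scal h1 h2 hq fun ν => Units.val_pow_eq_pow_val ν 2 ▸ h3 (ν ^ 2)
  · exact R.biadd_sign h1 fun a b => by simpa using h3 (-1) a b
  · exact R.biadd_scal h1 h2 hq fun ν => by obtain ⟨κ, e⟩ := R.exists_u ν; exact e ▸ h3 κ
  · by_contra hf
    have k : ∀ x : K, x ≠ 0 → ∀ b, f x b = f 1 ((x ^ 2 * R.s x)⁻¹ * b) := fun x hx b => by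
      rw [← h3 (Units.mk0 x hx) 1, Units.val_mk0, mul_one, mul_inv_cancel_left₀ (by simp [hx])]
    refine R.not_add hq fun x hx e he => by_contra fun hc => hf fun a b => ?_
    have x0 : x ≠ 0 := by rintro rfl; simp at hx
    have x1 : x + e ≠ 0 := fun h => hx (by linear_combination x * (x - e) * h + x * he)
    have e0 : e ≠ 0 := by rintro rfl; simp at he
    have k2 : ∀ b, f 1 b = 1 := fun b => by
      obtain ⟨c, rfl⟩ : ∃ c, b = (((x + e) ^ 2 * R.s (x + e))⁻¹ - ((x ^ 2 * R.s x)⁻¹ + e)) * c :=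
        ⟨_, (mul_inv_cancel_left₀ (sub_ne_zero.2 hc) b).symm⟩
      have := h1 x e c
      rw [k _ x1, k _ x0, k _ e0, ← h2, he, one_mul, show (R.s e)⁻¹ = e by
        rcases sq_eq_one_iff.1 he with rfl | rfl <;> simp, ← add_mul] at this
      rw [← mul_left_inj (f 1 (((x ^ 2 * R.s x)⁻¹ + e) * c)), ← h2, one_mul, ← this]
      congr 1; ring
    rcases eq_or_ne a 0 with rfl | ha
    exacts [by simpa using h1 0 0 b, by rw [k a ha, k2]]
  · exact fun a b => R.biadd_sign (f := fun a b => f b a) (fun a b c => h2 c a b) (fun a b => by simpa using h3 (-1) b a) b a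
  · exact R.biadd_scal h1 h2 hq fun ν => by obtain ⟨κ, e⟩ := R.exists_v (ν ^ 2); push_cast at e; exact e ▸ h3 κ

theorem schur {G : Type w} [Group G] (R : Ree K G) [Finite K] (hq : 3 < Nat.card K) {r : ℕ} (hr : r ^ 2 = 3 * Nat.card K) :
    Cfsg.HasCyclicSchurMultiplier G 1 := by
  have := R.finite
  refine has_one_of_primes fun p hp E _ _ τ hτ hk => ?_
  have := Fact.mk hp
  obtain ⟨κ, hκ⟩ := exists_sq_ne hq
  obtain ⟨S⟩ : Nonempty (Sylow p G) := inferInstance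
  have hS := hp.coprime_iff_not_dvd.2 S.not_dvd_index
  obtain rfl | rfl | h3 : p = 2 ∨ p = 3 ∨ 3 < p := by have := hp.two_le; omega
  · refine eq_bot_iff.2 ((ker_le_comm hτ hk hS).trans (commutator_le.2 fun a ha b hb => ?_))
    rw [mem_bot, commutatorElement_eq_one_iff_commute, ← mem_cz hτ.2.1]
    by_cases a1 : τ a = 1
    · exact (mem_cz hτ.2.1).2 (mem_center_iff.1 (hτ.2.1 a1) b).symm
    obtain ⟨Θ, h⟩ := R.exists_invC hq a1 (R.sq_of_pgroup S.2 ha)
    obtain ⟨e, y, hy⟩ := h.ex (R.comm_of_pgroup S.2 hb ha)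
    have k : commutator PSL(2, K) ≤ (cz τ a).comap (Θ.comp (MonoidHom.inr ..)) := commutator_le.2 fun x _ y _ => by
      rw [mem_comap, map_commutatorElement]
      exact comm_mem_cz hτ.2.1 hτ.1 a (h.comm _).symm (h.comm _).symm
    rw [SL2Simple.PSL_commutator_eq_top ⟨(κ : K), κ.ne_zero, fun e => hκ (Units.ext e)⟩] at k
    have k : Θ (1, y) ∈ cz τ a := k trivial
    rcases Z2_cases e with rfl | rfl
    · rwa [hy]
    · rw [hy, show (ε, y) = (ε, 1) * (1, y) by simp, map_mul, h.eq]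
      exact mul_mem ((mem_cz hτ.2.1).2 rfl) k
  · obtain ⟨M, hM, -⟩ := filt hτ.2.1 hτ.1 R.H (fun g h ⟨a, ha⟩ ⟨b, hb⟩ => hτ.2.1 (by
        rw [MonoidHom.mem_ker, map_commutatorElement, ← ha, ← hb, commutatorElement_eq_one_iff_mul_comm, D_comm]))
      R.V R.V_anti 3 R.V_three R.comm_mem_V R.D_conj_V (fun _ => ⊥) (fun k hk => Or.inr ⟨rfl, R.fpf hκ hk⟩) fun k hk j hj => R.kill hq hk hj
    have : ⁅R.U.comap τ, R.U.comap τ⁆ ≤ M := commutator_le.2 fun a ha b hb =>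
      hM.comm_mem hτ.2.1 (hM.nW a (R.V_zero ▸ ha)) (R.V_zero ▸ hb)
    exact eq_bot_iff.2 fun z hz => hM.inj z (this (ker_le_comm hτ hk (hp.coprime_iff_not_dvd.2 R.not_dvd_index) hz)) hz
  · have : IsCyclic (S : Subgroup G) := by
      by_cases e : (S : Subgroup G) = ⊥
      · rw [e]; infer_instance
      obtain ⟨A, k, c, n, i, hA, h1, -⟩ := R.exists_tor hq hr h3 S.2 e
      have := hA.cyc
      exact isCyclic_of_le h1
    exact ker_eq_bot_of_cyclic hτ hk hS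

end CA.Ree
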