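/-
Centre and generators of the Weyl group; generation of a Chevalley group by `N` and root subgroups.
-/
import Cfsg.Agent.Lib.Lie.ChevOrdCert
import Cfsg.Agent.Lib.Lie.ChevAll

set_option autoImplicit false

namespace CA.Chev.Cox

open Matrix Equiv Cfsg.Lie CA.Chev

variable {D : ChevalleyDatum} [Good D]

theorem eq_or_of_refl {r s : Rt D} (h : refl s = refl r) : s = r ∨ s = ng r := by
  by_contra hn
  push Not at hn
  have h1 := rt_refl s r
  rw [h, refl_self, rt_ng] at h1
  have := (indep hn.1 hn.2 (m := 2) (n := -pr s r) (by linear_combination (exp := 1) -h1)).1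
  omega

theorem central_cases {w : Perm (Rt D)} (hw : w ∈ W D) (hc : ∀ u ∈ W D, u * w = w * u) :
    w = 1 ∨ ∀ r, w r = ng r := by
  have hR := W_le_RA hw
  have k : ∀ r, w r = r ∨ w r = ng r := fun r => eq_or_of_refl (by
    rw [← conj_refl hR, ← hc _ (refl_mem r), mul_inv_cancel_right])
  have i0 : Nd D := ⟨0, by have := (pre D).two_le; omega⟩
  let top : Rt D := ⟨D.nroots - 1, by have := (sim i0).2; omega⟩
  have ht : ∀ i, 0 < rt top i := fun i => (pre D).top i i.2
  have co : ∀ i, rt (w top) i = rt top i * rt (w (sim i)) i := by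
    intro i
    rw [← lin_rt hR, lin, Fintype.linearCombination_apply, Finset.sum_apply, Finset.sum_eq_single i]
    · rfl
    · intro j _ hj
      rcases k (sim j) with e | e <;> simp [e, rt_sim, Pi.single_eq_of_ne hj.symm]
    · simp
  rcases k top with e | e
  · refine Or.inl (eq_one_of_fix hR fun i => (k (sim i)).resolve_right fun e' => ?_)
    have := co i
    have h2 := ht i
    rw [e, e'] at this
    simp [rt_sim] at this
    omega
  · have h3 : ∀ i, w (sim i) = ng (sim i) := fun i => (k (sim i)).resolve_left fun e' => by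
      have := co i
      have h2 := ht i
      rw [e, e'] at this
      simp [rt_sim] at this
      omega
    have : lin w = -LinearMap.id := lin_ext fun i => by rw [lin_rt_sim, h3]; simp
    exact Or.inr fun r => rt_injective (by rw [← lin_rt hR, this]; simp)

theorem neg_of_sim {w : Perm (Rt D)} (hw : w ∈ RA D) (h : ∀ i, w (sim i) = ng (sim i)) (r : Rt D) : w r = ng r := by
  have : lin w = -LinearMap.id := lin_ext fun i => by rw [lin_rt_sim, h]; simp
  exact rt_injective (by rw [← lin_rt hw, this]; simp)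

/-- the Coxeter element -/
noncomputable def cox (D : ChevalleyDatum) [Good D] : W D := ⟨wd (List.finRange D.rank), wd_mem _⟩

theorem map_cox {M : CoxeterMatrix (Nd D)} {e : W D ≃* M.Group} (he : ∀ i, e (sW i) = M.simple i) :
    ((List.finRange D.rank).map M.simple).prod = e (cox D) := by
  have e2 : cox D = ((List.finRange D.rank).map sW).prod :=
    Subtype.ext (by rw [← Subgroup.coe_subtype, map_list_prod, List.map_map]; rfl)
  rw [e2, map_list_prod, List.map_map]
  congr 2; funext i; exact (he i).symm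

theorem center_two {T : Tab} (hT : tab D = T) {M : CoxeterMatrix (Nd D)}
    (h : ∃ e : W D ≃* M.Group, ∀ i, e (sW i) = M.simple i) (m : ℕ)
    (hc : allLt T.l (fun i => decide (itW T (List.range T.l) m (T.simple i) = T.neg (T.simple i))) = true) :
    Nat.card (Subgroup.center M.Group) = 2 ∧
      Subgroup.center M.Group ≤ Subgroup.zpowers ((List.finRange D.rank).map M.simple).prod := by
  obtain ⟨e, he⟩ := h
  subst hT
  have hz : ∀ r, (cox D ^ m).1 r = ng r := by
    refine neg_of_sim (W_le_RA (cox D ^ m).2) fun i => Fin.ext ?_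
    have := of_decide_eq_true (allLt_iff.1 hc i i.2)
    have h2 := itW_eq (List.finRange D.rank) m (sim i)
    rw [List.map_coe_finRange_eq_range] at h2
    exact h2.symm.trans this
  have i0 : Nd D := ⟨0, by have := (pre D).two_le; omega⟩
  have hne : e (cox D ^ m) ≠ 1 := fun h1 => by
    have := hz (sim i0)
    rw [e.map_eq_one_iff.1 h1] at this
    exact ng_ne _ this.symm
  have key : ∀ g, g ∈ Subgroup.center M.Group ↔ g = 1 ∨ g = e (cox D ^ m) := by
    intro g
    obtain ⟨w, rfl⟩ := e.surjective g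
    rw [Subgroup.mem_center_iff]
    constructor
    · intro hg
      rcases central_cases w.2 (fun u hu => congrArg Subtype.val (e.injective (by
        simpa only [map_mul] using hg (e ⟨u, hu⟩)) : (⟨u, hu⟩ : W D) * w = w * ⟨u, hu⟩)) with h1 | h1
      · exact Or.inl (by rw [show w = 1 from Subtype.ext h1, map_one])
      · exact Or.inr (congrArg e (Subtype.ext (Equiv.ext fun r => (h1 r).trans (hz r).symm)))
    · rintro (h1 | h1) u
      · rw [h1, mul_one, one_mul]
      · obtain ⟨v, rfl⟩ := e.surjective u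
        rw [h1, ← map_mul, ← map_mul]
        congr 1
        exact Subtype.ext (Equiv.ext fun r => by
          change v.1 ((cox D ^ m).1 r) = (cox D ^ m).1 (v.1 r)
          rw [hz, hz, map_ng (W_le_RA v.2)])
  refine ⟨?_, fun g hg => ?_⟩
  · have : (Subgroup.center M.Group : Set M.Group) = {1, e (cox D ^ m)} := Set.ext fun g => key g
    rw [← SetLike.coe_sort_coe, this, Nat.card_coe_set_eq, Set.ncard_pair hne.symm]
  · rcases (key g).1 hg with rfl | rfl
    · exact one_mem _
    · rw [map_cox he, map_pow]; exact pow_mem (Subgroup.mem_zpowers _) m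

theorem center_one {T : Tab} (hT : tab D = T) {M : CoxeterMatrix (Nd D)}
    (h : ∃ e : W D ≃* M.Group, ∀ i, e (sW i) = M.simple i) (L : List (Nd D)) (j : Nd D)
    (hc : allLt T.l (fun i => decide (apW T (L.map Fin.val) (T.simple i) < T.n / 2)) = true)
    (hj : apW T (L.map Fin.val) (T.simple j) ≠ T.neg (T.simple j)) : Subgroup.center M.Group = ⊥ := by
  obtain ⟨e, he⟩ := h
  subst hT
  rw [eq_bot_iff]
  intro g hg
  obtain ⟨w, rfl⟩ := e.surjective g
  rw [Subgroup.mem_center_iff] at hg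
  rcases central_cases w.2 (fun u hu => congrArg Subtype.val (e.injective (by
    simpa only [map_mul] using hg (e ⟨u, hu⟩)) : (⟨u, hu⟩ : W D) * w = w * ⟨u, hu⟩)) with h1 | h1
  · rw [show w = 1 from Subtype.ext h1, map_one]; exact one_mem _
  · have h2 : w.1 * wd L = 1 := eq_one_of_pos (mul_mem w.2 (wd_mem L)) fun i => by
      rw [Perm.mul_apply, h1, pos_ng]
      have := of_decide_eq_true (allLt_iff.1 hc i i.2)
      exact not_le.2 ((apW_eq L (sim i)).symm.trans_lt this)
    refine (hj ((apW_eq L (sim j)).trans (congrArg Fin.val (?_ : wd L (sim j) = ng (sim j))))).elim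
    rw [← ng_inj, ← h1, ← Perm.mul_apply, h2, ng_ng]; rfl

/-- apply a word in simple reflections and the Coxeter element (letter `l`) -/
noncomputable def apC (T : Tab) (L : List ℕ) (s : ℕ) : ℕ :=
  List.rec s (fun k _ ih => if k = T.l then apW T (List.range T.l) ih else T.rf k ih) L

noncomputable def genChk (T : Tab) (I : List ℕ) (st : ℕ → ℕ) (us : ℕ → List ℕ) : Bool :=
  allLt T.l fun j => decide (st j ∈ I) && (us j).all (fun k => decide (k ∈ I) || decide (k = T.l)) &&
    decide (apC T (us j) (T.simple (st j)) = T.simple j)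

theorem gen_of_chk {T : Tab} (hT : tab D = T) {M : CoxeterMatrix (Nd D)}
    (h : ∃ e : W D ≃* M.Group, ∀ i, e (sW i) = M.simple i) (I : List (Nd D)) {st : ℕ → ℕ} {us : ℕ → List ℕ}
    (hc : genChk T (I.map Fin.val) st us = true) {H : Subgroup M.Group}
    (h1 : ((List.finRange D.rank).map M.simple).prod ∈ H) (h2 : ∀ i ∈ I, M.simple i ∈ H) : H = ⊤ := by
  obtain ⟨e, he⟩ := h
  subst hT
  have k1 : ∀ L : List ℕ, (∀ k ∈ L, k ∈ I.map Fin.val ∨ k = D.rank) →
      ∃ u : W D, e u ∈ H ∧ ∀ s : Rt D, apC (tab D) L s = (u.1 s).val := by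
    intro L
    induction L with
    | nil => exact fun _ => ⟨1, by rw [map_one]; exact one_mem _, fun _ => rfl⟩
    | cons k L ih =>
      intro hL
      obtain ⟨u, hu, hs⟩ := ih fun k hk => hL k (List.mem_cons_of_mem _ hk)
      by_cases ek : k = D.rank
      · refine ⟨cox D * u, by rw [map_mul, ← map_cox he]; exact mul_mem h1 hu, fun s => ?_⟩
        have h3 := apW_eq (List.finRange D.rank) (u.1 s)
        rw [List.map_coe_finRange_eq_range, ← hs] at h3
        exact (if_pos ek).trans h3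
      · obtain ⟨i, hi, rfl⟩ := List.mem_map.1 ((hL k List.mem_cons_self).resolve_right ek)
        refine ⟨sW i * u, by rw [map_mul, he]; exact mul_mem (h2 i hi) hu, fun s => (if_neg ek).trans ?_⟩
        change (tab D).rf i (apC (tab D) L s) = _
        rw [hs]; rfl
  have k2 : ∀ j, e (sW j) ∈ H := by
    intro j
    have := allLt_iff.1 hc j j.2
    simp only [Bool.and_eq_true, decide_eq_true_eq, List.all_eq_true, Bool.or_eq_true] at this
    obtain ⟨⟨a1, a2⟩, a3⟩ := this
    obtain ⟨i, hi, e1⟩ := List.mem_map.1 a1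
    obtain ⟨u, hu, hs⟩ := k1 _ a2
    rw [← e1] at a3
    have h4 : u.1 (sim i) = sim j := Fin.ext ((hs (sim i)).symm.trans a3)
    have h5 : sW j = u * sW i * u⁻¹ := by
      rw [eq_mul_inv_iff_mul_eq]; exact Subtype.ext (mul_sR_of_eq (W_le_RA u.2) h4).symm
    rw [h5, map_mul, map_mul, map_inv, he]
    exact mul_mem (mul_mem hu (h2 i hi)) (inv_mem hu)
  rw [eq_top_iff]
  intro g _
  obtain ⟨w, rfl⟩ := e.surjective g
  obtain ⟨L, hL⟩ := invGen_sW.2 w
  rw [← hL, CA.WordLen.wp, map_list_prod]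
  refine list_prod_mem fun x hx => ?_
  simp only [List.map_map, List.mem_map] at hx
  obtain ⟨j, -, rfl⟩ := hx
  exact k2 j

theorem simple_ne {M : CoxeterMatrix (Nd D)} (h : ∃ e : W D ≃* M.Group, ∀ i, e (sW i) = M.simple i) {i j : Nd D}
    (hij : i ≠ j) : M.simple i ≠ M.simple j := by
  obtain ⟨e, he⟩ := h
  rw [← he, ← he]
  intro h1
  have h2 : sR i = sR j := congrArg Subtype.val (e.injective h1)
  rw [← refl_sim, ← refl_sim] at h2
  rcases eq_or_of_refl h2 with h3 | h3
  · exact hij (sim_injective h3)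
  · exact (pos_ng _).1 (h3 ▸ pos_sim i) (pos_sim j)

/-! ### generation by `N` and root subgroups -/

variable {K : Type*} [Field K] {Γ : Type*} [Group Γ] (A : Sys D K Γ) (M : Subgroup Γ)

/-- the root subgroup of index `r` lies in `M` -/
def Ok (r : ℕ) : Prop := ∃ h : r < D.nroots, ∀ t, A.x ⟨r, h⟩ t ∈ M

variable {A M}

theorem Ok.ap (hN : A.N ≤ M) {T : Tab} (hT : tab D = T) {r : ℕ} (h : Ok A M r) (L : List ℕ)
    (hL : L.all (fun k => decide (k < T.l)) = true) : Ok A M (apW T L r) := by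
  subst hT
  induction L with
  | nil => exact h
  | cons k L ih =>
    rw [List.all_cons, Bool.and_eq_true, decide_eq_true_eq] at hL
    obtain ⟨h1, h2⟩ := ih hL.2
    obtain ⟨c, hc⟩ := (A.act_sim ⟨k, hL.1⟩ 1).conj_x ⟨_, h1⟩
    refine ⟨(sR ⟨k, hL.1⟩ ⟨_, h1⟩).2, fun t => ?_⟩
    have := hc ((c : K)⁻¹ * t)
    rw [mul_inv_cancel_left₀ c.ne_zero] at this
    change A.x (sR ⟨k, hL.1⟩ ⟨_, h1⟩) t ∈ M
    rw [← this]
    exact mul_mem (mul_mem (hN (A.n_mem _ _)) (h2 _)) (inv_mem (hN (A.n_mem _ _)))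

theorem Ok.wit {T : Tab} (hT : tab D = T) {j r s : ℕ} (hj : j < T.l) {C : ℤ} (h : wit2 T j r s C = true)
    (hC : (C : K) ≠ 0) (hr : Ok A M r) (hs : Ok A M s) : Ok A M (T.simple j) := by
  subst hT
  simp only [wit2, Bool.and_eq_true, decide_eq_true_eq] at h
  obtain ⟨⟨⟨⟨h1, h2⟩, h3⟩, h4⟩, h5⟩ := h
  refine ⟨(sim ⟨j, hj⟩).2, fun t => ?_⟩
  have e := A.comm (r := ⟨r, h1⟩) (s := ⟨s, h2⟩) (fun e => h3 (congrArg Fin.val e))
    (fun e => h4 (congrArg Fin.val e)) (-1) ((C : K)⁻¹ * t)
  rw [cw, cT_of_raw (r := ⟨r, h1⟩) (s := ⟨s, h2⟩) (k := sim ⟨j, hj⟩) h5] at e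
  simp only [List.map_cons, List.map_nil, List.prod_cons, List.prod_nil, mul_one, neg_neg, pow_one,
    mul_inv_cancel_left₀ hC] at e
  change A.x (sim ⟨j, hj⟩) t ∈ M
  rw [← inv_mul_eq_iff_eq_mul] at e
  rw [← e]
  exact mul_mem (inv_mem (mul_mem (hr.2 _) (hs.2 _))) (mul_mem (hs.2 _) (hr.2 _))

theorem G_le_of_ok (hN : A.N ≤ M) (h : ∀ j < D.rank, Ok A M (D.simple j)) : A.G ≤ M :=
  A.G_le_of (fun _ => hN (A.n_mem _ _)) fun i t => (h i i.2).2 t

theorem ok_of_le {i : ℕ} (hi : i < D.rank) {M : Subgroup (GL D.Idx K)} (h : D.rootSubgroup K (D.simple i) ≤ M) :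
    Ok (adj D K) M (D.simple i) :=
  ⟨(sim ⟨i, hi⟩).2, fun t => h ((rootSubgroup_eq (sim ⟨i, hi⟩)).ge ((adj D K).x_mem (Set.mem_singleton _) t))⟩

/-- words carrying the fundamental root `i` to the fundamental root `j` -/
noncomputable def mvChk (T : Tab) (L : List ℕ) (i j : ℕ) : Bool :=
  L.all (fun k => decide (k < T.l)) && decide (apW T L (T.simple i) = T.simple j)

theorem Ok.mv (hN : A.N ≤ M) {T : Tab} (hT : tab D = T) {i j : ℕ} (h : Ok A M (D.simple i)) (L : List ℕ)
    (hL : mvChk T L i j = true) : Ok A M (D.simple j) := by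
  rw [mvChk, Bool.and_eq_true, decide_eq_true_eq] at hL
  have := h.ap hN hT L hL.1
  subst hT
  change Ok A M (apW (tab D) L ((tab D).simple i)) at this
  rwa [hL.2] at this

theorem all_of_laced (hN : A.N ≤ M) {T : Tab} (hT : tab D = T) (us : ℕ → List ℕ)
    (hc : allLt T.l (fun j => mvChk T (us j) j 0 && mvChk T (us j).reverse 0 j) = true) {i : ℕ} (hi : i < D.rank)
    (h : Ok A M (D.simple i)) : A.G ≤ M := by
  have hl : T.l = D.rank := by subst hT; rfl
  refine G_le_of_ok hN fun j hj => ?_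
  have h1 := allLt_iff.1 hc i (hl ▸ hi)
  have h2 := allLt_iff.1 hc j (hl ▸ hj)
  rw [Bool.and_eq_true] at h1 h2
  exact (h.mv hN hT _ h1.1).mv hN hT _ h2.2

end CA.Chev.Cox
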