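/-
Homocyclic Sylow subgroups of Chevalley groups.
-/
import Cfsg.Agent.Lib.Lie.SST

set_option autoImplicit false

namespace CA.Chev

open Matrix Equiv Cfsg.Lie Cfsg.Lie.ChevalleyDatum

section
variable {r q : ℕ} [Fact r.Prime]

theorem dvd_pow_sub_one_iff (hq : 0 < q) {e : ℕ} : r ∣ q ^ e - 1 ↔ orderOf (q : ZMod r) ∣ e := by
  rw [orderOf_dvd_iff_pow_eq_one, ← ZMod.natCast_eq_zero_iff, Nat.cast_pred (pow_pos hq e), sub_eq_zero, Nat.cast_pow]

theorem val_pow_sub_one (h2 : r ≠ 2) (hrq : ¬ r ∣ q) (hq : 1 < q) {e : ℕ} (he : ¬ r ∣ e) : padicValNat r (q ^ e - 1) =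
    if orderOf (q : ZMod r) ∣ e then padicValNat r (q ^ orderOf (q : ZMod r) - 1) else 0 := by
  split_ifs with h
  · obtain ⟨k, rfl⟩ := h
    have := padicValNat.pow_sub_pow (p := r) ((Fact.out : r.Prime).odd_of_ne_two h2) (y := 1)
      (Nat.one_lt_pow (by rintro h; simp [h] at he) hq) ((dvd_pow_sub_one_iff (by omega)).2 dvd_rfl)
      (fun h => hrq ((Fact.out : r.Prime).dvd_of_dvd_pow h)) (n := k) (by rintro rfl; simp at he)
    rw [one_pow, padicValNat.eq_zero_of_not_dvd fun h => he (h.mul_left _)] at this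
    rw [pow_mul, this, add_zero]
  · exact padicValNat.eq_zero_of_not_dvd fun h' => h ((dvd_pow_sub_one_iff (by omega)).1 h')

theorem not_dvd_pow_sub_one (hq : 0 < q) {k : ℕ} (h0 : 0 < k) (h : k < orderOf (q : ZMod r)) : ¬ (r : ℤ) ∣ q ^ k - 1 :=
  fun e => (Nat.le_of_dvd h0 ((dvd_pow_sub_one_iff hq).1 (by zify [Nat.one_le_pow k q hq]; exact e))).not_gt h

theorem val_cyclotomic (hq : 1 < q) (h : 0 < orderOf (q : ZMod r)) : padicValNat r (q ^ orderOf (q : ZMod r) - 1) =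
    padicValNat r ((Polynomial.cyclotomic (orderOf (q : ZMod r)) ℤ).eval (q : ℤ)).natAbs := by
  have h1 := congrArg (fun f => (Polynomial.eval (q : ℤ) f).natAbs) (Polynomial.prod_cyclotomic_eq_X_pow_sub_one h ℤ)
  simp only [← Nat.cons_self_properDivisors h.ne', Finset.prod_cons, Polynomial.eval_mul, Int.natAbs_mul,
    Polynomial.eval_sub, Polynomial.eval_pow, Polynomial.eval_X, Polynomial.eval_one] at h1
  have h2 := Nat.one_lt_pow h.ne' hq
  rw [show ((q : ℤ) ^ orderOf (q : ZMod r) - 1).natAbs = q ^ orderOf (q : ZMod r) - 1 by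
    rw [← Int.natAbs_natCast (_ - 1), Nat.cast_pred (by omega), Nat.cast_pow]] at h1
  have h3 := mul_ne_zero_iff.1 (h1.trans_ne (by omega))
  rw [← h1, padicValNat.mul h3.1 h3.2, add_eq_left]
  refine padicValNat.eq_zero_of_not_dvd fun e => ?_
  rw [← Int.natCast_dvd, Polynomial.eval_prod, (Nat.prime_iff_prime_int.1 Fact.out).dvd_finsetProd_iff] at e
  obtain ⟨k, hk, e⟩ := e
  exact not_dvd_pow_sub_one (by omega) (Nat.pos_of_mem_properDivisors hk) (Nat.mem_properDivisors.1 hk).2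
    (e.trans (by simpa using Polynomial.eval_dvd (x := (q : ℤ)) (Polynomial.cyclotomic.dvd_X_pow_sub_one k ℤ)))

theorem val_prod (h2 : r ≠ 2) (hrq : ¬ r ∣ q) (hq : 1 < q) {L : List ℕ} (h : ¬ r ∣ L.prod) :
    (L.map (q ^ · - 1)).prod ≠ 0 ∧ padicValNat r (L.map (q ^ · - 1)).prod =
      padicValNat r (q ^ orderOf (q : ZMod r) - 1) * (L.filter (orderOf (q : ZMod r) ∣ ·)).length := by
  induction L with
  | nil => simp
  | cons e L ih =>
    rw [List.prod_cons] at h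
    have h1 := ih fun h' => h (h'.mul_left _)
    have h3 := Nat.one_lt_pow (n := e) (by rintro rfl; simp at h) hq
    rw [List.map_cons, List.prod_cons, padicValNat.mul (by omega) h1.1, h1.2, val_pow_sub_one h2 hrq hq fun h' =>
      h (h'.mul_right _), List.filter_cons]
    refine ⟨mul_ne_zero (by omega) h1.1, ?_⟩
    split_ifs <;> simp_all; ring
end

variable {D : ChevalleyDatum} [Good D] {K : Type*} [Field K] {Γ : Type*} [Group Γ]

theorem Form.exists_hom {A : Sys D K Γ} {τ : Twist A} {X : Type*} [Group X] {p : ℕ} [Fact p.Prime] [CharP K p]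
    (Φ : Form τ p X) [IsAlgClosed K] {w : Perm (Rt D)} (hw : w ∈ W D) :
    ∃ φ : τ.TW w →* X, ∀ c, φ c = 1 ↔ tor c.1 = 1 := by
  obtain ⟨n, hn, h⟩ := A.exists_N hw
  obtain ⟨y, hy⟩ := τ.exists_lang Φ.S Φ.fr hn
  refine ⟨Φ.π.comp ((((MulAut.conj y).toMonoidHom.comp Φ.S.h3.torH).comp (τ.TW w).subtype).codRestrict _ fun c => ?_),
    fun c => (Φ.ker _).trans ?_⟩
  · change τ.σ (y * Φ.S.h3.torH c * y⁻¹) = y * Φ.S.h3.torH c * y⁻¹
    rw [map_mul, map_mul, map_inv, hy, τ.σ_torH]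
    conv_rhs => rw [← τ.mem_TW.1 c.2, ← Φ.S.h3.conj_torH h]
    group
  · change A.θ (y * Φ.S.h3.torH c * y⁻¹) = 1 ↔ _
    rw [map_mul, map_mul, map_inv, conj_eq_one_iff, Φ.S.h3.θ_torH, ← map_one dgG, dgG_injective.eq_iff]

/-- `f` is the `d`-th cyclotomic polynomial up to irrelevant factors -/
def CycOK (d e : ℕ) (f : ℕ → ℤ) : Prop := ∃ L : List ℕ, (∀ k ∈ L, 0 < k ∧ k < d) ∧
  ∀ q : ℤ, q ^ d - 1 ∣ ev (e + 1) f q * (L.map (q ^ · - 1)).prod

variable (D) in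
def SylCert (n d a : ℕ) : Prop := ∃ (L : List (Nd D)) (S : ℕ → ℕ) (e : ℕ) (f : ℕ → ℤ) (V : ℕ → ℕ → ℕ → ℤ) (μ : ℕ → ℕ → ℤ)
  (z : ℕ), subChk (tab D) (L.map Fin.val) id S e a f V μ z = true ∧ z ∣ n ∧ CycOK d e f

theorem exists_homocyclic (hD : D ∈ [chevG2, chevB2, chevD4, chevF4, chevE6, chevE7, chevE8]) {F : Type*} [Field F]
    [Fintype F] {r : ℕ} [Fact r.Prime] (hrq : ¬ r ∣ Fintype.card F) {n a : ℕ} (hn : ¬ r ∣ n)
    (h : SylCert D n (orderOf (Fintype.card F : ZMod r)) a) {v : ℕ}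
    (hv : r ^ v ∣ Fintype.card F ^ orderOf (Fintype.card F : ZMod r) - 1) :
    ∃ φ : (Fin a → Multiplicative (ZMod (r ^ v))) →* D.group F, Function.Injective φ := by
  have hr : r.Prime := Fact.out
  obtain ⟨p, hp⟩ := CharP.exists F
  obtain ⟨k, hp', hk⟩ := FiniteField.card F p
  have := Fact.mk hp'
  obtain ⟨τ, Φ, -, -, h1, -, -⟩ := form_untw (p := p) hD F
  obtain ⟨L, S, e, f, V, μ, z, h2, h3, M, h4, h5⟩ := h
  obtain ⟨ζ, hζ⟩ := exists_unit_order (K := AlgebraicClosure F) (n := r ^ v) fun e => hrq (by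
    rw [hk, ← (Nat.prime_dvd_prime_iff_eq hp' hr).1 (hp'.dvd_of_dvd_pow ((CharP.cast_eq_zero_iff _ p _).1 e))]
    exact dvd_pow_self p k.2.ne')
  have h6 : ζ ^ ev (e + 1) f (Fintype.card F) = 1 := by
    rw [← orderOf_dvd_iff_zpow_eq_one, hζ, Nat.cast_pow]
    refine (Nat.prime_iff_prime_int.1 hr).pow_dvd_of_dvd_mul_right v (fun h => ?_) (.trans ?_ (h5 _))
    · obtain ⟨_, h7, h8⟩ := (Nat.prime_iff_prime_int.1 hr).dvd_prod_iff.1 h
      obtain ⟨k, hk, rfl⟩ := List.mem_map.1 h7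
      exact not_dvd_pow_sub_one Fintype.card_pos (h4 k hk).1 (h4 k hk).2 h8
    · zify [Nat.one_le_pow _ _ (Fintype.card_pos (α := F))] at hv; exact hv
  obtain ⟨h7, h8⟩ := sub_spec rfl L (ι := id) (fun _ => rfl) h2 _ h6
  obtain ⟨φ, hφ⟩ := Φ.exists_hom (wd_mem L)
  have h9 : ∀ (t : Fin a → ℤ) (i : Nd D), ζ ^ ∑ j, t j * ev e (V j · i) (Fintype.card F) =
      ∏ j, (ζ ^ t j) ^ ev e (V j · i) (Fintype.card F) := fun t i => by simp only [zpow_sum', _root_.zpow_mul]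
  have : NeZero (r ^ v) := ⟨pow_ne_zero _ hr.ne_zero⟩
  refine ⟨φ.comp (MonoidHom.mk' (fun t => ⟨fun i => ζ ^ ∑ j, ((t j).toAdd.val : ℤ) * ev e (V j · i) (Fintype.card F), ?_⟩)
    fun s t => Subtype.ext (funext fun i => ?_)), (injective_iff_map_eq_one _).2 fun t ht => funext fun j => ?_⟩
  · convert (τ.TW _).prod_mem (t := Finset.univ) fun (j : Fin a) _ => (τ.TW _).pow_mem ((h1 _ _).2 (h7 j j.2)) (t j).toAdd.val using 1
    ext i
    simp only [zpow_sum', Finset.prod_apply, Pi.pow_apply, ← zpow_natCast, ← _root_.zpow_mul, mul_comm]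
  · simp only [h9, Subgroup.coe_mul, Pi.mul_apply, ← Finset.prod_mul_distrib, ← mul_zpow, zpow_natCast, ← pow_add,
      toAdd_mul, ZMod.val_add, ← hζ, pow_mod_orderOf]
  · have := orderOf_dvd_iff_zpow_eq_one.2 (h8 _ ((hφ _).1 ht) j)
    rw [hζ, ← Nat.cast_mul, Int.natCast_dvd_natCast] at this
    have := ((hr.coprime_iff_not_dvd.2 fun h => hn (h.trans h3)).pow_left v).dvd_of_dvd_mul_left this
    exact (ZMod.val_eq_zero (t j).toAdd).1 (Nat.eq_zero_of_dvd_of_lt this (ZMod.val_lt _))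

theorem sylow_homocyclic (hD : D ∈ [chevG2, chevB2, chevD4, chevF4, chevE6, chevE7, chevE8]) {F : Type*} [Field F]
    [Fintype F] {deg : List ℕ} {g N : ℕ} (hg : g ∣ deg.prod) (h2 : 2 ∣ deg.prod)
    (hc : g * Nat.card (D.group F) = Fintype.card F ^ N * (deg.map (Fintype.card F ^ · - 1)).prod)
    (h : ∀ e ∈ deg, ∀ d, d ∣ e → SylCert D deg.prod d (deg.filter (d ∣ ·)).length)
    (r : ℕ) [Fact r.Prime] (hrq : ¬ r ∣ Fintype.card F) (hW : ¬ r ∣ deg.prod) (hG : r ∣ Nat.card (D.group F))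
    (P : Sylow r (D.group F)) : Nonempty (P ≃* (Fin (deg.filter (orderOf (Fintype.card F : ZMod r) ∣ ·)).length →
      Multiplicative (ZMod (r ^ padicValNat r ((Polynomial.cyclotomic (orderOf (Fintype.card F : ZMod r)) ℤ).eval
        (Fintype.card F : ℤ)).natAbs)))) := by
  have hr : r.Prime := Fact.out
  have hq : 1 < Fintype.card F := Fintype.one_lt_card
  obtain ⟨h3, h4⟩ := val_prod (fun e : r = 2 => hW (e ▸ h2)) hrq hq hW
  have h5 := congrArg (padicValNat r) hc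
  rw [padicValNat.mul (by rintro rfl; exact hW ((dvd_zero r).trans hg)) Nat.card_pos.ne', padicValNat.mul (by positivity) h3,
    h4, padicValNat.eq_zero_of_not_dvd fun e => hW (e.trans hg),
    padicValNat.eq_zero_of_not_dvd fun e => hrq (hr.dvd_of_dvd_pow e), zero_add, zero_add] at h5
  obtain ⟨e, he⟩ := List.exists_mem_of_length_pos (Nat.pos_of_ne_zero fun e =>
    (one_le_padicValNat_of_dvd Nat.card_pos.ne' hG).not_gt (by rw [h5, e]; simp))
  rw [List.mem_filter, decide_eq_true_eq] at he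
  rw [← val_cyclotomic hq (Nat.pos_of_dvd_of_pos he.2 (Nat.pos_of_ne_zero fun e' =>
    hW ((e' ▸ dvd_zero r).trans (List.dvd_prod he.1))))]
  obtain ⟨φ, hφ⟩ := exists_homocyclic hD hrq hW (h e he.1 _ he.2) pow_padicValNat_dvd
  exact ⟨(P.equiv (Sylow.ofCard φ.range (by
    rw [← Nat.card_congr (MonoidHom.ofInjective hφ).toEquiv, Nat.factorization_def _ hr, h5, Nat.card_fun]
    simp [pow_mul]))).trans (MonoidHom.ofInjective hφ).symm⟩

end CA.Chev
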